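import Cfsg.Prelude.Def_RootSubgroups
import Cfsg.Agent.Lib.UnipBS.Main

/-! Quadratic elements of linear groups described through their nilpotent parts. -/

set_option autoImplicit false

namespace Cfsg.Agent.Lib.QuadRoot

universe u v

variable {k : Type u} [Field k] {M : Type v} [AddCommGroup M] [Module k M]

/-- `T` is the linear map of an element of `G`. -/
def Mem (G : Subgroup (LinearMap.GeneralLinearGroup k M)) (T : Module.End k M) : Prop :=
  ∃ g ∈ G, (g : Module.End k M) = T

/-- The scalar family of `1 + X` lies in `G`. -/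
def Fam (G : Subgroup (LinearMap.GeneralLinearGroup k M)) (X : Module.End k M) : Prop :=
  X * X = 0 ∧ ∀ c : k, Mem G (1 + c • X)

/-- rank -/
noncomputable def rk (X : Module.End k M) : ℕ := Module.finrank k (LinearMap.range X)

/-- `1 + X` is a quadratic element of minimal rank. -/
def Root (G : Subgroup (LinearMap.GeneralLinearGroup k M)) (X : Module.End k M) : Prop :=
  Fam G X ∧ X ≠ 0 ∧ ∀ Y, Fam G Y → Y ≠ 0 → rk X ≤ rk Y

/-- conjugate of an endomorphism -/
def cj (g : LinearMap.GeneralLinearGroup k M) (X : Module.End k M) : Module.End k M :=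
  (g : Module.End k M) * X * ((g⁻¹ : LinearMap.GeneralLinearGroup k M) : Module.End k M)

variable {G : Subgroup (LinearMap.GeneralLinearGroup k M)} {X Y Z : Module.End k M}

theorem Mem.mul {T S : Module.End k M} (hT : Mem G T) (hS : Mem G S) : Mem G (T * S) := by
  obtain ⟨g, hg, rfl⟩ := hT
  obtain ⟨h, hh, rfl⟩ := hS
  exact ⟨g * h, mul_mem hg hh, rfl⟩

theorem one_add_mul_one_sub (h : X * X = 0) : (1 + X) * (1 - X) = 1 ∧ (1 - X) * (1 + X) = 1 :=
  ⟨by calc (1 + X) * (1 - X) = 1 - X * X := by noncomm_ring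
        _ = 1 := by rw [h, sub_zero],
   by calc (1 - X) * (1 + X) = 1 - X * X := by noncomm_ring
        _ = 1 := by rw [h, sub_zero]⟩

/-- the unipotent element `1 + X` -/
def uni (X : Module.End k M) (h : X * X = 0) : LinearMap.GeneralLinearGroup k M :=
  ⟨1 + X, 1 - X, (one_add_mul_one_sub h).1, (one_add_mul_one_sub h).2⟩

theorem coe_uni (h : X * X = 0) : (uni X h : Module.End k M) = 1 + X := rfl

theorem coe_uni_inv (h : X * X = 0) :
    ((uni X h)⁻¹ : LinearMap.GeneralLinearGroup k M) = (1 - X : Module.End k M) := rfl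

theorem Fam.sq (h : Fam G X) : X * X = 0 := h.1

theorem smul_sq (h : X * X = 0) (c : k) : (c • X) * (c • X) = 0 := by
  rw [smul_mul_smul_comm, h, smul_zero]

theorem Fam.uni_mem (h : Fam G X) : uni X h.1 ∈ G := by
  obtain ⟨g, hg, e⟩ := h.2 1
  rw [one_smul] at e
  exact (Units.ext e : g = uni X h.1) ▸ hg

theorem Fam.one_add (h : Fam G X) : Mem G (1 + X) := by simpa using h.2 1

theorem Fam.one_sub (h : Fam G X) : Mem G (1 - X) := by simpa [sub_eq_add_neg] using h.2 (-1)

theorem Fam.smul (h : Fam G X) (c : k) : Fam G (c • X) :=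
  ⟨smul_sq h.1 c, fun d => by rw [smul_smul]; exact h.2 _⟩

theorem Fam.neg (h : Fam G X) : Fam G (-X) := by simpa using h.smul (-1)

theorem fam_zero : Fam G (0 : Module.End k M) :=
  ⟨mul_zero _, fun c => ⟨1, one_mem _, by simp⟩⟩

theorem Fam.add (hX : Fam G X) (hY : Fam G Y) (hXY : X * Y = 0) (hYX : Y * X = 0) :
    Fam G (X + Y) := by
  refine ⟨by rw [mul_add, add_mul, add_mul, hX.1, hY.1, hXY, hYX]; simp, fun c => ?_⟩
  have := (hX.2 c).mul (hY.2 c)
  rwa [show (1 + c • X) * (1 + c • Y) = 1 + c • (X + Y) by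
    rw [mul_add, add_mul, add_mul, smul_mul_smul_comm, hXY, smul_zero, smul_add]; simp; abel] at this

theorem cj_mul (g : LinearMap.GeneralLinearGroup k M) (X Y : Module.End k M) :
    cj g (X * Y) = cj g X * cj g Y := by
  simp only [cj, mul_assoc]
  rw [← mul_assoc ((g⁻¹ : LinearMap.GeneralLinearGroup k M) : Module.End k M) (g : Module.End k M),
    Units.inv_mul, one_mul]

theorem cj_zero (g : LinearMap.GeneralLinearGroup k M) : cj g (0 : Module.End k M) = 0 := by simp [cj]

theorem cj_one (g : LinearMap.GeneralLinearGroup k M) : cj g (1 : Module.End k M) = 1 := by simp [cj]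

theorem cj_add (g : LinearMap.GeneralLinearGroup k M) (X Y : Module.End k M) :
    cj g (X + Y) = cj g X + cj g Y := by simp [cj, mul_add, add_mul]

theorem cj_sub (g : LinearMap.GeneralLinearGroup k M) (X Y : Module.End k M) :
    cj g (X - Y) = cj g X - cj g Y := by simp [cj, mul_sub, sub_mul]

theorem cj_smul (g : LinearMap.GeneralLinearGroup k M) (c : k) (X : Module.End k M) :
    cj g (c • X) = c • cj g X := by simp [cj]

theorem cj_coe (g h : LinearMap.GeneralLinearGroup k M) :
    ((g * h * g⁻¹ : LinearMap.GeneralLinearGroup k M) : Module.End k M) = cj g (h : Module.End k M) := rfl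

theorem cj_cj (g h : LinearMap.GeneralLinearGroup k M) (X : Module.End k M) :
    cj g (cj h X) = cj (g * h) X := by
  simp [cj, mul_inv_rev, mul_assoc]

theorem one_cj (X : Module.End k M) : cj (1 : LinearMap.GeneralLinearGroup k M) X = X := by simp [cj]

theorem cj_inv_cj (g : LinearMap.GeneralLinearGroup k M) (X : Module.End k M) : cj g⁻¹ (cj g X) = X := by
  rw [cj_cj, inv_mul_cancel, one_cj]

theorem cj_injective (g : LinearMap.GeneralLinearGroup k M) : Function.Injective (cj g) :=
  fun X Y h => by rw [← cj_inv_cj g X, h, cj_inv_cj]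

theorem coe_mul_inv_apply (g : LinearMap.GeneralLinearGroup k M) (m : M) :
    (g : Module.End k M) (((g⁻¹ : LinearMap.GeneralLinearGroup k M) : Module.End k M) m) = m :=
  LinearMap.congr_fun (g.mul_inv : (g : Module.End k M) * ((g⁻¹ : LinearMap.GeneralLinearGroup k M) : Module.End k M) = 1) m

theorem inv_mul_coe_apply (g : LinearMap.GeneralLinearGroup k M) (m : M) :
    ((g⁻¹ : LinearMap.GeneralLinearGroup k M) : Module.End k M) ((g : Module.End k M) m) = m :=
  LinearMap.congr_fun (g.inv_mul : ((g⁻¹ : LinearMap.GeneralLinearGroup k M) : Module.End k M) * (g : Module.End k M) = 1) m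

theorem coe_injective (g : LinearMap.GeneralLinearGroup k M) : Function.Injective (g : Module.End k M) :=
  fun a b h => by rw [← inv_mul_coe_apply g a, h, inv_mul_coe_apply]

theorem range_cj (g : LinearMap.GeneralLinearGroup k M) (X : Module.End k M) :
    LinearMap.range (cj g X) = (LinearMap.range X).map (g : Module.End k M) := by
  ext m
  constructor
  · rintro ⟨x, rfl⟩
    exact ⟨_, ⟨_, rfl⟩, rfl⟩
  · rintro ⟨_, ⟨x, rfl⟩, rfl⟩
    exact ⟨(g : Module.End k M) x, by simp [cj, inv_mul_coe_apply]⟩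

theorem ker_cj (g : LinearMap.GeneralLinearGroup k M) (X : Module.End k M) :
    LinearMap.ker (cj g X) =
      (LinearMap.ker X).comap ((g⁻¹ : LinearMap.GeneralLinearGroup k M) : Module.End k M) := by
  ext m
  simp only [LinearMap.mem_ker, Submodule.mem_comap, cj, Module.End.mul_apply]
  exact map_eq_zero_iff _ (coe_injective g)

theorem rk_cj (g : LinearMap.GeneralLinearGroup k M) (X : Module.End k M) : rk (cj g X) = rk X := by
  rw [rk, range_cj]
  exact (Submodule.equivMapOfInjective _ (coe_injective g) _).finrank_eq.symm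

theorem Fam.cj (h : Fam G X) {g : LinearMap.GeneralLinearGroup k M} (hg : g ∈ G) :
    Fam G (cj g X) := by
  refine ⟨by rw [← cj_mul, h.1, cj_zero], fun c => ?_⟩
  obtain ⟨x, hx, e⟩ := h.2 c
  exact ⟨g * x * g⁻¹, mul_mem (mul_mem hg hx) (inv_mem hg), by
    rw [cj_coe, e, cj_add, cj_one, cj_smul]⟩

theorem Root.fam (h : Root G X) : Fam G X := h.1

theorem Root.cj (h : Root G X) {g : LinearMap.GeneralLinearGroup k M} (hg : g ∈ G) :
    Root G (cj g X) :=
  ⟨h.1.cj hg, fun e => h.2.1 (cj_injective g (e.trans (cj_zero g).symm)),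
    fun Y hY hY0 => (rk_cj g X).le.trans (h.2.2 Y hY hY0)⟩

theorem rk_smul {c : k} (hc : c ≠ 0) (X : Module.End k M) : rk (c • X) = rk X := by
  rw [rk, LinearMap.range_smul _ _ hc, rk]

theorem Root.smul (h : Root G X) {c : k} (hc : c ≠ 0) : Root G (c • X) :=
  ⟨h.1.smul c, smul_ne_zero hc h.2.1, fun Y hY hY0 => (rk_smul hc X).le.trans (h.2.2 Y hY hY0)⟩

theorem Root.of_rk_le (h : Root G X) (hY : Fam G Y) (hY0 : Y ≠ 0) (hr : rk Y ≤ rk X) : Root G Y :=
  ⟨hY, hY0, fun Z hZ hZ0 => hr.trans (h.2.2 Z hZ hZ0)⟩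

theorem range_le_ker (h : X * X = 0) : LinearMap.range X ≤ LinearMap.ker X := by
  rintro _ ⟨m, rfl⟩
  exact LinearMap.congr_fun h m

theorem mul_eq_zero_iff_range_le_ker : X * Y = 0 ↔ LinearMap.range Y ≤ LinearMap.ker X := by
  constructor
  · rintro h _ ⟨m, rfl⟩
    exact LinearMap.congr_fun h m
  · intro h
    ext m
    exact LinearMap.mem_ker.mp (h ⟨m, rfl⟩)

theorem range_mul_le (X Y : Module.End k M) : LinearMap.range (X * Y) ≤ LinearMap.range X := by
  rintro _ ⟨m, rfl⟩; exact ⟨Y m, rfl⟩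

theorem ker_le_ker_mul (X Y : Module.End k M) : LinearMap.ker Y ≤ LinearMap.ker (X * Y) := by
  intro m hm
  rw [LinearMap.mem_ker] at hm ⊢
  rw [Module.End.mul_apply, hm, map_zero]

/-- the commutator computation -/
theorem comm_eq (hX : X * X = 0) (hY : Y * Y = 0) (h : X * Y * X = 0) :
    (1 + Y) * (1 + X) * (1 - Y) * (1 - X) = 1 + (Y * X - X * Y) - Y * X * Y := by
  have w1 : ∀ w : Module.End k M, w * X * X = 0 := fun w => by rw [mul_assoc, hX, mul_zero]
  have w2 : ∀ w : Module.End k M, w * Y * Y = 0 := fun w => by rw [mul_assoc, hY, mul_zero]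
  have w3 : ∀ w : Module.End k M, w * X * Y * X = 0 := fun w => by
    rw [show w * X * Y * X = w * (X * Y * X) by simp only [mul_assoc], h, mul_zero]
  simp only [mul_add, add_mul, mul_sub, sub_mul, one_mul, mul_one, ← mul_assoc, hX, hY, h, w1, w2, w3,
    zero_mul, mul_zero, add_zero, sub_zero, zero_add]
  abel

/-- The two parts of the commutator. -/
theorem Fam.comm_parts (h2 : (2 : k) ≠ 0) (hX : Fam G X) (hY : Fam G Y) (h : X * Y * X = 0) :
    Fam G (Y * X * Y) ∧ Fam G (Y * X - X * Y) := by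
  have hX2 := hX.1
  have hY2 := hY.1
  have w1 : ∀ w : Module.End k M, w * X * X = 0 := fun w => by rw [mul_assoc, hX2, mul_zero]
  have w2 : ∀ w : Module.End k M, w * Y * Y = 0 := fun w => by rw [mul_assoc, hY2, mul_zero]
  have w3 : ∀ w : Module.End k M, w * X * Y * X = 0 := fun w => by
    rw [show w * X * Y * X = w * (X * Y * X) by simp only [mul_assoc], h, mul_zero]
  set A := Y * X - X * Y with hA
  set B := Y * X * Y with hB
  have hAA : A * A = 0 := by
    simp [hA, mul_sub, sub_mul, ← mul_assoc, hX2, hY2, h, w1, w2, w3]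
  have hAB : A * B = 0 := by
    simp [hA, hB, mul_sub, sub_mul, ← mul_assoc, hX2, hY2, h, w1, w2, w3]
  have hBA : B * A = 0 := by
    simp [hA, hB, mul_sub, sub_mul, ← mul_assoc, hX2, hY2, h, w1, w2, w3]
  have hBB : B * B = 0 := by
    simp [hB, ← mul_assoc, hX2, hY2, h, w1, w2, w3]
  have hW : ∀ c t : k, Mem G (1 + ((c * t) • A - (c * t * t) • B)) := by
    intro c t
    have e := comm_eq (X := c • X) (Y := t • Y) (smul_sq hX2 c) (smul_sq hY2 t) (by
      rw [smul_mul_smul_comm, smul_mul_smul_comm, h, smul_zero])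
    have := ((((hY.smul t).one_add).mul (hX.smul c).one_add).mul (hY.smul t).one_sub).mul (hX.smul c).one_sub
    rw [e] at this
    convert this using 1
    rw [hA, hB]
    simp only [smul_mul_smul_comm, smul_sub, mul_comm t c, mul_comm t (c * t)]
    abel
  have hB' : Fam G B := by
    refine ⟨hBB, fun d => ?_⟩
    set c := -(d / 2)
    have := (hW c 1).mul (hW c (-1))
    have e : (1 + ((c * 1) • A - (c * 1 * 1) • B)) * (1 + ((c * -1) • A - (c * -1 * -1) • B)) =
        1 + d • B := by
      have hd : d = -(2 * c) := by simp only [c]; field_simp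
      rw [hd]
      simp only [mul_add, add_mul, mul_sub, sub_mul, one_mul, mul_one, smul_mul_smul_comm, hAA, hAB,
        hBA, hBB, smul_zero, mul_neg, neg_neg]
      module
    rwa [e] at this
  refine ⟨hB', hAA, fun d => ?_⟩
  have := (hW d 1).mul (hB'.2 d)
  rwa [show (1 + ((d * 1) • A - (d * 1 * 1) • B)) * (1 + d • B) = 1 + d • A by
    simp only [mul_add, add_mul, sub_mul, one_mul, mul_one, smul_mul_smul_comm, hAB, hBB, smul_zero]
    module] at this

theorem mul_pow_mul (X Y : Module.End k M) (n : ℕ) : (X * Y) ^ n * X = X * (Y * X) ^ n := by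
  induction n with
  | zero => simp
  | succ n ih => rw [pow_succ', pow_succ', mul_assoc, ih]; simp only [mul_assoc]

variable [FiniteDimensional k M]

theorem Root.rk_pos (h : Root G X) : 0 < rk X := by
  rw [rk, Nat.pos_iff_ne_zero, ne_eq, Submodule.finrank_eq_zero, LinearMap.range_eq_bot]
  exact h.2.1

theorem Root.range_eq (h : Root G X) (hY : Fam G Y) (hY0 : Y ≠ 0)
    (hr : LinearMap.range Y ≤ LinearMap.range X) :
    LinearMap.range Y = LinearMap.range X :=
  Submodule.eq_of_le_of_finrank_le hr (h.2.2 Y hY hY0)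

theorem ker_eq_of_rk (hr : rk Y = rk X) (hk : LinearMap.ker X ≤ LinearMap.ker Y) :
    LinearMap.ker Y = LinearMap.ker X := by
  refine (Submodule.eq_of_le_of_finrank_le hk ?_).symm
  have h1 := LinearMap.finrank_range_add_finrank_ker Y
  have h2 := LinearMap.finrank_range_add_finrank_ker X
  rw [rk, rk] at hr
  omega

/-- A nilpotent sandwich of a root vanishes. -/
theorem sandwich_nilp (h2 : (2 : k) ≠ 0) (hX : Root G X) : ∀ (m : ℕ) (Y : Module.End k M),
    Fam G Y → (X * Y) ^ m * X = 0 → X * Y * X = 0 := by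
  intro m
  induction m using Nat.strong_induction_on with
  | _ m ih =>
  intro Y hY hm
  have hX2 := hX.1.1
  rcases (show m = 0 ∨ m = 1 ∨ 2 ≤ m by omega) with rfl | rfl | hm2
  · exact absurd (by simpa using hm) hX.2.1
  · simpa using hm
  have key : ∀ Y : Module.End k M, Y * Y = 0 → ∀ hY : Y * Y = 0,
      X * cj (uni Y hY) X * X = -((X * Y) ^ 2 * X) := by
    intro Y hY' _
    simp only [cj, coe_uni, coe_uni_inv, pow_two]
    simp [mul_add, add_mul, mul_sub, sub_mul, ← mul_assoc, hX2]
    simp [mul_assoc, hX2]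
  set X' := cj (uni Y hY.1) X with hX'
  have hpow : ∀ j, (X * X') ^ j * X = (-1 : k) ^ j • ((X * Y) ^ (2 * j) * X) := by
    intro j
    induction j with
    | zero => simp
    | succ j ihj =>
      rw [pow_succ', mul_assoc, ihj, mul_smul_comm, mul_pow_mul X Y (2 * j),
        ← mul_assoc (X * X') X, key Y hY.1 hY.1, neg_mul, mul_assoc, ← mul_pow_mul X Y (2 * j),
        ← mul_assoc, ← pow_add, pow_succ (-1 : k), mul_neg, mul_one, neg_smul, smul_neg,
        show 2 + 2 * j = 2 * (j + 1) by ring]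
  have h5 : (X * Y) ^ 2 * X = 0 := by
    by_cases hm3 : m = 2
    · subst hm3; exact hm
    have hj := hpow ((m + 1) / 2)
    rw [show 2 * ((m + 1) / 2) = (2 * ((m + 1) / 2) - m) + m by omega, pow_add, mul_assoc, hm,
      mul_zero, smul_zero] at hj
    have := ih _ (by omega) X' (hX.1.cj hY.uni_mem) hj
    rwa [key Y hY.1 hY.1, neg_eq_zero] at this
  -- the commutators of `X` and its conjugates
  have h5' : X * Y * X * Y * X = 0 := by rw [← h5, pow_two]; simp only [mul_assoc]
  have comm : ∀ Y : Module.End k M, Fam G Y → X * Y * X * Y * X = 0 →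
      Fam G ((-2 : k) • (X * Y * X) + (X * Y * X * Y - Y * X * Y * X)) := by
    intro Y hY h5'
    have hs : X * cj (uni Y hY.1) X * X = 0 := by
      rw [key Y hY.1 hY.1, pow_two]
      simp only [mul_assoc] at h5' ⊢
      rw [h5', neg_zero]
    have := (hX.1.comm_parts h2 (hX.1.cj hY.uni_mem) hs).2
    convert this using 1
    simp only [cj, coe_uni, coe_uni_inv]
    simp [mul_add, add_mul, mul_sub, sub_mul, ← mul_assoc, hX2]
    simp [mul_assoc, hX2]
    module
  have e1 := comm Y hY h5'
  have e2 := comm (-Y) hY.neg (by simpa using h5')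
  simp only [mul_neg, neg_mul, neg_neg, smul_neg] at e2
  set D := X * Y * X with hD
  set C := D * Y - Y * X * Y * X with hC
  have hDD : D * D = 0 := by simp [hD, ← mul_assoc]; simp [mul_assoc, hX2]
  have w5 : ∀ w : Module.End k M, w * X * Y * X * Y * X = 0 := fun w => by
    rw [show w * X * Y * X * Y * X = w * (X * Y * X * Y * X) by simp only [mul_assoc], h5', mul_zero]
  have w1 : ∀ w : Module.End k M, w * X * X = 0 := fun w => by rw [mul_assoc, hX2, mul_zero]
  have w2 : ∀ w : Module.End k M, w * Y * Y = 0 := fun w => by rw [mul_assoc, hY.1, mul_zero]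
  have hDC : D * C = 0 := by
    simp [hD, hC, mul_sub, sub_mul, ← mul_assoc, h5', w5, w1, w2, hX2, hY.1]
  have hCD : C * D = 0 := by
    simp [hD, hC, mul_sub, sub_mul, ← mul_assoc, h5', w5, w1, w2, hX2, hY.1]
  have hCC : C * C = 0 := by
    simp [hD, hC, mul_sub, sub_mul, ← mul_assoc, h5', w5, w1, w2, hX2, hY.1]
  have hsum : Fam G ((-4 : k) • D) := by
    have := e1.add e2.neg (by simp [mul_add, add_mul, hDD, hDC, hCD, hCC])
      (by simp [mul_add, add_mul, hDD, hDC, hCD, hCC])
    convert this using 1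
    module
  have h4 : (-4 : k) ≠ 0 := by
    rw [neg_ne_zero, show (4 : k) = 2 * 2 by norm_num]; exact mul_ne_zero h2 h2
  have hDfam : Fam G D := by
    have := hsum.smul (-4 : k)⁻¹; rwa [smul_smul, inv_mul_cancel₀ h4, one_smul] at this
  by_contra hne
  have hr := hX.range_eq hDfam hne (by rw [hD, mul_assoc]; exact range_mul_le _ _)
  apply hX.2.1
  ext m
  obtain ⟨n, hn⟩ : X m ∈ LinearMap.range D := hr ▸ ⟨m, rfl⟩
  obtain ⟨n', hn'⟩ : X n ∈ LinearMap.range D := hr ▸ ⟨n, rfl⟩
  rw [← hn, hD]
  show X (Y (X n)) = 0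
  rw [← hn', hD]
  exact LinearMap.congr_fun h5' n'

end Cfsg.Agent.Lib.QuadRoot
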