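import Cfsg.Agent.Lib.QuadRoot.Class2

/-! Translation to the subgroups of the definitions. -/

set_option autoImplicit false

namespace Cfsg.Agent.Lib.QuadRoot

universe u v

variable {k : Type u} [Field k] {M : Type v} [AddCommGroup M] [Module k M]
  {G : Subgroup (LinearMap.GeneralLinearGroup k M)} {X Y Z : Module.End k M}

/-- nilpotent part -/
abbrev nil (σ : LinearMap.GeneralLinearGroup k M) : Module.End k M := (σ : Module.End k M) - 1

theorem coe_eq_nil (σ : LinearMap.GeneralLinearGroup k M) : (σ : Module.End k M) = 1 + nil σ := by simp [nil]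

theorem nil_uni (h : X * X = 0) : nil (uni X h) = X := by simp [nil, coe_uni]

theorem eq_uni {σ : LinearMap.GeneralLinearGroup k M} (h : nil σ * nil σ = 0) : σ = uni (nil σ) h :=
  Units.ext (coe_eq_nil σ)

theorem fam_of_quadratic {σ : LinearMap.GeneralLinearGroup k M} (h : σ ∈ Cfsg.quadraticElements G) :
    Fam G (nil σ) ∧ nil σ ≠ 0 := by
  obtain ⟨-, ⟨h1, h2⟩, h3⟩ := h
  exact ⟨⟨h1, fun c => ⟨uni (c • nil σ) (smul_sq h1 c), h3 ⟨c, rfl⟩, rfl⟩⟩, h2⟩

theorem quadratic_of_fam (hX : Fam G X) (h0 : X ≠ 0) : uni X hX.1 ∈ Cfsg.quadraticElements G := by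
  refine ⟨hX.uni_mem, ⟨?_, ?_⟩, ?_⟩
  · show nil _ * nil _ = 0
    rw [nil_uni]; exact hX.1
  · show nil _ ≠ 0
    rwa [nil_uni]
  · rintro τ ⟨c, hc⟩
    have : τ = uni (c • X) (smul_sq hX.1 c) := Units.ext (by
      rw [hc]; show 1 + c • nil (uni X hX.1) = _
      rw [nil_uni]; rfl)
    exact this ▸ (hX.smul c).uni_mem

theorem root_of_min {σ : LinearMap.GeneralLinearGroup k M} (h : σ ∈ Cfsg.minimalQuadraticElements G) :
    Root G (nil σ) := by
  refine ⟨(fam_of_quadratic h.1).1, (fam_of_quadratic h.1).2, fun Y hY hY0 => ?_⟩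
  have := h.2 _ (quadratic_of_fam hY hY0)
  have e : Cfsg.commutatorRank (uni Y hY.1) = rk Y := by
    show Module.finrank k (LinearMap.range (nil (uni Y hY.1))) = _
    rw [nil_uni]; rfl
  exact (le_of_eq rfl : rk (nil σ) ≤ Cfsg.commutatorRank σ).trans (this.trans e.le)

theorem min_of_root (hX : Root G X) : uni X hX.1.1 ∈ Cfsg.minimalQuadraticElements G := by
  refine ⟨quadratic_of_fam hX.1 hX.2.1, fun τ hτ => ?_⟩
  obtain ⟨h1, h2⟩ := fam_of_quadratic hτ
  refine le_trans (le_of_eq ?_) (hX.2.2 _ h1 h2)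
  show Module.finrank k (LinearMap.range (nil (uni X hX.1.1))) = _
  rw [nil_uni]; rfl

/-- The root subgroup of a root. -/
def grp (G : Subgroup (LinearMap.GeneralLinearGroup k M)) (X : Module.End k M) (hX : X * X = 0) :
    Subgroup (LinearMap.GeneralLinearGroup k M) where
  carrier := {g | nil g ∈ cls G X hX}
  one_mem' := by show nil 1 ∈ cls G X hX; simp [nil]
  mul_mem' := by
    intro a b ha hb
    show nil (a * b) ∈ cls G X hX
    have hab : nil a * nil b = 0 := mul_eq_zero_iff_range_le_ker.mpr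
      ((hb.2.1.trans (range_le_ker hX)).trans ha.2.2)
    have e : nil (a * b) = nil a + nil b := by
      show ((a * b : LinearMap.GeneralLinearGroup k M) : Module.End k M) - 1 = _
      rw [Units.val_mul, coe_eq_nil a, coe_eq_nil b, add_mul, one_mul, mul_add, mul_one, hab]
      abel
    rw [e]; exact Submodule.add_mem _ ha hb
  inv_mem' := by
    intro a ha
    show nil a⁻¹ ∈ cls G X hX
    have e : nil a⁻¹ = -nil a := by
      have h2 : nil a * nil a = 0 := ha.1.1
      conv_lhs => rw [eq_uni h2]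
      show ((uni (nil a) h2)⁻¹ : LinearMap.GeneralLinearGroup k M).val - 1 = _
      rw [coe_uni_inv]; abel
    rw [e]; exact Submodule.neg_mem _ ha

theorem mem_grp {hX : X * X = 0} {g : LinearMap.GeneralLinearGroup k M} :
    g ∈ grp G X hX ↔ nil g ∈ cls G X hX := Iff.rfl

theorem grp_le (hX : X * X = 0) : grp G X hX ≤ G := by
  intro g hg
  exact (eq_uni (mem_grp.mp hg).1.1) ▸ (mem_grp.mp hg).1.uni_mem

theorem grp_congr {hX : X * X = 0} {hY : Y * Y = 0} (h : Same X Y) : grp G X hX = grp G Y hY := by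
  ext g; rw [mem_grp, mem_grp, cls_eq h]

theorem uni_mem_grp {hX : X * X = 0} {Z : Module.End k M} (hZ : Z ∈ cls G X hX) : uni Z hZ.1.1 ∈ grp G X hX := by
  rw [mem_grp, nil_uni]; exact hZ

theorem conjBy_grp (hX : X * X = 0) {g : LinearMap.GeneralLinearGroup k M} (hg : g ∈ G)
    (hgX : cj g X * cj g X = 0) : Cfsg.conjBy (grp G X hX) g = grp G (cj g X) hgX := by
  have e : ∀ (g x : LinearMap.GeneralLinearGroup k M), nil (g * x * g⁻¹) = cj g (nil x) := fun g x => by
    show ((g * x * g⁻¹ : LinearMap.GeneralLinearGroup k M) : Module.End k M) - 1 = _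
    rw [cj_coe, nil, cj_sub, cj_one]
  ext x
  constructor
  · rintro ⟨y, hy, rfl⟩
    show nil (g * y * g⁻¹) ∈ cls G (cj g X) hgX
    rw [e]; exact cls_cj hX hg hgX hy
  · intro hx
    refine ⟨g⁻¹ * x * g, ?_, by simp [mul_assoc]⟩
    show nil (g⁻¹ * x * g) ∈ cls G X hX
    have h' := e g⁻¹ x
    rw [inv_inv] at h'
    rw [h']
    have := cls_cj (G := G) hgX (inv_mem hg) (by rw [cj_inv_cj, hX]) hx
    simpa only [cj_inv_cj] using this

/-- No unipotent normal subgroup if the module is irreducible. -/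
theorem noUnip_of_irreducible [FiniteDimensional k M] (hG : Cfsg.IsIrreducibleFor G) : NoUnip G := by
  intro U hUG hconj hU
  obtain ⟨⟨m0, hm0⟩, hirr⟩ := hG
  obtain ⟨n, hn⟩ := hU
  let W : Submodule k M :=
    { carrier := {w | ∀ g ∈ U, (g : Module.End k M) w = w}
      add_mem' := fun {a b} ha hb g hg => by rw [map_add, ha g hg, hb g hg]
      zero_mem' := fun g _ => map_zero _
      smul_mem' := fun c a ha g hg => by rw [map_smul, ha g hg] }
  have hW : W ≠ ⊥ := by
    intro hbot
    have key : ∀ j : ℕ, ∃ l : List (LinearMap.GeneralLinearGroup k M), (∀ g ∈ l, g ∈ U) ∧ l.length = j ∧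
        (l.map fun g : LinearMap.GeneralLinearGroup k M => (g : Module.End k M) - 1).prod m0 ≠ 0 := by
      intro j
      induction j with
      | zero => exact ⟨[], by simp, rfl, by simpa using hm0⟩
      | succ j ih =>
        obtain ⟨l, hl, hlen, hne⟩ := ih
        set w := (l.map fun g : LinearMap.GeneralLinearGroup k M => (g : Module.End k M) - 1).prod m0
        have : w ∉ W := fun hw => hne (by rw [hbot] at hw; simpa using hw)
        obtain ⟨g, hg, hgw⟩ : ∃ g ∈ U, (g : Module.End k M) w ≠ w := by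
          by_contra hcon
          push Not at hcon
          exact this hcon
        refine ⟨g :: l, fun x hx => ?_, by simp [hlen], ?_⟩
        · rcases List.mem_cons.mp hx with rfl | hx
          · exact hg
          · exact hl x hx
        · rw [List.map_cons, List.prod_cons, Module.End.mul_apply, LinearMap.sub_apply, Module.End.one_apply,
            sub_ne_zero]
          exact hgw
    obtain ⟨l, hl, hlen, hne⟩ := key n
    exact hne (by
      have := LinearMap.congr_fun (hn l hl hlen) m0
      simpa [← List.map_eq_flatMap, List.map_map, Function.comp_def] using this)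
  rcases hirr W (fun g hg w hw h hh => by
    have hmem : g⁻¹ * h * g ∈ U := by
      have := hconj g⁻¹ (inv_mem hg)
      rw [← this]
      exact ⟨h, hh, by simp⟩
    have := hw _ hmem
    have e : (h : Module.End k M) * (g : Module.End k M) =
        (g : Module.End k M) * ((g⁻¹ * h * g : LinearMap.GeneralLinearGroup k M) : Module.End k M) := by
      rw [← Units.val_mul, ← Units.val_mul]; congr 1; group
    have e' := LinearMap.congr_fun e w
    simp only [Module.End.mul_apply] at e'
    rw [e', this]) with h | h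
  · exact absurd h hW
  · refine (Subgroup.eq_bot_iff_forall _).mpr fun g hg => Units.ext (LinearMap.ext fun w => ?_)
    exact (h.symm ▸ Submodule.mem_top : w ∈ W) g hg

variable [FiniteDimensional k M]

theorem sameAction_eq_grp {σ : LinearMap.GeneralLinearGroup k M} (h : σ ∈ Cfsg.minimalQuadraticElements G) :
    Cfsg.sameActionSubgroup G σ = grp G (nil σ) (root_of_min h).1.1 := by
  refine le_antisymm ((Subgroup.closure_le _).mpr ?_) ?_
  · rintro τ ⟨hτ, hk, hr⟩
    exact ⟨(root_of_min hτ).1, hr.le, hk.ge⟩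
  · intro g hg
    by_cases h0 : nil g = 0
    · have : g = 1 := Units.ext (sub_eq_zero.mp h0)
      rw [this]; exact one_mem _
    obtain ⟨hr, hs⟩ := (root_of_min h).same_of_mem_cls hg h0
    refine Subgroup.subset_closure ⟨?_, hs.2, hs.1⟩
    exact (eq_uni hr.1.1) ▸ min_of_root hr

theorem mem_quadraticRootSubgroups {A : Subgroup (LinearMap.GeneralLinearGroup k M)} :
    A ∈ Cfsg.quadraticRootSubgroups G ↔ ∃ X, ∃ h : Root G X, A = grp G X h.1.1 := by
  constructor
  · rintro ⟨σ, hσ, rfl⟩
    exact ⟨_, root_of_min hσ, sameAction_eq_grp hσ⟩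
  · rintro ⟨X, h, rfl⟩
    refine ⟨uni X h.1.1, min_of_root h, ?_⟩
    rw [sameAction_eq_grp (min_of_root h)]
    exact (grp_congr (by rw [nil_uni]; exact Same.refl X)).symm

theorem grp_fixed (hX : Root G X) : Cfsg.fixedSubmodule (grp G X hX.1.1) = LinearMap.ker X := by
  refine le_antisymm ?_ ?_
  · intro m hm
    simp only [Cfsg.fixedSubmodule, Submodule.mem_iInf] at hm
    have := hm _ (uni_mem_grp hX.mem_cls)
    rwa [coe_uni, add_sub_cancel_left] at this
  · intro m hm
    simp only [Cfsg.fixedSubmodule, Submodule.mem_iInf]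
    intro g hg
    exact (mem_grp.mp hg).2.2 hm

theorem grp_commutator (hX : Root G X) : Cfsg.commutatorSubmodule (grp G X hX.1.1) = LinearMap.range X := by
  refine le_antisymm (iSup₂_le fun g hg => (mem_grp.mp hg).2.1) ?_
  refine le_iSup₂_of_le (uni X hX.1.1) (uni_mem_grp hX.mem_cls) ?_
  rw [coe_uni, add_sub_cancel_left]

end Cfsg.Agent.Lib.QuadRoot
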