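import Cfsg.Agent.Lib.QuadRoot.Pair

/-! Pairs of roots with vanishing sandwiches. -/

set_option autoImplicit false

namespace Cfsg.Agent.Lib.QuadRoot

universe u v

variable {k : Type u} [Field k] {M : Type v} [AddCommGroup M] [Module k M]
  {G : Subgroup (LinearMap.GeneralLinearGroup k M)} {X Y Z W : Module.End k M}

/-- same range and kernel -/
def Same (X Y : Module.End k M) : Prop :=
  LinearMap.range X = LinearMap.range Y ∧ LinearMap.ker X = LinearMap.ker Y

theorem Same.refl (X : Module.End k M) : Same X X := ⟨rfl, rfl⟩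

theorem Same.symm (h : Same X Y) : Same Y X := ⟨h.1.symm, h.2.symm⟩

theorem Same.trans (h : Same X Y) (h' : Same Y Z) : Same X Z := ⟨h.1.trans h'.1, h.2.trans h'.2⟩

theorem Same.cj (h : Same X Y) (g : LinearMap.GeneralLinearGroup k M) : Same (cj g X) (cj g Y) :=
  ⟨by rw [range_cj, range_cj, h.1], by rw [ker_cj, ker_cj, h.2]⟩

theorem same_smul {c : k} (hc : c ≠ 0) (X : Module.End k M) : Same (c • X) X :=
  ⟨LinearMap.range_smul _ _ hc, LinearMap.ker_smul _ _ hc⟩

theorem same_neg (X : Module.End k M) : Same (-X) X := by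
  have := same_smul (neg_ne_zero.mpr (one_ne_zero (α := k))) X
  rwa [neg_one_smul] at this

/-- The root class of a nilpotent element. -/
def cls (G : Subgroup (LinearMap.GeneralLinearGroup k M)) (X : Module.End k M) (hX : X * X = 0) :
    Submodule k (Module.End k M) where
  carrier := {Z | Fam G Z ∧ LinearMap.range Z ≤ LinearMap.range X ∧ LinearMap.ker X ≤ LinearMap.ker Z}
  zero_mem' := ⟨fam_zero, by simp, by simp⟩
  add_mem' := by
    rintro a b ⟨a1, a2, a3⟩ ⟨b1, b2, b3⟩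
    refine ⟨a1.add b1 (mul_eq_zero_iff_range_le_ker.mpr ((b2.trans (range_le_ker hX)).trans a3))
      (mul_eq_zero_iff_range_le_ker.mpr ((a2.trans (range_le_ker hX)).trans b3)), ?_, ?_⟩
    · rintro _ ⟨m, rfl⟩; exact Submodule.add_mem _ (a2 ⟨m, rfl⟩) (b2 ⟨m, rfl⟩)
    · intro m hm
      rw [LinearMap.mem_ker, LinearMap.add_apply, LinearMap.mem_ker.mp (a3 hm), LinearMap.mem_ker.mp (b3 hm),
        add_zero]
  smul_mem' := by
    rintro c a ⟨a1, a2, a3⟩
    refine ⟨a1.smul c, ?_, ?_⟩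
    · rintro _ ⟨m, rfl⟩; exact Submodule.smul_mem _ _ (a2 ⟨m, rfl⟩)
    · intro m hm
      rw [LinearMap.mem_ker, LinearMap.smul_apply, LinearMap.mem_ker.mp (a3 hm), smul_zero]

theorem cls_eq {hX : X * X = 0} {hY : Y * Y = 0} (h : Same X Y) : cls G X hX = cls G Y hY := by
  ext Z
  show _ ∧ _ ∧ _ ↔ _ ∧ _ ∧ _
  rw [h.1, h.2]

theorem Root.mem_cls (hX : Root G X) : X ∈ cls G X hX.1.1 := ⟨hX.1, le_rfl, le_rfl⟩

theorem mem_cls_of_same {hX : X * X = 0} (hY : Fam G Y) (h : Same Y X) : Y ∈ cls G X hX :=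
  ⟨hY, h.1.le, h.2.ge⟩

theorem cls_cj (hX : X * X = 0) {g : LinearMap.GeneralLinearGroup k M} (hg : g ∈ G)
    (hgX : cj g X * cj g X = 0) {Z : Module.End k M} (hZ : Z ∈ cls G X hX) :
    cj g Z ∈ cls G (cj g X) hgX := by
  obtain ⟨h1, h2, h3⟩ := hZ
  exact ⟨h1.cj hg, by rw [range_cj, range_cj]; exact Submodule.map_mono h2,
    by rw [ker_cj, ker_cj]; exact Submodule.comap_mono h3⟩

/-- conjugate up to the class -/
def Rel (G : Subgroup (LinearMap.GeneralLinearGroup k M)) (X Y : Module.End k M) : Prop :=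
  ∃ g ∈ G, Same (cj g X) Y

theorem Rel.refl (X : Module.End k M) : Rel G X X := ⟨1, one_mem _, by rw [one_cj]; exact Same.refl X⟩

theorem Rel.symm (h : Rel G X Y) : Rel G Y X := by
  obtain ⟨g, hg, hs⟩ := h
  refine ⟨g⁻¹, inv_mem hg, ?_⟩
  have := hs.cj g⁻¹
  rw [cj_inv_cj] at this
  exact this.symm

theorem Rel.trans (h : Rel G X Y) (h' : Rel G Y Z) : Rel G X Z := by
  obtain ⟨g, hg, hs⟩ := h
  obtain ⟨g', hg', hs'⟩ := h'
  exact ⟨g' * g, mul_mem hg' hg, by rw [← cj_cj]; exact (hs.cj g').trans hs'⟩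

theorem Same.rel (h : Same X Y) : Rel G X Y := ⟨1, one_mem _, by rwa [one_cj]⟩

variable [FiniteDimensional k M]

theorem Root.same_of_mem_cls (hX : Root G X) (hZ : Z ∈ cls G X hX.1.1) (hZ0 : Z ≠ 0) :
    Root G Z ∧ Same Z X := by
  obtain ⟨h1, h2, h3⟩ := hZ
  have hr := hX.range_eq h1 hZ0 h2
  have hrk : rk Z = rk X := by rw [rk, rk, hr]
  exact ⟨hX.of_rk_le h1 hZ0 hrk.le, hr, ker_eq_of_rk hrk h3⟩

theorem Rel.finrank_eq (hX : X * X = 0) (hY : Y * Y = 0) (h : Rel G X Y) :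
    Module.finrank k (cls G X hX) = Module.finrank k (cls G Y hY) := by
  have key : ∀ {X Y : Module.End k M} (hX : X * X = 0) (hY : Y * Y = 0), Rel G X Y →
      Module.finrank k (cls G X hX) ≤ Module.finrank k (cls G Y hY) := by
    intro X Y hX hY h
    obtain ⟨g, hg, hs⟩ := h
    have hgX : cj g X * cj g X = 0 := by rw [← cj_mul, hX, cj_zero]
    let f : cls G X hX →ₗ[k] cls G Y hY :=
      { toFun := fun Z => ⟨cj g Z.1, by rw [← cls_eq (hX := hgX) hs]; exact cls_cj hX hg hgX Z.2⟩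
        map_add' := fun a b => Subtype.ext (cj_add g _ _)
        map_smul' := fun c a => Subtype.ext (cj_smul g c _) }
    exact LinearMap.finrank_le_finrank_of_injective (f := f)
      fun a b hab => Subtype.ext (cj_injective g (congrArg Subtype.val hab))
  exact le_antisymm (key hX hY h) (key hY hX h.symm)

theorem finrank_map_add_inf (f : Module.End k M) (S : Submodule k M) :
    Module.finrank k (S.map f) + Module.finrank k (S ⊓ LinearMap.ker f : Submodule k M) =
      Module.finrank k S := by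
  have h := LinearMap.finrank_range_add_finrank_ker (f.domRestrict S)
  have hr : LinearMap.range (f.domRestrict S) = S.map f := LinearMap.range_domRestrict _ _
  have hk : Module.finrank k (LinearMap.ker (f.domRestrict S)) =
      Module.finrank k (S ⊓ LinearMap.ker f : Submodule k M) := by
    have e : (LinearMap.ker (f.domRestrict S)).map S.subtype = S ⊓ LinearMap.ker f := by
      rw [LinearMap.ker_domRestrict, Submodule.map_comap_subtype]
    rw [← e]
    exact (Submodule.equivMapOfInjective _ S.injective_subtype _).finrank_eq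
  rw [hr, hk] at h
  exact h

/-- The structure of a non-commuting nilpotent pair. -/
theorem class2 (h2 : (2 : k) ≠ 0) (hX : Root G X) (hY : Root G Y) (h : X * Y * X = 0) (hne : X * Y ≠ Y * X) :
    Root G (Y * X - X * Y) ∧
    (LinearMap.range Y).map X = LinearMap.range X ⊓ LinearMap.ker Y ∧
    (LinearMap.range X).map Y = LinearMap.range Y ⊓ LinearMap.ker X ∧
    Disjoint (LinearMap.range X ⊓ LinearMap.ker Y) (LinearMap.range Y ⊓ LinearMap.ker X) ∧
    LinearMap.range (Y * X - X * Y) =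
      (LinearMap.range X ⊓ LinearMap.ker Y) ⊔ (LinearMap.range Y ⊓ LinearMap.ker X) ∧
    LinearMap.ker (Y * X - X * Y) =
      (LinearMap.range X ⊔ LinearMap.ker Y) ⊓ (LinearMap.range Y ⊔ LinearMap.ker X) := by
  have hs := sandwich_symm h2 hY hX.1 h
  set A := Y * X - X * Y with hA
  set I := LinearMap.range X
  set J := LinearMap.range Y
  set K := LinearMap.ker X
  set L := LinearMap.ker Y
  have hAfam : Fam G A := (hX.1.comm_parts h2 hY.1 h).2
  have hA0 : A ≠ 0 := sub_ne_zero.mpr (Ne.symm hne)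
  have hXJ : J.map X ≤ I ⊓ L := by
    rintro _ ⟨_, ⟨m, rfl⟩, rfl⟩
    exact ⟨⟨_, rfl⟩, LinearMap.congr_fun hs m⟩
  have hYI : I.map Y ≤ J ⊓ K := by
    rintro _ ⟨_, ⟨m, rfl⟩, rfl⟩
    exact ⟨⟨_, rfl⟩, LinearMap.congr_fun h m⟩
  have hle : LinearMap.range A ≤ J.map X ⊔ I.map Y := by
    rintro _ ⟨m, rfl⟩
    exact Submodule.sub_mem _ (Submodule.mem_sup_right ⟨_, ⟨m, rfl⟩, rfl⟩)
      (Submodule.mem_sup_left ⟨_, ⟨m, rfl⟩, rfl⟩)
  have dI : Module.finrank k I = rk X := rfl
  have dJ : Module.finrank k J = rk X := le_antisymm (hY.2.2 X hX.1 hX.2.1) (hX.2.2 Y hY.1 hY.2.1)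
  have e1 : Module.finrank k (I.map Y) + Module.finrank k (I ⊓ L : Submodule k M) = Module.finrank k I :=
    finrank_map_add_inf Y I
  have e2 : Module.finrank k (J.map X) + Module.finrank k (J ⊓ K : Submodule k M) = Module.finrank k J :=
    finrank_map_add_inf X J
  have hd : rk X ≤ rk A := hX.2.2 A hAfam hA0
  have i1 := Submodule.finrank_mono hXJ
  have i2 := Submodule.finrank_mono hYI
  have i3 : rk A ≤ Module.finrank k (J.map X) + Module.finrank k (I.map Y) :=
    (Submodule.finrank_mono hle).trans (Submodule.finrank_add_le_finrank_add_finrank _ _)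
  have a1 : J.map X = I ⊓ L := Submodule.eq_of_le_of_finrank_le hXJ (by omega)
  have a2 : I.map Y = J ⊓ K := Submodule.eq_of_le_of_finrank_le hYI (by omega)
  rw [a1, a2] at hle
  have f1 : Module.finrank k ((I ⊓ L) ⊔ (J ⊓ K) : Submodule k M) ≤
      Module.finrank k (I ⊓ L : Submodule k M) + Module.finrank k (J ⊓ K : Submodule k M) :=
    Submodule.finrank_add_le_finrank_add_finrank _ _
  have f3 : Module.finrank k (I ⊓ L : Submodule k M) + Module.finrank k (J ⊓ K : Submodule k M) = rk X := by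
    rw [a1] at e2; omega
  have a3 : LinearMap.range A = (I ⊓ L) ⊔ (J ⊓ K) := Submodule.eq_of_le_of_finrank_le hle (by
    show _ ≤ rk A
    omega)
  have hroot : Root G A := hX.of_rk_le hAfam hA0 (by rw [rk, a3]; omega)
  have a4 : Disjoint (I ⊓ L) (J ⊓ K) := by
    rw [disjoint_iff]
    have := Submodule.finrank_sup_add_finrank_inf_eq (I ⊓ L) (J ⊓ K)
    rw [← a3] at this
    have h0 : Module.finrank k ((I ⊓ L) ⊓ (J ⊓ K) : Submodule k M) = 0 := by
      have : rk A = Module.finrank k (LinearMap.range A) := rfl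
      omega
    exact Submodule.finrank_eq_zero.mp h0
  refine ⟨hroot, a1, a2, a4, a3, le_antisymm ?_ ?_⟩
  · intro m hm
    rw [LinearMap.mem_ker, hA, LinearMap.sub_apply, sub_eq_zero] at hm
    have z1 : Y (X m) = 0 := Submodule.disjoint_def.mp a4 _
      (hm ▸ a1 ▸ ⟨_, ⟨m, rfl⟩, rfl⟩) (a2 ▸ ⟨_, ⟨m, rfl⟩, rfl⟩)
    have z2 : X (Y m) = 0 := hm.symm.trans z1
    constructor
    · obtain ⟨_, hi, e⟩ : Y m ∈ I.map Y := a2 ▸ ⟨⟨m, rfl⟩, z2⟩
      rename_i i
      rw [show m = i + (m - i) by abel]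
      exact Submodule.add_mem _ (Submodule.mem_sup_left hi)
        (Submodule.mem_sup_right (by rw [LinearMap.mem_ker, map_sub, e, sub_self]))
    · obtain ⟨_, hi, e⟩ : X m ∈ J.map X := a1 ▸ ⟨⟨m, rfl⟩, z1⟩
      rename_i i
      rw [show m = i + (m - i) by abel]
      exact Submodule.add_mem _ (Submodule.mem_sup_left hi)
        (Submodule.mem_sup_right (by rw [LinearMap.mem_ker, map_sub, e, sub_self]))
  · rintro m ⟨h1, h1'⟩
    obtain ⟨_, ⟨i, rfl⟩, l, hl, rfl⟩ := Submodule.mem_sup.mp h1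
    obtain ⟨_, ⟨j, rfl⟩, q, hq, e⟩ := Submodule.mem_sup.mp h1'
    rw [LinearMap.mem_ker, hA, LinearMap.sub_apply]
    have z2 : X (Y (X i + l)) = 0 := by
      rw [map_add, LinearMap.mem_ker.mp hl, add_zero]; exact LinearMap.congr_fun h i
    have z1 : Y (X (X i + l)) = 0 := by
      rw [← e, map_add, LinearMap.mem_ker.mp hq, add_zero]; exact LinearMap.congr_fun hs j
    show Y (X _) - X (Y _) = 0
    rw [z1, z2, sub_zero]

theorem sandwich_eq_zero_of_same {X' : Module.End k M} (hs : Same X' X) (h : X * Y * X = 0) :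
    X' * Y * X' = 0 ∧ X * Y * X' = 0 ∧ X' * Y * X = 0 := by
  have key : ∀ P Q : Module.End k M, LinearMap.ker P = LinearMap.ker X → LinearMap.range Q = LinearMap.range X →
      P * Y * Q = 0 := by
    intro P Q hP hQ
    refine LinearMap.ext fun m => ?_
    obtain ⟨n, hn⟩ : Q m ∈ LinearMap.range X := hQ ▸ ⟨m, rfl⟩
    have : Y (Q m) ∈ LinearMap.ker P := by
      rw [hP, ← hn]; exact LinearMap.congr_fun h n
    exact this
  exact ⟨key _ _ hs.2 hs.1, key _ _ rfl hs.1, key _ _ hs.2 rfl⟩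

/-- Commuting depends only on the classes. -/
theorem comm_of_same (h2 : (2 : k) ≠ 0) (hX : Root G X) (hY : Root G Y) {X' : Module.End k M}
    (hX' : Root G X') (hs : Same X' X) (hc : X * Y = Y * X) : X' * Y = Y * X' := by
  by_contra hne
  have h : X * Y * X = 0 := by rw [hc, mul_assoc, hX.1.1, mul_zero]
  obtain ⟨-, a1, a2, a4, -, -⟩ := class2 h2 hX' hY (sandwich_eq_zero_of_same hs h).1 hne
  rw [hs.1, hs.2] at a2 a4
  rw [hs.1] at a1
  have hXJ : (LinearMap.range Y).map X ≤ LinearMap.range X ⊓ LinearMap.ker Y := by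
    rintro _ ⟨_, ⟨m, rfl⟩, rfl⟩
    refine ⟨⟨_, rfl⟩, ?_⟩
    show Y ((X * Y) m) = 0
    rw [hc, ← Module.End.mul_apply, ← mul_assoc, hY.1.1, zero_mul]
    rfl
  have heq : (LinearMap.range X).map Y = (LinearMap.range Y).map X := by
    rw [← LinearMap.range_comp, ← LinearMap.range_comp]
    exact congrArg LinearMap.range hc.symm
  have hbot : (LinearMap.range X).map Y = ⊥ :=
    le_bot_iff.mp (a4 (heq ▸ hXJ) a2.le)
  have hK : LinearMap.range Y ⊓ LinearMap.ker X = LinearMap.range Y := by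
    rw [inf_eq_left]
    intro y hy
    have : X y ∈ (LinearMap.range Y).map X := ⟨y, hy, rfl⟩
    rw [← heq, hbot, Submodule.mem_bot] at this
    exact this
  refine hY.2.1 (LinearMap.range_eq_bot.mp ?_)
  rw [← hK, ← a2, hbot]

theorem conj_neg_inverse {F : Module.End k M} (hX : X * X = 0) (hF : F * F = 0) (e1 : X * F * X = X)
    (e2 : F * X * F = F) : cj (uni X hX * (uni F hF)⁻¹ * uni X hX) X = -F := by
  rw [← cj_cj, ← cj_cj]
  have s1 : cj (uni X hX) X = X := by
    simp only [cj, coe_uni, coe_uni_inv]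
    rw [add_mul, one_mul, hX, add_zero, mul_sub, mul_one, hX, sub_zero]
  have s2 : cj (uni F hF)⁻¹ X = X + X * F - F * X - F := by
    simp only [cj, inv_inv, coe_uni, coe_uni_inv]
    rw [sub_mul, one_mul, mul_add, mul_one, sub_mul, e2]; abel
  rw [s1, s2, cj_sub, cj_sub, cj_add, cj_mul, cj_mul, s1]
  have s3 : cj (uni X hX) F = F + X * F - F * X - X := by
    simp only [cj, coe_uni, coe_uni_inv]
    rw [add_mul, one_mul, mul_sub, mul_one, add_mul, e1]; abel
  rw [s3]
  simp only [mul_sub, sub_mul, mul_add, add_mul, ← mul_assoc, hX, e1, zero_mul]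
  simp [mul_assoc, hX]
  abel

/-- Partners are conjugate. -/
theorem rel_of_partner (h2 : ringChar k ≠ 2) (h3 : Nat.card k ≠ 3) (hX : Root G X) (hY : Root G Y)
    (h : X * Y * X ≠ 0) : Rel G X Y := by
  obtain ⟨F, hF, e1, e2, hr, hk⟩ := exists_inverse h2 h3 hX hY h
  refine ⟨uni X hX.1.1 * (uni F hF.1.1)⁻¹ * uni X hX.1.1,
    mul_mem (mul_mem hX.1.uni_mem (inv_mem hF.1.uni_mem)) hX.1.uni_mem, ?_⟩
  rw [conj_neg_inverse hX.1.1 hF.1.1 e1 e2]
  exact (same_neg F).trans ⟨hr, hk⟩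

/-- A member of a non-commuting nilpotent pair is conjugate to the commutator. -/
theorem rel_comm (h2 : ringChar k ≠ 2) (h3 : Nat.card k ≠ 3) (hG : NoUnip G) (hX : Root G X) (hY : Root G Y)
    (h : X * Y * X = 0) (hne : X * Y ≠ Y * X) : Rel G X (Y * X - X * Y) := by
  have h2' : (2 : k) ≠ 0 := Ring.two_ne_zero h2
  obtain ⟨hA, -⟩ := class2 h2' hX hY h hne
  set A := Y * X - X * Y with hAdef
  obtain ⟨W, hW, hAW⟩ := exists_partner hG hA
  have hWA : W * A * W ≠ 0 := fun e => hAW (sandwich_symm h2' hA hW.1 e)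
  by_cases hWX : W * X * W = 0
  · have hs := sandwich_symm h2' hY hX.1 h
    have e : cj (uni Y hY.1.1) X = X + A := by
      simp only [cj, coe_uni, coe_uni_inv, hAdef]
      rw [add_mul, one_mul, mul_sub, mul_one, add_mul, hs]; abel
    have hX' : Root G (X + A) := e ▸ hX.cj hY.1.uni_mem
    have hW' : W * (X + A) * W ≠ 0 := by rwa [mul_add, add_mul, hWX, zero_add]
    refine Rel.trans (Y := X + A) ⟨uni Y hY.1.1, hY.1.uni_mem, by rw [e]; exact Same.refl _⟩ ?_
    exact (rel_of_partner h2 h3 hW hX' hW').symm.trans (rel_of_partner h2 h3 hW hA hWA)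
  · exact (rel_of_partner h2 h3 hW hX hWX).symm.trans (rel_of_partner h2 h3 hW hA hWA)

/-- Commutators with a fixed root fill the commutator class. -/
theorem comm_surjective (h2 : ringChar k ≠ 2) (h3 : Nat.card k ≠ 3) (hG : NoUnip G) (hX : Root G X)
    (hY : Root G Y) (h : X * Y * X = 0) (hne : X * Y ≠ Y * X) (hA : (Y * X - X * Y) * (Y * X - X * Y) = 0) :
    ∀ Z ∈ cls G (Y * X - X * Y) hA, ∃ Y' ∈ cls G Y hY.1.1, Y' * X - X * Y' = Z := by
  have h2' : (2 : k) ≠ 0 := Ring.two_ne_zero h2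
  obtain ⟨hAr, -, -, -, hr, hk⟩ := class2 h2' hX hY h hne
  have hne' : ∀ Y' ∈ cls G Y hY.1.1, Y' ≠ 0 → X * Y' ≠ Y' * X := by
    intro Y' hY' h0 hc
    obtain ⟨hY'r, hs⟩ := hY.same_of_mem_cls hY' h0
    exact hne (comm_of_same h2' hY'r hX hY hs.symm hc.symm).symm
  have hin : ∀ Y' ∈ cls G Y hY.1.1, Y' * X - X * Y' ∈ cls G (Y * X - X * Y) hA := by
    intro Y' hY'
    by_cases h0 : Y' = 0
    · rw [h0, zero_mul, mul_zero, sub_zero]; exact Submodule.zero_mem _
    obtain ⟨hY'r, hs⟩ := hY.same_of_mem_cls hY' h0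
    have hh : X * Y' * X = 0 := sandwich_symm h2' hX hY'r.1
      (sandwich_eq_zero_of_same hs (sandwich_symm h2' hY hX.1 h)).1
    obtain ⟨hr', -, -, -, hr2, hk2⟩ := class2 h2' hX hY'r hh (hne' Y' hY' h0)
    refine mem_cls_of_same hr'.1 ⟨?_, ?_⟩
    · rw [hr2, hr, hs.1, hs.2]
    · rw [hk2, hk, hs.1, hs.2]
  let f : cls G Y hY.1.1 →ₗ[k] cls G (Y * X - X * Y) hA :=
    { toFun := fun Y' => ⟨Y'.1 * X - X * Y'.1, hin _ Y'.2⟩
      map_add' := fun a b => Subtype.ext (by simp [add_mul, mul_add]; abel)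
      map_smul' := fun c a => Subtype.ext (by simp [smul_sub]) }
  have hinj : Function.Injective f := by
    rw [injective_iff_map_eq_zero]
    intro a ha
    by_contra h0
    exact hne' a.1 a.2 (fun e => h0 (Subtype.ext e)) (sub_eq_zero.mp (congrArg Subtype.val ha)).symm
  have hrel : Rel G Y (Y * X - X * Y) := by
    have h' := rel_comm h2 h3 hG hY hX (sandwich_symm h2' hY hX.1 h) (Ne.symm hne)
    rw [← neg_sub] at h'
    exact h'.trans (same_neg _).rel
  have hsurj := (LinearMap.injective_iff_surjective_of_finrank_eq_finrank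
    (hrel.finrank_eq hY.1.1 hA)).mp hinj
  intro Z hZ
  obtain ⟨Y', hY'⟩ := hsurj ⟨Z, hZ⟩
  exact ⟨Y'.1, Y'.2, congrArg Subtype.val hY'⟩

end Cfsg.Agent.Lib.QuadRoot
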