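import Cfsg.Agent.Lib.QuadRoot.Sigma

/-! The group of the root subgroups is cocentral. -/

set_option autoImplicit false

namespace Cfsg.Agent.Lib.QuadRoot

open scoped Pointwise

universe u v

variable {k : Type u} [Field k] {M : Type v} [AddCommGroup M] [Module k M] [FiniteDimensional k M]
  {G : Subgroup (LinearMap.GeneralLinearGroup k M)} {X Y Z A : Module.End k M}

/-- endomorphisms with vanishing sandwiches between roots -/
def nullSp (G : Subgroup (LinearMap.GeneralLinearGroup k M)) : Submodule k (Module.End k M) where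
  carrier := {Z | ∀ X, Root G X → X * Z * X = 0}
  zero_mem' := fun X _ => by simp
  add_mem' := fun {a b} ha hb X hX => by rw [mul_add, add_mul, ha X hX, hb X hX, add_zero]
  smul_mem' := fun c a ha X hX => by rw [mul_smul_comm, smul_mul_assoc, ha X hX, smul_zero]

/-- span of the conjugates -/
def orbitSpan (G : Subgroup (LinearMap.GeneralLinearGroup k M)) (Y : Module.End k M) :
    Submodule k (Module.End k M) :=
  Submodule.span k {Z | ∃ g ∈ G, Z = cj g Y}

omit [FiniteDimensional k M] in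
theorem orbitSpan_self (G : Subgroup (LinearMap.GeneralLinearGroup k M)) (Y : Module.End k M) :
    Y ∈ orbitSpan G Y :=
  Submodule.subset_span ⟨1, one_mem _, (one_cj Y).symm⟩

omit [FiniteDimensional k M] in
theorem orbitSpan_cj {g : LinearMap.GeneralLinearGroup k M} (hg : g ∈ G) (hZ : Z ∈ orbitSpan G Y) :
    cj g Z ∈ orbitSpan G Y := by
  induction hZ using Submodule.span_induction with
  | mem x hx => obtain ⟨h, hh, rfl⟩ := hx; exact Submodule.subset_span ⟨g * h, mul_mem hg hh, cj_cj g h Y⟩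
  | zero => rw [cj_zero]; exact zero_mem _
  | add x y _ _ hx hy => rw [cj_add]; exact add_mem hx hy
  | smul c x _ hx => rw [cj_smul]; exact Submodule.smul_mem _ c hx

omit [FiniteDimensional k M] in
theorem orbitSpan_ad (h2 : (2 : k) ≠ 0) (hX : Fam G X) (hZ : Z ∈ orbitSpan G Y) :
    X * Z - Z * X ∈ orbitSpan G Y := by
  have h1 := orbitSpan_cj hX.uni_mem hZ
  have h1' := orbitSpan_cj (inv_mem hX.uni_mem) hZ
  have e : cj (uni X hX.1) Z - cj (uni X hX.1)⁻¹ Z = (2 : k) • (X * Z - Z * X) := by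
    simp only [cj, inv_inv, coe_uni, coe_uni_inv]
    rw [two_smul]
    noncomm_ring
  have := Submodule.smul_mem _ (2 : k)⁻¹ (e ▸ sub_mem h1 h1')
  rwa [smul_smul, inv_mul_cancel₀ h2, one_smul] at this

omit [FiniteDimensional k M] in
theorem nullSp_cj {g : LinearMap.GeneralLinearGroup k M} (hg : g ∈ G) (hZ : Z ∈ nullSp G) :
    cj g Z ∈ nullSp G := by
  intro X hX
  refine cj_injective g⁻¹ ?_
  rw [cj_mul, cj_mul, cj_inv_cj, cj_zero]
  exact hZ _ (hX.cj (inv_mem hg))

omit [FiniteDimensional k M] in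
theorem orbitSpan_le_null (hY : Y ∈ nullSp G) : orbitSpan G Y ≤ nullSp G :=
  Submodule.span_le.mpr fun _ ⟨_, hg, e⟩ => e ▸ nullSp_cj hg hY

/-- A null element has vanishing sandwiches with roots in both orders. -/
theorem sandwich_of_null (h2 : (2 : k) ≠ 0) (hG : NoUnip G) (hY : Fam G Y) (hn : Y ∈ nullSp G)
    (hX : Root G X) : Y * X * Y = 0 := by
  by_contra hB
  have hfam := (hX.1.comm_parts h2 hY (hn X hX)).1
  have hr : rk (Y * X * Y) ≤ rk X := by
    have : LinearMap.range (Y * X * Y) ≤ (LinearMap.range X).map Y := by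
      rintro _ ⟨m, rfl⟩; exact ⟨_, ⟨_, rfl⟩, rfl⟩
    exact (Submodule.finrank_mono this).trans (Submodule.finrank_map_le _ _)
  have hroot := hX.of_rk_le hfam hB hr
  have hA : X * Y - Y * X ∈ orbitSpan G Y := orbitSpan_ad h2 hX.1 (orbitSpan_self G Y)
  have hB' : Y * X * Y ∈ nullSp G := by
    refine orbitSpan_le_null hn ?_
    have h1 := orbitSpan_ad h2 hY hA
    have e : Y * (X * Y - Y * X) - (X * Y - Y * X) * Y = (2 : k) • (Y * X * Y) := by
      rw [mul_sub, sub_mul, ← mul_assoc Y Y X, hY.1, mul_assoc X Y Y, hY.1, two_smul]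
      simp [mul_assoc]
    have := Submodule.smul_mem _ (2 : k)⁻¹ (e ▸ h1)
    rwa [smul_smul, inv_mul_cancel₀ h2, one_smul] at this
  obtain ⟨W, hW, hBW⟩ := exists_partner hG hroot
  exact hBW (sandwich_symm h2 hroot hW.1 (hB' W hW))

/-- An element whose conjugates have pairwise vanishing sandwiches is zero. -/
theorem eq_zero_of_orbit (hG : NoUnip G) (hA : Fam G A)
    (h : ∀ g ∈ G, ∀ g' ∈ G, cj g A * cj g' A * cj g A = 0) : A = 0 := by
  let W : Set (Subgroup (LinearMap.GeneralLinearGroup k M)) :=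
    {S | ∃ g ∈ G, S = famGrp (cj g A) (by rw [← cj_mul, hA.1, cj_zero])}
  have hW := Cfsg.Agent.S5061.result (G := G) (W := W)
    (by rintro S ⟨g, hg, rfl⟩; exact famGrp_le (hA.cj hg))
    (by
      rintro S ⟨g, hg, rfl⟩ T ⟨g', hg', rfl⟩
      have e1 := h g hg g' hg'
      have e2 := h g' hg' g hg
      have e3 : cj g A * cj g A = 0 := (hA.cj hg).1
      have e4 : cj g' A * cj g' A = 0 := (hA.cj hg').1
      rw [Subgroup.sup_eq_closure]
      refine isUnipotentOn_of_triple ({Z | ∃ c : k, Z = c • cj g A} ∪ {Z | ∃ c : k, Z = c • cj g' A}) ?_ _ ?_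
      · rintro a (⟨c1, rfl⟩ | ⟨c1, rfl⟩) b (⟨c2, rfl⟩ | ⟨c2, rfl⟩) c (⟨c3, rfl⟩ | ⟨c3, rfl⟩) <;>
          simp [smul_mul_smul_comm, e1, e2, e3, e4, mul_assoc (cj g A) (cj g' A) (cj g' A),
            mul_assoc (cj g' A) (cj g A) (cj g A)]
      · rintro x (⟨c, hc⟩ | ⟨c, hc⟩)
        · exact Or.inl ⟨c, by rw [hc, add_sub_cancel_left]⟩
        · exact Or.inr ⟨c, by rw [hc, add_sub_cancel_left]⟩)
    (by
      rintro S ⟨g, hg, rfl⟩ g' hg'
      refine ⟨g' * g, mul_mem hg' hg, ?_⟩
      rw [conjBy_famGrp]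
      congr 1)
  have hbot := hG _ (iSup₂_le fun S ⟨g, hg, e⟩ => e ▸ famGrp_le (hA.cj hg)) hW.2 hW.1
  have hmem : uni A hA.1 ∈ (⨆ S ∈ W, S) := by
    refine Subgroup.mem_iSup_of_mem (famGrp A hA.1) (Subgroup.mem_iSup_of_mem ⟨1, one_mem _, ?_⟩ ⟨1, by simp [coe_uni]⟩)
    congr 1
  rw [hbot, Subgroup.mem_bot] at hmem
  have := congrArg (fun g : LinearMap.GeneralLinearGroup k M => (g : Module.End k M)) hmem
  simpa [coe_uni] using this

/-- A null element commutes with the roots. -/
theorem commute_of_null (h2 : (2 : k) ≠ 0) (hG : NoUnip G) (hY : Fam G Y) (hn : Y ∈ nullSp G)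
    (hX : Root G X) : X * Y = Y * X := by
  have hB := sandwich_of_null h2 hG hY hn hX
  set A := Y * X - X * Y with hAdef
  have hA : Fam G A := (hX.1.comm_parts h2 hY (hn X hX)).2
  have hAn : A ∈ nullSp G := by
    refine orbitSpan_le_null hn ?_
    have := neg_mem (orbitSpan_ad h2 hX.1 (orbitSpan_self G Y))
    rwa [neg_sub] at this
  have hAL : A ∈ orbitSpan G X := by
    have := sub_mem (orbitSpan_cj hY.uni_mem (orbitSpan_self G X)) (orbitSpan_self G X)
    convert this using 1
    simp only [cj, coe_uni, coe_uni_inv, hAdef]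
    rw [add_mul, one_mul, mul_sub, mul_one, add_mul, hB]; abel
  have hz : A = 0 := by
    refine eq_zero_of_orbit hG hA fun g hg g' hg' => ?_
    have key : ∀ T ∈ orbitSpan G X, cj g A * T * cj g A = 0 := by
      intro T hT
      induction hT using Submodule.span_induction with
      | mem x hx =>
        obtain ⟨t, ht, rfl⟩ := hx
        exact sandwich_of_null h2 hG (hA.cj hg) (nullSp_cj hg hAn) (hX.cj ht)
      | zero => simp
      | add x y _ _ hx hy => rw [mul_add, add_mul, hx, hy, add_zero]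
      | smul c x _ hx => rw [mul_smul_comm, smul_mul_assoc, hx, smul_zero]
    exact key _ (orbitSpan_cj hg' hAL)
  rw [hAdef, sub_eq_zero] at hz
  exact hz.symm

/-- The subgroup generated by the root subgroups. -/
abbrev rootGrp (G : Subgroup (LinearMap.GeneralLinearGroup k M)) : Subgroup (LinearMap.GeneralLinearGroup k M) :=
  ⨆ A ∈ Cfsg.quadraticRootSubgroups G, A

theorem grp_le_rootGrp (hX : Root G X) : grp G X hX.1.1 ≤ rootGrp G :=
  le_iSup₂ (f := fun A _ => A) _ (mem_quadraticRootSubgroups.mpr ⟨X, hX, rfl⟩)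

theorem rootGrp_le : rootGrp G ≤ G := iSup₂_le fun B hB => by
  obtain ⟨X, hX, rfl⟩ := mem_quadraticRootSubgroups.mp hB
  exact grp_le _

/-- Every scalar family lies in the product. -/
theorem fam_mem_sup (hk2 : ringChar k ≠ 2) (hk3 : Nat.card k ≠ 3) (hG : NoUnip G) (hY : Fam G Y) :
    uni Y hY.1 ∈ rootGrp G ⊔ (G ⊓ Subgroup.centralizer (rootGrp G : Set (LinearMap.GeneralLinearGroup k M))) := by
  have h2 : (2 : k) ≠ 0 := Ring.two_ne_zero hk2
  suffices H : ∀ (n : ℕ) (Y : Module.End k M) (hY : Fam G Y), rk Y = n →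
      uni Y hY.1 ∈ rootGrp G ⊔ (G ⊓ Subgroup.centralizer (rootGrp G : Set (LinearMap.GeneralLinearGroup k M))) from
    H _ Y hY rfl
  intro n
  induction n using Nat.strong_induction_on with
  | _ n ih =>
  intro Y hY hn
  by_cases hnull : Y ∈ nullSp G
  · refine Subgroup.mem_sup_right ⟨hY.uni_mem, ?_⟩
    have hle : rootGrp G ≤ Subgroup.centralizer {uni Y hY.1} := iSup₂_le fun B hB => by
      obtain ⟨X, hX, rfl⟩ := mem_quadraticRootSubgroups.mp hB
      intro g hg
      rw [Subgroup.mem_centralizer_singleton_iff]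
      have e : nil g * Y = Y * nil g := by
        by_cases h0 : nil g = 0
        · simp [h0]
        exact commute_of_null h2 hG hY hnull (hX.same_of_mem_cls (mem_grp.mp hg) h0).1
      refine Units.ext ?_
      rw [Units.val_mul, Units.val_mul, coe_uni, coe_eq_nil g]
      generalize nil g = N at e ⊢
      simp only [mul_add, add_mul, mul_one, one_mul, e]; abel
    intro g hg
    exact Subgroup.mem_centralizer_singleton_iff.mp (hle hg)
  · obtain ⟨X, hX, h⟩ : ∃ X, Root G X ∧ X * Y * X ≠ 0 := by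
      by_contra hcon
      push Not at hcon
      exact hnull hcon
    obtain ⟨R, i1, i2, i3, C, -, -, -, heY, hrest, hlt, -, -, -⟩ := exists_split hk2 hk3 hX hY h
    have h1 := ih _ (hn ▸ hlt) _ hrest rfl
    have h0 : (C.e * Y) * (Y - C.e * Y) = 0 := by
      rw [mul_sub, heY.1.1, sub_zero, mul_assoc, hY.1, mul_zero]
    have e : uni Y hY.1 = uni (C.e * Y) heY.1.1 * uni (Y - C.e * Y) hrest.1 := by
      refine Units.ext ?_
      rw [Units.val_mul, coe_uni, coe_uni, coe_uni]
      simp only [mul_add, add_mul, one_mul, mul_one, h0]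
      abel
    rw [e]
    exact mul_mem (Subgroup.mem_sup_left (grp_le_rootGrp heY (uni_mem_grp heY.mem_cls))) h1

theorem cocentral (hk2 : ringChar k ≠ 2) (hk3 : Nat.card k ≠ 3) (hG : NoUnip G)
    (hgen : Subgroup.closure (Cfsg.quadraticElements G) = G) :
    rootGrp G ⊔ (G ⊓ Subgroup.centralizer (rootGrp G : Set (LinearMap.GeneralLinearGroup k M))) = G := by
  refine le_antisymm (sup_le rootGrp_le inf_le_left) ?_
  conv_lhs => rw [← hgen]
  rw [Subgroup.closure_le]
  intro σ hσ
  obtain ⟨h1, -⟩ := fam_of_quadratic hσ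
  rw [eq_uni h1.1]
  exact fam_mem_sup hk2 hk3 hG h1

end Cfsg.Agent.Lib.QuadRoot
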