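import Cfsg.Agent.Lib.QuadRoot.Simple

/-! The quasisimple components of a quadratic pair. -/

set_option autoImplicit false

namespace Cfsg.Agent.Lib.QuadRoot

open scoped commutatorElement

universe u v

variable {k : Type u} [Field k] {M : Type v} [AddCommGroup M] [Module k M] [FiniteDimensional k M]
  {G : Subgroup (LinearMap.GeneralLinearGroup k M)} {X Y Z : Module.End k M}

/-- the group of the null quadratic elements -/
def residual (G : Subgroup (LinearMap.GeneralLinearGroup k M)) : Subgroup (LinearMap.GeneralLinearGroup k M) :=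
  Subgroup.closure {σ | σ ∈ Cfsg.quadraticElements G ∧ nil σ ∈ nullSp G}

/-- nontrivial normal subgroups have full commutator space -/
def Full (G : Subgroup (LinearMap.GeneralLinearGroup k M)) : Prop :=
  ∀ K : Subgroup (LinearMap.GeneralLinearGroup k M), K ≤ G → K ≠ ⊥ → (∀ g ∈ G, Cfsg.conjBy K g = K) →
    ∀ T : Module.End k M, (∀ g ∈ K, T * nil g = 0) → T = 0

theorem residual_le : residual G ≤ G := (Subgroup.closure_le G).mpr fun _ h => h.1.1

theorem residual_centralizes (h2 : (2 : k) ≠ 0) (hG : NoUnip G) :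
    residual G ≤ Subgroup.centralizer (rootGrp G : Set (LinearMap.GeneralLinearGroup k M)) := by
  refine (Subgroup.closure_le _).mpr ?_
  rintro σ ⟨hσ, hn⟩
  obtain ⟨hY, -⟩ := fam_of_quadratic hσ
  have hle : rootGrp G ≤ Subgroup.centralizer {σ} := iSup₂_le fun B hB => by
    obtain ⟨X, hX, rfl⟩ := mem_quadraticRootSubgroups.mp hB
    intro g hg
    rw [Subgroup.mem_centralizer_singleton_iff]
    have e : nil g * nil σ = nil σ * nil g := by
      by_cases h0 : nil g = 0
      · simp [h0]
      exact commute_of_null h2 hG hY hn (hX.same_of_mem_cls (mem_grp.mp hg) h0).1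
    refine Units.ext ?_
    rw [Units.val_mul, Units.val_mul, coe_eq_nil σ, coe_eq_nil g]
    generalize nil g = N at e ⊢
    generalize nil σ = S at e ⊢
    simp only [mul_add, add_mul, mul_one, one_mul, e]; abel
  exact fun g hg => Subgroup.mem_centralizer_singleton_iff.mp (hle hg)

theorem fam_residual (hY : Fam G Y) (hn : Y ∈ nullSp G) : Fam (residual G) Y := by
  refine ⟨hY.1, fun c => ?_⟩
  by_cases h0 : c • Y = 0
  · exact ⟨1, one_mem _, by rw [h0, Units.val_one, add_zero]⟩
  refine ⟨uni (c • Y) (smul_sq hY.1 c), Subgroup.subset_closure ⟨quadratic_of_fam (hY.smul c) h0, ?_⟩, rfl⟩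
  rw [nil_uni]
  exact Submodule.smul_mem _ c hn

theorem closure_quadratic_residual :
    Subgroup.closure (Cfsg.quadraticElements (residual G)) = residual G := by
  refine le_antisymm ((Subgroup.closure_le _).mpr fun σ h => h.1) ?_
  refine (Subgroup.closure_le _).mpr ?_
  rintro σ ⟨hσ, hn⟩
  obtain ⟨hY, h0⟩ := fam_of_quadratic hσ
  have := quadratic_of_fam (fam_residual hY hn) h0
  rw [← eq_uni hY.1] at this
  exact Subgroup.subset_closure this

theorem fam_mem_residual_sup (hk2 : ringChar k ≠ 2) (hk3 : Nat.card k ≠ 3) :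
    ∀ (n : ℕ) (Y : Module.End k M) (hY : Fam G Y), rk Y = n → uni Y hY.1 ∈ rootGrp G ⊔ residual G := by
  intro n
  induction n using Nat.strong_induction_on with
  | _ n ih =>
  intro Y hY hn
  by_cases hnull : Y ∈ nullSp G
  · exact Subgroup.mem_sup_right (fam_residual hY hnull).uni_mem
  · obtain ⟨X, hX, h⟩ : ∃ X, Root G X ∧ X * Y * X ≠ 0 := by
      by_contra hcon
      push Not at hcon
      exact hnull hcon
    obtain ⟨R, i1, i2, i3, C, -, -, -, heY, hrest, hlt, -, -, -⟩ := exists_split hk2 hk3 hX hY h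
    have h1 := ih _ (hn ▸ hlt) _ hrest rfl
    have h0 : (C.e * Y) * (Y - C.e * Y) = 0 := by
      rw [mul_sub, heY.1.1, sub_zero, mul_assoc, hY.1, mul_zero]
    have e : uni Y hY.1 = uni (C.e * Y) heY.1.1 * uni (Y - C.e * Y) hrest.1 := by
      refine Units.ext ?_
      rw [Units.val_mul, coe_uni, coe_uni, coe_uni]
      simp only [mul_add, add_mul, one_mul, mul_one, h0]
      abel
    rw [e]
    exact mul_mem (Subgroup.mem_sup_left (grp_le_rootGrp heY (uni_mem_grp heY.mem_cls))) h1

theorem sup_residual (hk2 : ringChar k ≠ 2) (hk3 : Nat.card k ≠ 3)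
    (hgen : Subgroup.closure (Cfsg.quadraticElements G) = G) : rootGrp G ⊔ residual G = G := by
  refine le_antisymm (sup_le rootGrp_le residual_le) ?_
  conv_lhs => rw [← hgen]
  rw [Subgroup.closure_le]
  intro σ hσ
  obtain ⟨h1, -⟩ := fam_of_quadratic hσ
  rw [eq_uni h1.1]
  exact fam_mem_residual_sup hk2 hk3 _ _ h1 rfl

/-- normal subgroups of the residual group are normal -/
theorem residual_normal (hk2 : ringChar k ≠ 2) (hk3 : Nat.card k ≠ 3) (hG : NoUnip G)
    (hgen : Subgroup.closure (Cfsg.quadraticElements G) = G) {U : Subgroup (LinearMap.GeneralLinearGroup k M)}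
    (hU : U ≤ residual G) (hn : ∀ g ∈ residual G, Cfsg.conjBy U g = U) : ∀ g ∈ G, Cfsg.conjBy U g = U := by
  refine conjBy_eq_of_forall fun g hg n hn' => ?_
  have hle : G ≤ Subgroup.normalizer (U : Set (LinearMap.GeneralLinearGroup k M)) := by
    conv_lhs => rw [← sup_residual hk2 hk3 hgen]
    refine sup_le (fun a ha => ?_) (fun a ha => ?_)
    · rw [Subgroup.mem_normalizer_iff]
      intro x
      have key : ∀ y ∈ U, a * y * a⁻¹ = y := fun y hy => by
        rw [residual_centralizes (Ring.two_ne_zero hk2) hG (hU hy) a ha, mul_inv_cancel_right]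
      refine ⟨fun hx => by rw [key x hx]; exact hx, fun hx => ?_⟩
      have h' : x = a * x * a⁻¹ := by
        have := residual_centralizes (Ring.two_ne_zero hk2) hG (hU hx) a⁻¹ (inv_mem ha)
        calc x = a⁻¹ * (a * x * a⁻¹) * a := by group
          _ = a * x * a⁻¹ := by rw [this, inv_mul_cancel_right]
      exact h' ▸ hx
    · rw [Subgroup.mem_normalizer_iff]
      intro x
      refine ⟨fun hx => (hn a ha).le ⟨x, hx, rfl⟩, fun hx => ?_⟩
      have := (hn a⁻¹ (inv_mem ha)).le ⟨_, hx, rfl⟩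
      simpa [mul_assoc] using this
  exact (Subgroup.mem_normalizer_iff.mp (hle hg) n).mp hn'

theorem noUnip_residual (hk2 : ringChar k ≠ 2) (hk3 : Nat.card k ≠ 3) (hG : NoUnip G)
    (hgen : Subgroup.closure (Cfsg.quadraticElements G) = G) : NoUnip (residual G) :=
  fun U hU hn hu => hG U (hU.trans residual_le) (residual_normal hk2 hk3 hG hgen hU hn) hu

theorem full_residual (hk2 : ringChar k ≠ 2) (hk3 : Nat.card k ≠ 3) (hG : NoUnip G)
    (hgen : Subgroup.closure (Cfsg.quadraticElements G) = G) (hF : Full G) : Full (residual G) :=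
  fun K hK h0 hn => hF K (hK.trans residual_le) h0 (residual_normal hk2 hk3 hG hgen hK hn)

theorem exists_root (hY : Fam G Y) (h0 : Y ≠ 0) : ∃ X, Root G X := by
  classical
  have hex : ∃ n, ∃ Y, Fam G Y ∧ Y ≠ 0 ∧ rk Y = n := ⟨_, Y, hY, h0, rfl⟩
  obtain ⟨X, hX, hX0, hr⟩ := Nat.find_spec hex
  exact ⟨X, hX, hX0, fun Z hZ hZ0 => hr ▸ Nat.find_le ⟨Z, hZ, hZ0, rfl⟩⟩

/-- span of the nilpotent parts -/
def nilSpan (G : Subgroup (LinearMap.GeneralLinearGroup k M)) : Submodule k (Module.End k M) :=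
  Submodule.span k (nil '' (G : Set (LinearMap.GeneralLinearGroup k M)))

theorem nilSpan_lt (h2 : (2 : k) ≠ 0) (hG : NoUnip G) (hX : Root G X) : nilSpan (residual G) < nilSpan G := by
  refine lt_of_le_of_ne (Submodule.span_mono (Set.image_mono residual_le)) fun he => ?_
  obtain ⟨W, hW, h⟩ := exists_partner hG hX
  refine noncomm_of_sandwich hX.1.1 h ?_
  have hmem : X ∈ nilSpan (residual G) :=
    he ▸ Submodule.subset_span ⟨uni X hX.1.1, hX.1.uni_mem, nil_uni hX.1.1⟩
  clear h hX
  induction hmem using Submodule.span_induction with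
  | mem x hx =>
    obtain ⟨g, hg, rfl⟩ := hx
    have := residual_centralizes h2 hG hg _ (grp_le_rootGrp hW (uni_mem_grp hW.mem_cls))
    have e := congrArg (fun g : LinearMap.GeneralLinearGroup k M => (g : Module.End k M)) this
    simp only [Units.val_mul, coe_uni, coe_eq_nil g] at e
    generalize nil g = N at e ⊢
    simp only [mul_add, add_mul, mul_one, one_mul] at e
    linear_combination (norm := abel) -e
  | zero => simp
  | add x y _ _ hx hy => rw [add_mul, mul_add, hx, hy]
  | smul c x _ hx => rw [smul_mul_assoc, mul_smul_comm, hx]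

theorem closure_quadratic_part (h2 : (2 : k) ≠ 0) :
    Subgroup.closure (Cfsg.quadraticElements G ∩ (partGrp G X : Set (LinearMap.GeneralLinearGroup k M))) =
      partGrp G X := by
  refine le_antisymm ((Subgroup.closure_le _).mpr fun _ h => h.2) (iSup₂_le fun A ⟨Y, hY, hc, eA⟩ => ?_)
  subst eA
  intro g hg
  by_cases h0 : nil g = 0
  · rw [show g = 1 from Units.ext (sub_eq_zero.mp h0)]; exact one_mem _
  obtain ⟨hr, -⟩ := hY.same_of_mem_cls (mem_grp.mp hg) h0
  refine Subgroup.subset_closure ⟨?_, grp_le_partGrp hY hc hg⟩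
  rw [eq_uni hr.1.1]
  exact quadratic_of_fam hr.1 h0

/-- The list of components. -/
structure IsComps (G : Subgroup (LinearMap.GeneralLinearGroup k M))
    (S : Set (Subgroup (LinearMap.GeneralLinearGroup k M))) : Prop where
  fin : S.Finite
  qs : ∀ K ∈ S, Cfsg.IsQuasisimple K
  gen : ∀ K ∈ S, Subgroup.closure (Cfsg.quadraticElements G ∩ (K : Set (LinearMap.GeneralLinearGroup k M))) = K
  comm : ∀ K ∈ S, ∀ L ∈ S, K ≠ L → ⁅K, L⁆ = ⊥
  sup : (⨆ K ∈ S, K) = G
  cover : ∀ σ ∈ Cfsg.quadraticElements G, ∃ K ∈ S, σ ∈ K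

set_option maxHeartbeats 1000000 in
theorem exists_comps (hk2 : ringChar k ≠ 2) (hk3 : Nat.card k ≠ 3) : ∀ (n : ℕ)
    (G : Subgroup (LinearMap.GeneralLinearGroup k M)), Module.finrank k (nilSpan G) = n → NoUnip G →
    Subgroup.closure (Cfsg.quadraticElements G) = G → Full G → ∃ S, IsComps G S := by
  intro n
  induction n using Nat.strong_induction_on with
  | _ n ih =>
  intro G hn hG hgen hF
  have h2 : (2 : k) ≠ 0 := Ring.two_ne_zero hk2
  by_cases hroots : ∃ X, Root G X
  swap
  · have hQ : ∀ σ, σ ∉ Cfsg.quadraticElements G := fun σ hσ =>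
      hroots (exists_root (fam_of_quadratic hσ).1 (fam_of_quadratic hσ).2)
    refine ⟨∅, Set.finite_empty, by simp, by simp, by simp, ?_, fun σ hσ => absurd hσ (hQ σ)⟩
    conv_rhs => rw [← hgen, Set.eq_empty_iff_forall_notMem.mpr hQ, Subgroup.closure_empty]
    simp
  obtain ⟨X₁, hX₁⟩ := hroots
  obtain ⟨S₂, hS⟩ := ih _ (hn ▸ Submodule.finrank_lt_finrank_of_lt (nilSpan_lt h2 hG hX₁)) (residual G) rfl
    (noUnip_residual hk2 hk3 hG hgen) closure_quadratic_residual (full_residual hk2 hk3 hG hgen hF)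
  obtain ⟨reps, hfin, hroot, hcover, hsep⟩ := finite_parts (G := G) h2 hG
  let S := (fun X => partGrp G X) '' reps ∪ S₂
  have hres : ∀ K ∈ S₂, K ≤ residual G := fun K hK => by
    rw [← hS.sup]; exact le_iSup₂ (f := fun K _ => K) K hK
  have hcross : ∀ K ∈ S₂, ∀ X : Module.End k M, ⁅partGrp G X, K⁆ = ⊥ := fun K hK X => by
    rw [Subgroup.commutator_eq_bot_iff_le_centralizer, Subgroup.le_centralizer_iff]
    exact ((hres K hK).trans (residual_centralizes h2 hG)).trans
      (Subgroup.centralizer_le (SetLike.coe_subset_coe.mpr partGrp_le_rootGrp))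
  have hcomm : ∀ K ∈ S, ∀ L ∈ S, K ≠ L → ⁅K, L⁆ = ⊥ := by
    rintro K (⟨X, hX, rfl⟩ | hK) L (⟨Y, hY, rfl⟩ | hL) hne
    · exact partGrp_comm h2 fun hc => hne (partGrp_eq_of_conn hc)
    · exact hcross L hL X
    · rw [Subgroup.commutator_comm]; exact hcross K hK Y
    · exact hS.comm K hK L hL hne
  have hcov : ∀ (m : ℕ) (Y : Module.End k M) (hY : Fam G Y), Y ≠ 0 → rk Y = m → ∃ K ∈ S, uni Y hY.1 ∈ K := by
    intro m
    induction m using Nat.strong_induction_on with
    | _ m ihm =>
    intro Y hY hY0 hm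
    by_cases hnull : Y ∈ nullSp G
    · obtain ⟨K, hK, hmem⟩ := hS.cover _ (quadratic_of_fam (fam_residual hY hnull) hY0)
      exact ⟨K, Or.inr hK, hmem⟩
    obtain ⟨X, hX, h⟩ : ∃ X, Root G X ∧ X * Y * X ≠ 0 := by
      by_contra hcon
      push Not at hcon
      exact hnull hcon
    obtain ⟨R, i1, i2, i3, C, -, hE, -, heY, hrest, hlt, -, -, -⟩ := exists_split hk2 hk3 hX hY h
    have hYe : C.e * Y = Y * C.e := C.commY 1
    have eX : C.e * X = X := by
      have := C.e_E
      rwa [hE] at this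
    have Xe : X * C.e = X := by
      have := C.E_e
      rwa [hE] at this
    obtain ⟨X₀, hX₀, hc⟩ := hcover X hX
    have hceY : Conn G X₀ (C.e * Y) := hc.tail ⟨hX, heY, noncomm_of_sandwich hX.1.1 (by
      rwa [← mul_assoc X, Xe])⟩
    have hmemP : uni (C.e * Y) heY.1.1 ∈ partGrp G X₀ := uni_mem_partGrp heY hceY
    have h0 : (C.e * Y) * (Y - C.e * Y) = 0 := by
      rw [mul_sub, heY.1.1, sub_zero, mul_assoc, hY.1, mul_zero]
    have e : uni Y hY.1 = uni (C.e * Y) heY.1.1 * uni (Y - C.e * Y) hrest.1 := by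
      refine Units.ext ?_
      rw [Units.val_mul, coe_uni, coe_uni, coe_uni]
      simp only [mul_add, add_mul, one_mul, mul_one, h0]
      abel
    refine ⟨partGrp G X₀, Or.inl ⟨X₀, hX₀, rfl⟩, e ▸ mul_mem hmemP ?_⟩
    by_cases hr0 : Y - C.e * Y = 0
    · rw [show uni (Y - C.e * Y) hrest.1 = 1 from Units.ext (by rw [coe_uni, hr0, add_zero, Units.val_one])]
      exact one_mem _
    obtain ⟨K, hK, hmem⟩ := ihm _ (hm ▸ hlt) _ hrest hr0 rfl
    by_cases hKP : K = partGrp G X₀
    · exact hKP ▸ hmem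
    exfalso
    have hcm := hcomm _ (Or.inl ⟨X₀, hX₀, rfl⟩) K hK (Ne.symm hKP)
    rw [Subgroup.commutator_eq_bot_iff_le_centralizer] at hcm
    set T := Y - C.e * Y with hT
    have hTX : T * X = 0 := by rw [hT, sub_mul, hYe, mul_assoc Y, eX, sub_self]
    have hTcomm : ∀ g ∈ partGrp G X₀, T * (g : Module.End k M) = (g : Module.End k M) * T := by
      intro g hg
      have := congrArg (fun g : LinearMap.GeneralLinearGroup k M => (g : Module.End k M)) (hcm hg _ hmem)
      simp only [Units.val_mul, coe_uni] at this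
      rw [add_mul, one_mul, mul_add, mul_one] at this
      exact add_left_cancel this
    let St : Subgroup (LinearMap.GeneralLinearGroup k M) :=
      { carrier := {g | T * (g : Module.End k M) = T}
        one_mem' := by simp
        mul_mem' := fun {a b} (ha : T * (a : Module.End k M) = T) (hb : T * (b : Module.End k M) = T) => by
          show T * _ = T
          rw [Units.val_mul, ← mul_assoc, ha, hb]
        inv_mem' := fun {a} (ha : T * (a : Module.End k M) = T) => by
          show T * _ = T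
          conv_lhs => rw [← ha, mul_assoc, Units.mul_inv, mul_one] }
    have hle : partGrp G X₀ ≤ St := iSup₂_le fun A ⟨Z, hZ, hcZ, eA⟩ => by
      subst eA
      intro g hg
      obtain ⟨h', hh', hs⟩ := rel_of_conn hk2 hk3 hG (hc.symm.trans hcZ)
      rw [← partGrp_eq_of_conn hc] at hh'
      have h1 : T * cj h' X = 0 := by
        rw [cj, mul_assoc (h' : Module.End k M), ← mul_assoc T, hTcomm h' hh', mul_assoc (h' : Module.End k M),
          ← mul_assoc T, hTX, zero_mul, mul_zero]
      have h2' : T * nil g = 0 := mul_eq_zero_iff_range_le_ker.mpr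
        ((mem_grp.mp hg).2.1.trans (hs.1.symm.le.trans (mul_eq_zero_iff_range_le_ker.mp h1)))
      show T * _ = T
      rw [coe_eq_nil g, mul_add, mul_one, h2', add_zero]
    refine hr0 (hF (partGrp G X₀) partGrp_le ?_ (fun g hg => partGrp_conj hk2 hk3 hG hgen hg) T fun g hg => ?_)
    · intro hbot
      exact uni_ne_one _ heY.2.1 ((Subgroup.eq_bot_iff_forall _).mp hbot _ hmemP)
    · rw [mul_sub, mul_one, hle hg, sub_self]
  refine ⟨S, (hfin.image _).union hS.fin, ?_, ?_, hcomm, ?_, ?_⟩
  · rintro K (⟨X, hX, rfl⟩ | hK)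
    · exact partGrp_quasisimple hk2 hk3 hG hgen (hroot X hX)
    · exact hS.qs K hK
  · rintro K (⟨X, hX, rfl⟩ | hK)
    · exact closure_quadratic_part h2
    · refine le_antisymm ((Subgroup.closure_le _).mpr fun _ h => h.2) ?_
      conv_lhs => rw [← hS.gen K hK]
      exact Subgroup.closure_mono (Set.inter_subset_inter_left _ fun σ hσ =>
        ⟨residual_le hσ.1, hσ.2.1, hσ.2.2.trans residual_le⟩)
  · refine le_antisymm (iSup₂_le ?_) ?_
    · rintro K (⟨X, hX, rfl⟩ | hK)
      · exact partGrp_le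
      · exact (hres K hK).trans residual_le
    · conv_lhs => rw [← sup_residual hk2 hk3 hgen]
      refine sup_le (iSup₂_le fun A hA => ?_) (hS.sup.ge.trans (biSup_mono fun K hK => Or.inr hK))
      obtain ⟨Y, hY, rfl⟩ := mem_quadraticRootSubgroups.mp hA
      obtain ⟨X, hX, hc⟩ := hcover Y hY
      exact (grp_le_partGrp hY hc).trans (le_iSup₂ (f := fun K (_ : K ∈ S) => K) _ (Or.inl ⟨X, hX, rfl⟩))
  · intro σ hσ
    obtain ⟨h1, h0⟩ := fam_of_quadratic hσ
    rw [eq_uni h1.1]
    exact hcov _ _ h1 h0 rfl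

theorem full_of_irreducible (hG : Cfsg.IsIrreducibleFor G) : Full G := by
  intro K hKG hK hn T hT
  have hle : Cfsg.commutatorSubmodule K ≤ LinearMap.ker T :=
    iSup₂_le fun g hg => mul_eq_zero_iff_range_le_ker.mp (hT g hg)
  rcases hG.2 (Cfsg.commutatorSubmodule K) (fun g hg w hw => by
    have hmap : (Cfsg.commutatorSubmodule K).map (g : Module.End k M) ≤ Cfsg.commutatorSubmodule K := by
      simp only [Cfsg.commutatorSubmodule, Submodule.map_iSup]
      refine iSup₂_le fun x hx => ?_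
      refine le_trans ?_ (le_iSup₂ (f := fun g _ => LinearMap.range (nil g)) (g * x * g⁻¹) ((hn g hg).le ⟨x, hx, rfl⟩))
      rintro _ ⟨_, ⟨m, rfl⟩, rfl⟩
      refine ⟨(g : Module.End k M) m, ?_⟩
      show ((g * x * g⁻¹ : LinearMap.GeneralLinearGroup k M) : Module.End k M) _ - _ = _
      simp [inv_mul_coe_apply, map_sub]
    exact hmap ⟨w, hw, rfl⟩) with e | e
  · refine absurd ((Subgroup.eq_bot_iff_forall _).mpr fun g hg => Units.ext ?_) hK
    have : LinearMap.range (nil g) ≤ ⊥ := e ▸ le_iSup₂ (f := fun g (_ : g ∈ K) => LinearMap.range (nil g)) g hg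
    exact sub_eq_zero.mp (LinearMap.range_eq_bot.mp (le_bot_iff.mp this))
  · rw [e, top_le_iff] at hle
    exact LinearMap.ker_eq_top.mp hle

end Cfsg.Agent.Lib.QuadRoot
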