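import Cfsg.Agent.S5060

/-! Generation of `SL₂` of a monogenic finite dimensional algebra by two root groups over the ground
field. -/

set_option autoImplicit false

namespace Cfsg.Agent.Lib.QuadRoot

open Matrix
open scoped MatrixGroups

universe u

section Defs

variable {R : Type*} [CommRing R]

/-- upper root element -/
def up (s : R) : SL(2, R) := ⟨!![1, s; 0, 1], by simp [det_fin_two]⟩

/-- lower root element -/
def lo (s : R) : SL(2, R) := ⟨!![1, 0; s, 1], by simp [det_fin_two]⟩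

theorem up_val (s : R) : (up s : Matrix (Fin 2) (Fin 2) R) = !![1, s; 0, 1] := rfl

theorem lo_val (s : R) : (lo s : Matrix (Fin 2) (Fin 2) R) = !![1, 0; s, 1] := rfl

/-- entries of a product -/
theorem mul_val (g h : SL(2, R)) (i j : Fin 2) :
    (g * h) i j = g i 0 * h 0 j + g i 1 * h 1 j := by
  simp [Matrix.SpecialLinearGroup.coe_mul, Matrix.mul_apply, Fin.sum_univ_two, Matrix.vecMul, dotProduct]

theorem inv_val (g : SL(2, R)) : (g⁻¹ : SL(2, R)).1 = !![g 1 1, -(g 0 1); -(g 1 0), g 0 0] := by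
  rw [Matrix.SpecialLinearGroup.coe_inv, Matrix.adjugate_fin_two]

theorem det_eq (g : SL(2, R)) : g 0 0 * g 1 1 - g 0 1 * g 1 0 = 1 := by
  rw [← Matrix.det_fin_two]; exact g.2

theorem ext2 {g h : SL(2, R)} (h00 : g 0 0 = h 0 0) (h01 : g 0 1 = h 0 1) (h10 : g 1 0 = h 1 0)
    (h11 : g 1 1 = h 1 1) : g = h := by
  apply Subtype.ext
  ext i j
  fin_cases i <;> fin_cases j <;> assumption

theorem up_add (s t : R) : up (s + t) = up s * up t := by
  refine ext2 ?_ ?_ ?_ ?_ <;> simp [up_val, add_comm]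

theorem lo_add (s t : R) : lo (s + t) = lo s * lo t := by
  refine ext2 ?_ ?_ ?_ ?_ <;> simp [lo_val]

theorem up_zero : up (0 : R) = 1 := by
  refine ext2 ?_ ?_ ?_ ?_ <;> simp [up_val]

theorem lo_zero : lo (0 : R) = 1 := by
  refine ext2 ?_ ?_ ?_ ?_ <;> simp [lo_val]

theorem up_neg (s : R) : up (-s) = (up s)⁻¹ :=
  eq_inv_of_mul_eq_one_left (by rw [← up_add, neg_add_cancel, up_zero])

theorem lo_neg (s : R) : lo (-s) = (lo s)⁻¹ :=
  eq_inv_of_mul_eq_one_left (by rw [← lo_add, neg_add_cancel, lo_zero])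

theorem conj_up (g : SL(2, R)) (r : R) :
    (g * up r * g⁻¹).1 = !![1 - g 0 0 * g 1 0 * r, g 0 0 * g 0 0 * r;
      -(g 1 0 * g 1 0 * r), 1 + g 0 0 * g 1 0 * r] := by
  have hd := det_eq g
  ext i j
  fin_cases i <;> fin_cases j <;>
    simp [Matrix.SpecialLinearGroup.coe_mul, Matrix.adjugate_fin_two, up_val, Matrix.mul_apply, Fin.sum_univ_two, Matrix.vecMul, dotProduct] <;>
    first
    | linear_combination hd
    | linear_combination (0 : R) * hd
    | ring

theorem conj_lo (g : SL(2, R)) (r : R) :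
    (g * lo r * g⁻¹).1 = !![1 + g 0 1 * g 1 1 * r, -(g 0 1 * g 0 1 * r);
      g 1 1 * g 1 1 * r, 1 - g 0 1 * g 1 1 * r] := by
  have hd := det_eq g
  ext i j
  fin_cases i <;> fin_cases j <;>
    simp [Matrix.SpecialLinearGroup.coe_mul, Matrix.adjugate_fin_two, lo_val, Matrix.mul_apply, Fin.sum_univ_two, Matrix.vecMul, dotProduct] <;>
    first
    | linear_combination hd
    | linear_combination (0 : R) * hd
    | ring

end Defs

/-- A normal subgroup containing a noncentral element contains a root element. -/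
theorem exists_up_of_normal {F : Type*} [Field F] (h2 : (2 : F) ≠ 0) {t : F} (ht : t ≠ 0)
    (ht1 : t * t ≠ 1) {N : Subgroup SL(2, F)} (hN : ∀ x : SL(2, F), ∀ n ∈ N, x * n * x⁻¹ ∈ N)
    {g : SL(2, F)} (hg : g ∈ N) (hnc : ¬ (g 0 1 = 0 ∧ g 1 0 = 0 ∧ g 0 0 = g 1 1)) :
    ∃ x : F, x ≠ 0 ∧ up x ∈ N := by
  let w : SL(2, F) := ⟨!![0, 1; -1, 0], by simp [det_fin_two]⟩
  -- lower left entry may be assumed nonzero
  obtain ⟨g1, hg1, hc⟩ : ∃ g1 ∈ N, g1 1 0 ≠ 0 := by
    by_cases h10 : g 1 0 = 0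
    · by_cases h01 : g 0 1 = 0
      · refine ⟨_, hN (lo 1) g hg, ?_⟩
        have : g 0 0 ≠ g 1 1 := fun e => hnc ⟨h01, h10, e⟩
        simp [mul_val, Matrix.adjugate_fin_two, lo_val, h10, h01]
        intro e; exact this (by linear_combination e)
      · refine ⟨_, hN w g hg, ?_⟩
        rw [mul_val, mul_val, mul_val, inv_val, show w.1 = !![0, 1; -1, 0] from rfl]
        simp [h01]
    · exact ⟨g, hg, h10⟩
  -- and also the trace
  set c0 := g1 1 0 with hc0
  obtain ⟨r, hr, hr2⟩ : ∃ r : F, r ≠ 0 ∧ 2 + c0 * c0 * r * r ≠ 0 := by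
    by_cases h : 2 + c0 * c0 = 0
    · refine ⟨t, ht, fun e => ht1 ?_⟩
      have : c0 * c0 * (t * t - 1) = 0 := by linear_combination e - h
      rcases mul_eq_zero.mp this with h' | h'
      · exact absurd h' (mul_ne_zero hc hc)
      · exact sub_eq_zero.mp h'
    · exact ⟨1, one_ne_zero, by simpa using h⟩
  set g2 := g1 * up r * g1⁻¹ * (up r)⁻¹ with hg2def
  have hg2 : g2 ∈ N := by
    have : g2 = g1 * (up r * g1⁻¹ * (up r)⁻¹) := by rw [hg2def]; group
    rw [this]; exact mul_mem hg1 (hN _ _ (inv_mem hg1))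
  have e2 : g2.1 = !![1 - g1 0 0 * c0 * r,
      g1 0 0 * g1 0 0 * r - (1 - g1 0 0 * c0 * r) * r;
      -(c0 * c0 * r), 1 + g1 0 0 * c0 * r + c0 * c0 * r * r] := by
    rw [hg2def, Matrix.SpecialLinearGroup.coe_mul, conj_up, ← up_neg, up_val]
    ext i j
    fin_cases i <;> fin_cases j <;> simp [Matrix.mul_apply, Fin.sum_univ_two, Matrix.vecMul, dotProduct, hc0] <;> ring
  set C := g2 1 0 with hC
  have hC0 : C ≠ 0 := by
    rw [hC, e2]; simpa using mul_ne_zero (mul_ne_zero hc hc) hr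
  set T := g2 0 0 + g2 1 1 with hT
  have hT0 : T ≠ 0 := by
    rw [hT, e2]
    simp
    intro e
    exact hr2 (by linear_combination e)
  -- normalise
  set g3 := up (-(g2 0 0) / C) * g2 * (up (-(g2 0 0) / C))⁻¹ with hg3def
  have hg3 : g3 ∈ N := hN _ _ hg2
  have e3 : g3.1 = !![0, -C⁻¹; C, T] := by
    have hd := det_eq g2
    rw [hg3def, ← up_neg, Matrix.SpecialLinearGroup.coe_mul, Matrix.SpecialLinearGroup.coe_mul, up_val, up_val]
    ext i j
    fin_cases i <;> fin_cases j <;> simp [Matrix.mul_apply, Fin.sum_univ_two, Matrix.vecMul, dotProduct, hT, ← hC] <;> (try field_simp)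
    all_goals rw [← hC] at hd
    all_goals first | linear_combination (0 : F) * hd | linear_combination -hd | linear_combination hd
  let d : SL(2, F) := ⟨!![t, 0; 0, t⁻¹], by simp [det_fin_two, ht]⟩
  set g4 := g3 * d * g3⁻¹ * d⁻¹ with hg4def
  have hg4 : g4 ∈ N := by
    have : g4 = g3 * (d * g3⁻¹ * d⁻¹) := by rw [hg4def]; group
    rw [this]; exact mul_mem hg3 (hN _ _ (inv_mem hg3))
  set q := t⁻¹ * t⁻¹ with hq
  set x := C * T * (1 - q) with hx
  have hq0 : q ≠ 0 := by rw [hq]; simp [ht]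
  have hq1 : q ≠ 1 := by
    intro e
    rw [hq, ← mul_inv] at e
    exact ht1 (inv_eq_one.mp e)
  have hx0 : x ≠ 0 := mul_ne_zero (mul_ne_zero hC0 hT0) (sub_ne_zero.mpr (Ne.symm hq1))
  have e4 : g4.1 = !![q, 0; x, q⁻¹] := by
    rw [hg4def, Matrix.SpecialLinearGroup.coe_mul, Matrix.SpecialLinearGroup.coe_mul,
      Matrix.SpecialLinearGroup.coe_mul, inv_val, inv_val, e3]
    ext i j
    fin_cases i <;> fin_cases j <;> simp [Matrix.mul_apply, Fin.sum_univ_two, Matrix.vecMul, dotProduct, d, hx, hq] <;> (try field_simp) <;> (try ring_nf) <;> (try simp [ht])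
  obtain ⟨y, hy0, hy⟩ : ∃ y : F, y ≠ 0 ∧ lo y ∈ N := by
    by_cases hm : q * q = 1
    · have hqm : q = -1 := (mul_self_eq_one_iff.mp hm).resolve_left hq1
      refine ⟨-(2 * x), neg_ne_zero.mpr (mul_ne_zero h2 hx0), ?_⟩
      have : g4 * g4 = lo (-(2 * x)) := by
        apply Subtype.ext
        rw [Matrix.SpecialLinearGroup.coe_mul, e4, lo_val, hqm]
        ext i j
        fin_cases i <;> fin_cases j <;> simp [Matrix.mul_apply, Fin.sum_univ_two, Matrix.vecMul, dotProduct] <;> ring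
      exact this ▸ mul_mem hg4 hg4
    · refine ⟨q⁻¹ * q⁻¹ - 1, fun e => hm ?_, ?_⟩
      · rw [sub_eq_zero, ← mul_inv] at e
        exact inv_eq_one.mp e
      have e5 : g4 * (lo 1 * g4⁻¹ * (lo 1)⁻¹) = lo (q⁻¹ * q⁻¹ - 1) := by
        rw [show g4 * (lo 1 * g4⁻¹ * (lo 1)⁻¹) = g4 * lo 1 * g4⁻¹ * (lo 1)⁻¹ by group, ← lo_neg]
        apply Subtype.ext
        rw [Matrix.SpecialLinearGroup.coe_mul, conj_lo, lo_val, lo_val, e4]
        ext i j
        fin_cases i <;> fin_cases j <;> simp [Matrix.mul_apply, Fin.sum_univ_two, Matrix.vecMul, dotProduct] <;> ring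
      exact e5 ▸ mul_mem hg4 (hN _ _ (inv_mem hg4))
  refine ⟨-y, neg_ne_zero.mpr hy0, ?_⟩
  have : w * lo y * w⁻¹ = up (-y) := by
    apply Subtype.ext
    rw [conj_lo, up_val]
    ext i j
    fin_cases i <;> fin_cases j <;> simp [w]
  exact this ▸ hN _ _ hy

variable {k : Type*} [Field k]

theorem exists_ne_pm (h2 : (2 : k) ≠ 0) (h3 : Nat.card k ≠ 3) : ∃ t : k, t ≠ 0 ∧ t * t ≠ 1 := by
  classical
  by_contra hcon
  push Not at hcon
  have hs : ∀ x : k, x ∈ ({0, 1, -1} : Finset k) := by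
    intro x
    by_cases hx : x = 0
    · simp [hx]
    · rcases mul_self_eq_one_iff.mp (hcon x hx) with e | e <;> simp [e]
  haveI : Fintype k := ⟨{0, 1, -1}, hs⟩
  have h11 : (1 : k) ≠ -1 := fun e => h2 (by linear_combination e)
  refine h3 ?_
  rw [Nat.card_eq_fintype_card, ← Finset.card_univ,
    show (Finset.univ : Finset k) = {0, 1, -1} from Finset.ext fun x => by simp [hs x]]
  rw [Finset.card_insert_of_notMem (by simp), Finset.card_insert_of_notMem (by simp [h11]),
    Finset.card_singleton]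

variable {R : Type*} [CommRing R] [Algebra k R]

/-- squares span -/
theorem span_squares (h2 : (2 : k) ≠ 0) (s : R) :
    s = ((s + 1) * (algebraMap k R 2⁻¹)) * ((s + 1) * (algebraMap k R 2⁻¹)) -
      ((s - 1) * (algebraMap k R 2⁻¹)) * ((s - 1) * (algebraMap k R 2⁻¹)) := by
  have : (4 : R) * (algebraMap k R 2⁻¹ * algebraMap k R 2⁻¹) = 1 := by
    rw [← map_mul, (map_ofNat (algebraMap k R) 4).symm, ← map_mul, ← map_one (algebraMap k R)]
    congr 1; field_simp; norm_num
  linear_combination -s * this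

/-- Generation over a field. -/
theorem gen_field {k : Type*} {R : Type*} [Field k] [Field R] [Algebra k R] [FiniteDimensional k R]
    (h2 : ringChar k ≠ 2) (h3 : Nat.card k ≠ 3) {α : R} (hα : α ≠ 0)
    (hgen : Algebra.adjoin k {α} = ⊤) {H : Subgroup SL(2, R)}
    (hU : ∀ c : k, up (algebraMap k R c) ∈ H) (hL : ∀ c : k, lo (algebraMap k R c * α) ∈ H) :
    H = ⊤ := by
  have halg : IsAlgebraic k α := Algebra.IsAlgebraic.isAlgebraic α
  have h := Cfsg.Agent.S5060.result h2 h3 α halg hα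
  refine eq_top_iff.mpr fun g _ => ?_
  have hg : g ∈ {g : Matrix.SpecialLinearGroup (Fin 2) R | ∀ i j : Fin 2,
      (g : Matrix (Fin 2) (Fin 2) R) i j ∈ IntermediateField.adjoin k ({α} : Set R)} := fun i j => by
    show _ ∈ (IntermediateField.adjoin k ({α} : Set R)).toSubalgebra
    rw [IntermediateField.adjoin_simple_toSubalgebra_of_isAlgebraic halg, hgen]
    trivial
  rw [← h] at hg
  refine (Subgroup.closure_le H).mpr ?_ hg
  rintro x (⟨c, hc⟩ | ⟨c, hc⟩)
  · exact (Subtype.ext hc : x = up (algebraMap k R c)) ▸ hU c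
  · exact (Subtype.ext hc : x = lo (algebraMap k R c * α)) ▸ hL c

set_option maxHeartbeats 1600000 in
theorem gen_aux (h2 : ringChar k ≠ 2) (h3 : Nat.card k ≠ 3) : ∀ (n : ℕ) (R : Type u) [CommRing R]
    [Algebra k R] [FiniteDimensional k R], Module.finrank k R = n → ∀ α : R, IsUnit α →
    Algebra.adjoin k {α} = ⊤ → ∀ H : Subgroup SL(2, R),
    (∀ c : k, up (algebraMap k R c) ∈ H) → (∀ c : k, lo (algebraMap k R c * α) ∈ H) →
    ∀ r : R, up r ∈ H ∧ lo r ∈ H := by
  intro n
  induction n using Nat.strong_induction_on with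
  | _ n ih =>
  intro R _ _ _ hn α hα hgen H hU hL
  have h2k : (2 : k) ≠ 0 := Ring.two_ne_zero h2
  obtain ⟨t, ht0, ht1⟩ := exists_ne_pm h2k h3
  rcases subsingleton_or_nontrivial R with hs | hs
  · intro r
    rw [Subsingleton.elim r 0, up_zero, lo_zero]
    exact ⟨one_mem _, one_mem _⟩
  by_cases hF : IsField R
  · letI : Field R := hF.toField
    intro r
    have := gen_field (k := k) h2 h3 hα.ne_zero hgen hU hL
    rw [this]
    exact ⟨trivial, trivial⟩
  haveI : IsArtinianRing R := IsArtinianRing.of_finite k R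
  obtain ⟨Z, hZ, -⟩ := (eq_bot_or_exists_atom_le (⊤ : Ideal R)).resolve_left top_ne_bot
  have hZtop : Z ≠ ⊤ := by
    intro e
    subst e
    refine hF ?_
    by_contra hnf
    obtain ⟨J, hJ1, hJ2⟩ := (Ring.not_isField_iff_exists_ideal_bot_lt_and_lt_top).mp hnf
    exact hJ1.ne' (hZ.2 J hJ2)
  -- the quotient
  have hlt : Module.finrank k (R ⧸ Z) < n := by
    subst hn
    have e := (Z.restrictScalars k).finrank_quotient_add_finrank
    have hpos : 0 < Module.finrank k (Z.restrictScalars k) := by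
      rw [Nat.pos_iff_ne_zero, ne_eq, Submodule.finrank_eq_zero, Submodule.restrictScalars_eq_bot_iff]
      exact hZ.1
    have he : Module.finrank k (R ⧸ Z) = Module.finrank k (R ⧸ Z.restrictScalars k) :=
      (Submodule.Quotient.restrictScalarsEquiv k Z).finrank_eq.symm
    omega
  have hq := ih _ hlt (R ⧸ Z) rfl (Ideal.Quotient.mk Z α) (hα.map _) (by
      have := congrArg (Subalgebra.map (Ideal.Quotient.mkₐ k Z)) hgen
      rw [AlgHom.map_adjoin, Set.image_singleton, Algebra.map_top,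
        (AlgHom.range_eq_top _).mpr (Ideal.Quotient.mkₐ_surjective k Z)] at this
      exact this)
    (H.map (SpecialLinearGroup.map (Ideal.Quotient.mk Z)))
    (fun c => ⟨_, hU c, by
      apply Subtype.ext; ext i j; fin_cases i <;> fin_cases j <;> simp [up_val, SpecialLinearGroup.map] <;> rfl⟩)
    (fun c => ⟨_, hL c, by
      apply Subtype.ext; ext i j; fin_cases i <;> fin_cases j <;> simp [lo_val, SpecialLinearGroup.map] <;> rfl⟩)
  have liftU : ∀ a : R, ∃ g ∈ H, g 0 0 - 1 ∈ Z ∧ g 0 1 - a ∈ Z ∧ g 1 0 ∈ Z ∧ g 1 1 - 1 ∈ Z := by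
    intro a
    obtain ⟨g, hg, e⟩ := (hq (Ideal.Quotient.mk Z a)).1
    refine ⟨g, hg, ?_, ?_, ?_, ?_⟩ <;> rw [← Ideal.Quotient.eq_zero_iff_mem]
    · rw [map_sub, map_one, sub_eq_zero]; exact congrArg (fun m : SL(2, R ⧸ Z) => m 0 0) e
    · rw [map_sub, sub_eq_zero]; exact congrArg (fun m : SL(2, R ⧸ Z) => m 0 1) e
    · exact congrArg (fun m : SL(2, R ⧸ Z) => m 1 0) e
    · rw [map_sub, map_one, sub_eq_zero]; exact congrArg (fun m : SL(2, R ⧸ Z) => m 1 1) e
  have liftL : ∀ a : R, ∃ g ∈ H, g 0 0 - 1 ∈ Z ∧ g 0 1 ∈ Z ∧ g 1 0 - a ∈ Z ∧ g 1 1 - 1 ∈ Z := by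
    intro a
    obtain ⟨g, hg, e⟩ := (hq (Ideal.Quotient.mk Z a)).2
    refine ⟨g, hg, ?_, ?_, ?_, ?_⟩ <;> rw [← Ideal.Quotient.eq_zero_iff_mem]
    · rw [map_sub, map_one, sub_eq_zero]; exact congrArg (fun m : SL(2, R ⧸ Z) => m 0 0) e
    · exact congrArg (fun m : SL(2, R ⧸ Z) => m 0 1) e
    · rw [map_sub, sub_eq_zero]; exact congrArg (fun m : SL(2, R ⧸ Z) => m 1 0) e
    · rw [map_sub, map_one, sub_eq_zero]; exact congrArg (fun m : SL(2, R ⧸ Z) => m 1 1) e
  -- the residue field of the minimal ideal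
  obtain ⟨r0, hr0Z, hr0⟩ := Submodule.exists_mem_ne_zero_of_ne_bot hZ.1
  let m : Ideal R := LinearMap.ker (LinearMap.toSpanSingleton R R r0)
  have hm : ∀ s, s ∈ m ↔ s * r0 = 0 := fun s => by
    simp [m, LinearMap.toSpanSingleton_apply]
  have hZspan : ∀ z ∈ Z, z ≠ 0 → ∀ y ∈ Z, ∃ q, y = q * z := by
    intro z hz hz0 y hy
    have : Ideal.span {z} = Z := by
      rcases (hZ.le_iff.mp ((Ideal.span_singleton_le_iff_mem _).mpr hz)) with h | h
      · exact absurd (Ideal.span_singleton_eq_bot.mp h) hz0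
      · exact h
    rw [← this, Ideal.mem_span_singleton'] at hy
    exact ⟨hy.choose, hy.choose_spec.symm⟩
  have hmZ : ∀ s ∈ m, ∀ z ∈ Z, s * z = 0 := by
    intro s hs z hz
    obtain ⟨q, rfl⟩ := hZspan r0 hr0Z hr0 z hz
    rw [mul_left_comm, (hm s).mp hs, mul_zero]
  haveI hmax : m.IsMaximal := by
    rw [Ideal.isMaximal_iff]
    refine ⟨fun h => hr0 (by simpa using (hm 1).mp h), fun J x hJ hx hxJ => ?_⟩
    have hxr : x * r0 ≠ 0 := fun e => hx ((hm x).mpr e)
    obtain ⟨q, hq'⟩ := hZspan _ (Z.mul_mem_left x hr0Z) hxr r0 hr0Z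
    have : 1 - q * x ∈ m := (hm _).mpr (by linear_combination hq')
    have h1 := J.add_mem (hJ this) (J.mul_mem_left q hxJ)
    rwa [sub_add_cancel] at h1
  letI : Field (R ⧸ m) := Ideal.Quotient.field m
  have hmgen : Algebra.adjoin k {Ideal.Quotient.mk m α} = ⊤ := by
    have := congrArg (Subalgebra.map (Ideal.Quotient.mkₐ k m)) hgen
    rw [AlgHom.map_adjoin, Set.image_singleton, Algebra.map_top,
      (AlgHom.range_eq_top _).mpr (Ideal.Quotient.mkₐ_surjective k m)] at this
    exact this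
  set Hm := H.map (SpecialLinearGroup.map (Ideal.Quotient.mk m)) with hHm
  have hmtop : Hm = ⊤ := gen_field (k := k) h2 h3 ((hα.map (Ideal.Quotient.mk m)).ne_zero) hmgen
    (fun c => ⟨_, hU c, by
      apply Subtype.ext; ext i j; fin_cases i <;> fin_cases j <;> simp [up_val, SpecialLinearGroup.map] <;> rfl⟩)
    (fun c => ⟨_, hL c, by
      apply Subtype.ext; ext i j; fin_cases i <;> fin_cases j <;> simp [lo_val, SpecialLinearGroup.map] <;> rfl⟩)
  have hUadd : ∀ a b : R, up a ∈ H → up b ∈ H → up (a + b) ∈ H := fun a b ha hb =>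
    up_add a b ▸ mul_mem ha hb
  have hUneg : ∀ a : R, up a ∈ H → up (-a) ∈ H := fun a ha => up_neg a ▸ inv_mem ha
  -- elements congruent to the identity
  by_cases hA : ∃ r ∈ Z, r ≠ 0 ∧ up r ∈ H
  · obtain ⟨r, hrZ, hr, hrH⟩ := hA
    have hsq : ∀ s : R, s ∉ m → ∀ z ∈ Z, up z ∈ H → up (s * s * z) ∈ H ∧ lo (-(s * s * z)) ∈ H := by
      intro s hs z hz hzH
      obtain ⟨i, hi⟩ := Ideal.Quotient.exists_inv (I := m) (a := Ideal.Quotient.mk m s)
        (by rwa [ne_eq, Ideal.Quotient.eq_zero_iff_mem])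
      constructor
      · obtain ⟨g, hg, e⟩ := (Subgroup.eq_top_iff' Hm).mp hmtop
          ⟨!![Ideal.Quotient.mk m s, 0; 0, i], by simp [det_fin_two, hi]⟩
        have e1 : g 1 0 ∈ m := by
          rw [← Ideal.Quotient.eq_zero_iff_mem]; exact congrArg (fun q : SL(2, R ⧸ m) => q 1 0) e
        have e0 : g 0 0 - s ∈ m := by
          rw [← Ideal.Quotient.eq_zero_iff_mem, map_sub, sub_eq_zero]
          exact congrArg (fun q : SL(2, R ⧸ m) => q 0 0) e
        have h10 := hmZ _ e1 z hz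
        have h00 := hmZ _ e0 z hz
        have : g * up z * g⁻¹ = up (s * s * z) := by
          apply Subtype.ext
          rw [conj_up, up_val]
          ext i j
          fin_cases i <;> fin_cases j <;> simp
          · linear_combination g 0 0 * h10
          · linear_combination (g 0 0 + s) * h00
          · linear_combination g 1 0 * h10
          · linear_combination g 0 0 * h10
        exact this ▸ mul_mem (mul_mem hg hzH) (inv_mem hg)
      · obtain ⟨g, hg, e⟩ := (Subgroup.eq_top_iff' Hm).mp hmtop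
          ⟨!![0, -i; Ideal.Quotient.mk m s, 0], by simp [det_fin_two, mul_comm i _, hi]⟩
        have e1 : g 0 0 ∈ m := by
          rw [← Ideal.Quotient.eq_zero_iff_mem]; exact congrArg (fun q : SL(2, R ⧸ m) => q 0 0) e
        have e0 : g 1 0 - s ∈ m := by
          rw [← Ideal.Quotient.eq_zero_iff_mem, map_sub, sub_eq_zero]
          exact congrArg (fun q : SL(2, R ⧸ m) => q 1 0) e
        have h00 := hmZ _ e1 z hz
        have h10 := hmZ _ e0 z hz
        have : g * up z * g⁻¹ = lo (-(s * s * z)) := by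
          apply Subtype.ext
          rw [conj_up, lo_val]
          ext i j
          fin_cases i <;> fin_cases j <;> simp
          · linear_combination g 1 0 * h00
          · linear_combination g 0 0 * h00
          · linear_combination (g 1 0 + s) * h10
          · linear_combination g 1 0 * h00
        exact this ▸ mul_mem (mul_mem hg hzH) (inv_mem hg)
    have hsq' : ∀ s : R, up (s * s * r) ∈ H ∧ lo (-(s * s * r)) ∈ H := by
      intro s
      by_cases hs : s ∈ m
      · rw [mul_assoc, hmZ s hs r hrZ, mul_zero, neg_zero, up_zero, lo_zero]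
        exact ⟨one_mem _, one_mem _⟩
      · exact hsq s hs r hrZ hrH
    have hZH : ∀ z ∈ Z, up z ∈ H ∧ lo z ∈ H := by
      intro z hz
      obtain ⟨q, rfl⟩ := hZspan r hrZ hr z hz
      rw [span_squares h2k q]
      set A := (q + 1) * algebraMap k R 2⁻¹
      set B := (q - 1) * algebraMap k R 2⁻¹
      constructor
      · rw [sub_mul, sub_eq_add_neg]
        exact hUadd _ _ (hsq' A).1 (hUneg _ (hsq' B).1)
      · rw [show (A * A - B * B) * r = -(-(A * A * r)) + -(B * B * r) by ring, lo_add, lo_neg (-(A * A * r))]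
        exact mul_mem (inv_mem (hsq' A).2) (hsq' B).2
    have up1 : up (1 : R) ∈ H := by simpa using hU 1
    have hcong : ∀ g : SL(2, R), g 0 0 - 1 ∈ Z → g 0 1 ∈ Z → g 1 0 ∈ Z → g ∈ H := by
      intro g h00 h01 h10
      obtain ⟨z, hz, hu⟩ : ∃ z ∈ Z, IsUnit (g 0 0 + z * g 1 0) := by
        by_cases hu : IsUnit (g 0 0)
        · exact ⟨0, Z.zero_mem, by simpa using hu⟩
        obtain ⟨p, hp, hgp⟩ := exists_max_ideal_of_mem_nonunits hu
        have hZp : ¬ Z ≤ p := fun hle => hp.ne_top (p.eq_top_iff_one.mpr (by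
          have := p.sub_mem hgp (hle h00); rwa [sub_sub_cancel] at this))
        have hinf : Z ⊓ p = ⊥ := (hZ.le_iff.mp inf_le_left).resolve_right (fun e => hZp (e ▸ inf_le_right))
        have hsup : Z ⊔ p = ⊤ := (Ideal.isMaximal_def.mp hp).2 _ (right_lt_sup.mpr hZp)
        obtain ⟨z, hz, y, hy, hzy⟩ := Submodule.mem_sup.mp (hsup.symm ▸ Submodule.mem_top : (1 : R) ∈ Z ⊔ p)
        refine ⟨z, hz, ?_⟩
        by_contra hnu
        obtain ⟨p', hp', hmem⟩ := exists_max_ideal_of_mem_nonunits hnu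
        by_cases hZp' : Z ≤ p'
        · refine hp'.ne_top (p'.eq_top_iff_one.mpr ?_)
          have := p'.sub_mem (p'.sub_mem hmem (p'.mul_mem_right (g 1 0) (hZp' hz))) (hZp' h00)
          convert this using 1; ring
        · -- `p'` agrees with `p`
          have hle : p ≤ p' := by
            intro x hx
            obtain ⟨w, hw, hwp⟩ := Set.not_subset.mp hZp'
            have : w * x ∈ Z ⊓ p := ⟨Z.mul_mem_right x hw, p.mul_mem_left w hx⟩
            rw [hinf, Submodule.mem_bot] at this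
            exact ((hp'.isPrime.mem_or_mem (show w * x ∈ p' by rw [this]; exact zero_mem _)).resolve_left hwp)
          have hpp : p = p' := hp.eq_of_le hp'.ne_top hle
          subst hpp
          have h10p : g 1 0 ∈ p := by
            have := p.sub_mem hmem hgp
            have h' := p.mul_mem_left (g 1 0) hy
            have e : g 1 0 = (g 0 0 + z * g 1 0 - g 0 0) + g 1 0 * y := by
              linear_combination (g 1 0) * hzy.symm
            rw [e]; exact p.add_mem this h'
          refine hp.ne_top (p.eq_top_iff_one.mpr ?_)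
          rw [← det_eq g]
          exact p.sub_mem (p.mul_mem_right _ hgp) (p.mul_mem_left _ h10p)
      obtain ⟨a, ha⟩ := hu
      have haZ : (↑a : R) - 1 ∈ Z := by
        rw [ha, add_sub_right_comm]; exact Z.add_mem h00 (Z.mul_mem_right _ hz)
      have hiZ : (↑a⁻¹ : R) - 1 ∈ Z := by
        have e : (↑a⁻¹ : R) - 1 = -(↑a⁻¹ * ((↑a : R) - 1)) := by
          rw [mul_sub, Units.inv_mul]; ring
        rw [e]; exact Z.neg_mem (Z.mul_mem_left _ haZ)
      set b := g 0 1 + z * g 1 1
      have hbZ : b ∈ Z := Z.add_mem h01 (Z.mul_mem_right _ hz)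
      have e : g = up (-z) * (lo (g 1 0 * (↑a⁻¹ : R)) *
          (lo ((↑a⁻¹ : R) - 1) * up 1 * lo ((↑a : R) - 1) * up (-(↑a⁻¹ : R))) *
          up ((↑a⁻¹ : R) * b)) := by
        have hd := det_eq g
        have hai : (↑a : R) * ↑a⁻¹ = 1 := a.mul_inv
        obtain ⟨D, hDv⟩ : ∃ D : SL(2, R), D.1 = !![(↑a : R), 0; 0, ↑a⁻¹] :=
          ⟨⟨_, by simp [det_fin_two]⟩, rfl⟩
        have hD : lo ((↑a⁻¹ : R) - 1) * up 1 * lo ((↑a : R) - 1) * up (-(↑a⁻¹ : R)) = D := by
          refine ext2 ?_ ?_ ?_ ?_ <;> simp [mul_val, up_val, lo_val, hDv] <;> ring_nf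
          all_goals simp [hai]
        rw [hD]
        refine ext2 ?_ ?_ ?_ ?_ <;> simp [mul_val, up_val, lo_val, hDv, b]
        · linear_combination -ha
        · linear_combination (z * g 1 1) * hai -
            z * ↑a⁻¹ * hd - z * ↑a⁻¹ * g 1 1 * ha
        · linear_combination ↑a⁻¹ * hd + ↑a⁻¹ * g 1 1 * ha - g 1 1 * hai
      rw [e]
      have hup_i : up (-(↑a⁻¹ : R)) ∈ H := by
        refine hUneg _ ?_
        rw [show (↑a⁻¹ : R) = 1 + ((↑a⁻¹ : R) - 1) by ring]
        exact hUadd _ _ up1 (hZH _ hiZ).1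
      exact mul_mem (hUneg _ (hZH _ hz).1) (mul_mem (mul_mem (hZH _ (Z.mul_mem_right _ h10)).2
        (mul_mem (mul_mem (mul_mem (hZH _ hiZ).2 up1) (hZH _ haZ).2) hup_i)) (hZH _ (Z.mul_mem_left _ hbZ)).1)
    intro a
    constructor
    · obtain ⟨g, hg, e00, e01, e10, e11⟩ := liftU a
      have : g⁻¹ * up a ∈ H := by
        refine hcong _ ?_ ?_ ?_ <;> simp [mul_val, Matrix.adjugate_fin_two, up_val]
        · exact e11
        · rw [show g 1 1 * a + -g 0 1 = (g 1 1 - 1) * a - (g 0 1 - a) by ring]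
          exact Z.sub_mem (Z.mul_mem_right _ e11) e01
        · exact e10
      simpa using mul_mem hg this
    · obtain ⟨g, hg, e00, e01, e10, e11⟩ := liftL a
      have : g⁻¹ * lo a ∈ H := by
        refine hcong _ ?_ ?_ ?_ <;> simp [mul_val, Matrix.adjugate_fin_two, lo_val]
        · rw [show g 1 1 + -(g 0 1 * a) - 1 = (g 1 1 - 1) - g 0 1 * a by ring]
          exact Z.sub_mem e11 (Z.mul_mem_right _ e01)
        · exact e01
        · rw [show -g 1 0 + g 0 0 * a = (g 0 0 - 1) * a - (g 1 0 - a) by ring]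
          exact Z.sub_mem (Z.mul_mem_right _ e00) e10
      simpa using mul_mem hg this
  -- no root element in the congruence kernel
  push Not at hA
  have hA' : ∀ r ∈ Z, up r ∈ H → r = 0 := fun r hr h => by_contra fun h0 => hA r hr h0 h
  have hker : ∀ g ∈ H, g 0 0 - 1 ∈ Z → g 0 1 ∈ Z → g 1 0 ∈ Z → g 1 1 - 1 ∈ Z →
      g 0 1 = 0 ∧ g 1 0 = 0 ∧ g 0 0 = g 1 1 := by
    intro g hg h00 h01 h10 h11
    have up1 : up (1 : R) ∈ H := by simpa using hU 1
    by_cases hsq : ∀ x ∈ Z, ∀ y ∈ Z, x * y = 0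
    · have step : ∀ (e : SL(2, R)), e 0 0 - 1 ∈ Z → e 0 1 ∈ Z → e 1 0 ∈ Z → e 1 1 - 1 ∈ Z →
          (up 1 * e * (up 1)⁻¹ * e⁻¹).1 = !![1 + e 1 0, e 1 1 - e 0 0 - e 1 0; 0, 1 - e 1 0] := by
        intro e a00 a01 a10 a11
        have hd := det_eq e
        have p1 := hsq _ a10 _ a10
        have p2 := hsq _ a10 _ a00
        have p3 := hsq _ a10 _ a01
        have p4 := hsq _ a10 _ a11
        have p5 := hsq _ a01 _ a00
        have p6 := hsq _ a01 _ a11
        have p7 := hsq _ a00 _ a11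
        have p8 := hsq _ a00 _ a00
        have p9 := hsq _ a11 _ a11
        rw [Matrix.SpecialLinearGroup.coe_mul, Matrix.SpecialLinearGroup.coe_mul,
          Matrix.SpecialLinearGroup.coe_mul, ← up_neg, inv_val, up_val, up_val]
        ext i j
        fin_cases i <;> fin_cases j <;> simp [Matrix.mul_apply, Fin.sum_univ_two, Matrix.vecMul, dotProduct]
        · linear_combination hd + p2 + p1
        · linear_combination p7 - p3 - p8 - p2
        · linear_combination p1
        · linear_combination hd - p2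
      set g1 := up 1 * g * (up 1)⁻¹ * g⁻¹ with hg1
      have hg1H : g1 ∈ H := mul_mem (mul_mem (mul_mem up1 hg) (inv_mem up1)) (inv_mem hg)
      have e1 := step g h00 h01 h10 h11
      have g1e : g1.1 = _ := e1
      have c00 : g1 0 0 - 1 ∈ Z := by rw [g1e]; simpa using h10
      have c01 : g1 0 1 ∈ Z := by
        rw [g1e]; simp
        rw [show g 1 1 - g 0 0 - g 1 0 = (g 1 1 - 1) - (g 0 0 - 1) - g 1 0 by ring]
        exact Z.sub_mem (Z.sub_mem h11 h00) h10
      have c10 : g1 1 0 ∈ Z := by rw [g1e]; simp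
      have c11 : g1 1 1 - 1 ∈ Z := by rw [g1e]; simpa using h10
      have e2 := step g1 c00 c01 c10 c11
      have hg2 : up 1 * g1 * (up 1)⁻¹ * g1⁻¹ = up (-(2 * g 1 0)) := by
        apply Subtype.ext
        rw [e2, up_val, g1e]
        ext i j; fin_cases i <;> fin_cases j <;> simp <;> ring
      have z1 := hA' _ (Z.neg_mem (Z.mul_mem_left 2 h10))
        (hg2 ▸ mul_mem (mul_mem (mul_mem up1 hg1H) (inv_mem up1)) (inv_mem hg1H))
      have h2R : IsUnit (2 : R) := by
        rw [(map_ofNat (algebraMap k R) 2).symm]; exact (isUnit_iff_ne_zero.mpr h2k).map _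
      have hc0 : g 1 0 = 0 := by
        rw [neg_eq_zero] at z1; exact h2R.mul_right_eq_zero.mp z1
      have hg1' : g1 = up (g 1 1 - g 0 0) := by
        apply Subtype.ext
        rw [g1e, up_val, hc0]; simp
      have z2 := hA' _ (by
        have := Z.sub_mem h11 h00
        simpa using this) (hg1' ▸ hg1H)
      have hd := det_eq g
      rw [hc0, mul_zero, sub_zero, sub_eq_zero.mp z2] at hd
      have h00' : g 0 0 = 1 := by
        have := hsq _ h00 _ h00
        have h' : (2 : R) * (g 0 0 - 1) = 0 := by linear_combination hd - this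
        exact sub_eq_zero.mp (h2R.mul_right_eq_zero.mp h')
      have hgu : g = up (g 0 1) := by
        refine ext2 ?_ ?_ ?_ ?_ <;> simp [up_val, hc0, h00']
        rw [sub_eq_zero.mp z2, h00']
      exact ⟨hA' _ h01 (hgu ▸ hg), hc0, (sub_eq_zero.mp z2).symm⟩
    · push Not at hsq
      obtain ⟨x, hx, y, hy, hxy⟩ := hsq
      have hdis : ∀ s ∈ Z, s ∈ m → s = 0 := by
        intro s hs hsm
        by_contra hs0
        obtain ⟨q, rfl⟩ := hZspan s hs hs0 x hx
        exact hxy (by rw [mul_assoc, hmZ s hsm y hy, mul_zero])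
      set π : SL(2, R) →* SL(2, R ⧸ m) := SpecialLinearGroup.map (Ideal.Quotient.mk m)
      let K : Subgroup SL(2, R) :=
        H ⊓ (SpecialLinearGroup.map (Ideal.Quotient.mk Z) : SL(2, R) →* SL(2, R ⧸ Z)).ker
      have hgK : g ∈ K := Subgroup.mem_inf.mpr ⟨hg, MonoidHom.mem_ker.mpr <| by
        refine ext2 ?_ ?_ ?_ ?_
        · show Ideal.Quotient.mk Z (g 0 0) = 1
          rwa [← map_one (Ideal.Quotient.mk Z), Ideal.Quotient.eq]
        · exact Ideal.Quotient.eq_zero_iff_mem.mpr h01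
        · exact Ideal.Quotient.eq_zero_iff_mem.mpr h10
        · show Ideal.Quotient.mk Z (g 1 1) = 1
          rwa [← map_one (Ideal.Quotient.mk Z), Ideal.Quotient.eq]⟩
      by_contra hns
      have h2F : (2 : R ⧸ m) ≠ 0 := by
        rw [(map_ofNat (algebraMap k (R ⧸ m)) 2).symm]
        exact (isUnit_iff_ne_zero.mpr h2k).map _ |>.ne_zero
      have hnormal : ∀ a : SL(2, R ⧸ m), ∀ b ∈ K.map π, a * b * a⁻¹ ∈ K.map π := by
        rintro a _ ⟨b, hb, rfl⟩
        obtain ⟨a', ha', rfl⟩ : a ∈ Hm := (by rw [hmtop]; exact Subgroup.mem_top _)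
        obtain ⟨hb1, hb2⟩ := Subgroup.mem_inf.mp hb
        exact ⟨a' * b * a'⁻¹, Subgroup.mem_inf.mpr ⟨mul_mem (mul_mem ha' hb1) (inv_mem ha'),
          (MonoidHom.normal_ker _).conj_mem b hb2 a'⟩, by simp [π]⟩
      obtain ⟨x', hx', hxK⟩ := exists_up_of_normal h2F (t := algebraMap k (R ⧸ m) t)
        (by rw [ne_eq, map_eq_zero_iff _ (algebraMap k (R ⧸ m)).injective]; exact ht0)
        (by rw [← map_mul, ← map_one (algebraMap k (R ⧸ m)), ne_eq,
              (algebraMap k (R ⧸ m)).injective.eq_iff]; exact ht1)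
        hnormal ⟨g, hgK, rfl⟩ (by
          intro hc
          obtain ⟨a1, a2, a3⟩ := hc
          refine hns ⟨hdis _ h01 (Ideal.Quotient.eq_zero_iff_mem.mp a1),
            hdis _ h10 (Ideal.Quotient.eq_zero_iff_mem.mp a2), sub_eq_zero.mp (hdis _ ?_ ?_)⟩
          · have := Z.sub_mem h00 h11
            simpa using this
          · exact Ideal.Quotient.eq.mp a3)
      obtain ⟨h, hhK, hhx⟩ := hxK
      obtain ⟨hhH, hhZ⟩ := Subgroup.mem_inf.mp hhK
      rw [MonoidHom.mem_ker] at hhZ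
      have z00 : h 0 0 - 1 ∈ Z := by
        rw [← Ideal.Quotient.eq, map_one]; exact congrArg (fun q : SL(2, R ⧸ Z) => q 0 0) hhZ
      have z01 : h 0 1 ∈ Z := Ideal.Quotient.eq_zero_iff_mem.mp (congrArg (fun q : SL(2, R ⧸ Z) => q 0 1) hhZ)
      have z10 : h 1 0 ∈ Z := Ideal.Quotient.eq_zero_iff_mem.mp (congrArg (fun q : SL(2, R ⧸ Z) => q 1 0) hhZ)
      have z11 : h 1 1 - 1 ∈ Z := by
        rw [← Ideal.Quotient.eq, map_one]; exact congrArg (fun q : SL(2, R ⧸ Z) => q 1 1) hhZ
      have q00 : h 0 0 = 1 := sub_eq_zero.mp (hdis _ z00 (by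
        rw [← Ideal.Quotient.eq, map_one]
        exact congrArg (fun q : SL(2, R ⧸ m) => q 0 0) hhx))
      have q10 : h 1 0 = 0 := hdis _ z10 (Ideal.Quotient.eq_zero_iff_mem.mp (by
        exact congrArg (fun q : SL(2, R ⧸ m) => q 1 0) hhx))
      have q11 : h 1 1 = 1 := sub_eq_zero.mp (hdis _ z11 (by
        rw [← Ideal.Quotient.eq, map_one]
        exact congrArg (fun q : SL(2, R ⧸ m) => q 1 1) hhx))
      have hh : h = up (h 0 1) := by refine ext2 ?_ ?_ ?_ ?_ <;> simp [up_val, q00, q10, q11]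
      have h0 := hA' _ z01 (hh ▸ hhH)
      refine hx' ?_
      have := congrArg (fun q : SL(2, R ⧸ m) => q 0 1) hhx
      have h2 : Ideal.Quotient.mk m (h 0 1) = x' := this
      rw [h0, map_zero] at h2; exact h2.symm
  have h2R : IsUnit (2 : R) := by
    rw [(map_ofNat (algebraMap k R) 2).symm]; exact (isUnit_iff_ne_zero.mpr h2k).map _
  obtain ⟨half, hhalf⟩ : ∃ h : R, 2 * h = 1 := ⟨_, h2R.mul_val_inv⟩
  -- exact lifts
  have exU : ∀ a : R, ∃ b, b - a ∈ Z ∧ up b ∈ H := by
    intro a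
    obtain ⟨g, hg, e00, e01, e10, e11⟩ := liftU (a * half)
    have up1 : up (1 : R) ∈ H := by simpa using hU 1
    set e := g * up 1 * g⁻¹ * (up 1)⁻¹ with he
    have ee : e.1 = !![1 - g 0 0 * g 1 0, g 0 0 * g 0 0 - (1 - g 0 0 * g 1 0);
        -(g 1 0 * g 1 0), 1 + g 0 0 * g 1 0 + g 1 0 * g 1 0] := by
      rw [he, Matrix.SpecialLinearGroup.coe_mul, conj_up, ← up_neg, up_val]
      ext i j; fin_cases i <;> fin_cases j <;> simp [Matrix.mul_apply, Fin.sum_univ_two, Matrix.vecMul, dotProduct] <;> ring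
    obtain ⟨k1, k2, k3⟩ := hker e (mul_mem (mul_mem (mul_mem hg up1) (inv_mem hg)) (inv_mem up1))
      (by rw [ee]; simp; exact Z.mul_mem_left _ e10)
      (by
        rw [ee]; simp
        rw [show g 0 0 * g 0 0 - (1 - g 0 0 * g 1 0) = (g 0 0 + 1) * (g 0 0 - 1) + g 0 0 * g 1 0 by ring]
        exact Z.add_mem (Z.mul_mem_left _ e00) (Z.mul_mem_left _ e10))
      (by rw [ee]; simp; exact Z.mul_mem_left _ e10)
      (by
        rw [ee]; simp
        rw [show 1 + g 0 0 * g 1 0 + g 1 0 * g 1 0 - 1 = (g 0 0 + g 1 0) * g 1 0 by ring]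
        exact Z.mul_mem_left _ e10)
    rw [ee] at k1 k2 k3
    simp at k1 k2 k3
    have hac : g 0 0 * g 1 0 = 0 := by
      refine h2R.mul_right_eq_zero.mp ?_
      linear_combination -k3 - k2
    have haa : g 0 0 * g 0 0 = 1 := by linear_combination k1 - hac
    have hc : g 1 0 = 0 := by linear_combination g 0 0 * hac - g 1 0 * haa
    have hd := det_eq g
    rw [hc, mul_zero, sub_zero] at hd
    have had : g 1 1 = g 0 0 := by linear_combination g 0 0 * hd - g 1 1 * haa
    have e2 : g * g = up (2 * (g 0 0 * g 0 1)) := by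
      refine ext2 ?_ ?_ ?_ ?_ <;> simp [mul_val, up_val, hc, had, haa]
      ring
    refine ⟨_, ?_, e2 ▸ mul_mem hg hg⟩
    have e : 2 * (g 0 0 * g 0 1) - a = 2 * (g 0 0 * (g 0 1 - a * half) + (g 0 0 - 1) * (a * half)) := by
      linear_combination a * hhalf
    rw [e]
    exact Z.mul_mem_left _ (Z.add_mem (Z.mul_mem_left _ e01) (Z.mul_mem_right _ e00))
  have exL : ∀ a : R, ∃ b, b - a ∈ Z ∧ lo b ∈ H := by
    intro a
    obtain ⟨g, hg, e00, e01, e10, e11⟩ := liftL (a * half)
    have loa : lo α ∈ H := by simpa using hL 1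
    set e := g * lo α * g⁻¹ * (lo α)⁻¹ with he
    have ee : e.1 = !![1 + g 0 1 * g 1 1 * α + g 0 1 * g 0 1 * α * α, -(g 0 1 * g 0 1 * α);
        g 1 1 * g 1 1 * α - (1 - g 0 1 * g 1 1 * α) * α, 1 - g 0 1 * g 1 1 * α] := by
      rw [he, Matrix.SpecialLinearGroup.coe_mul, conj_lo, ← lo_neg, lo_val]
      ext i j; fin_cases i <;> fin_cases j <;> simp [Matrix.mul_apply, Fin.sum_univ_two, Matrix.vecMul, dotProduct] <;> ring
    obtain ⟨k1, k2, k3⟩ := hker e (mul_mem (mul_mem (mul_mem hg loa) (inv_mem hg)) (inv_mem loa))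
      (by
        rw [ee]; simp
        rw [show 1 + g 0 1 * g 1 1 * α + g 0 1 * g 0 1 * α * α - 1 = g 0 1 * (g 1 1 * α + g 0 1 * α * α) by ring]
        exact Z.mul_mem_right _ e01)
      (by rw [ee]; simp; exact Z.mul_mem_right _ (Z.mul_mem_left _ e01))
      (by
        rw [ee]; simp
        rw [show g 1 1 * g 1 1 * α - (1 - g 0 1 * g 1 1 * α) * α =
          (g 1 1 - 1) * ((g 1 1 + 1) * α) + g 0 1 * (g 1 1 * α * α) by ring]
        exact Z.add_mem (Z.mul_mem_right _ e11) (Z.mul_mem_right _ e01))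
      (by rw [ee]; simp; rw [mul_assoc]; exact Z.mul_mem_right _ e01)
    rw [ee] at k1 k2 k3
    simp at k1 k2 k3
    have hbd' : g 0 1 * g 1 1 * α = 0 := by
      refine h2R.mul_right_eq_zero.mp ?_
      linear_combination k3 - α * k1
    have hbd : g 0 1 * g 1 1 = 0 := hα.mul_left_eq_zero.mp hbd'
    have hdd : g 1 1 * g 1 1 = 1 := by
      refine hα.mul_left_injective ?_
      show g 1 1 * g 1 1 * α = 1 * α
      linear_combination k2 - α * hbd'
    have hb : g 0 1 = 0 := by linear_combination g 1 1 * hbd - g 0 1 * hdd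
    have hd := det_eq g
    rw [hb, zero_mul, sub_zero] at hd
    have had : g 0 0 = g 1 1 := by linear_combination g 1 1 * hd - g 0 0 * hdd
    have e2 : g * g = lo (2 * (g 1 1 * g 1 0)) := by
      refine ext2 ?_ ?_ ?_ ?_ <;> simp [mul_val, lo_val, hb, had, hdd]
      ring
    refine ⟨_, ?_, e2 ▸ mul_mem hg hg⟩
    have e : 2 * (g 1 1 * g 1 0) - a = 2 * (g 1 1 * (g 1 0 - a * half) + (g 1 1 - 1) * (a * half)) := by
      linear_combination a * hhalf
    rw [e]
    exact Z.mul_mem_left _ (Z.add_mem (Z.mul_mem_left _ e10) (Z.mul_mem_right _ e11))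
  -- opposite elements
  have opp : ∀ a b : R, up a ∈ H → lo b ∈ H → a * b + 1 ∈ Z → a * b = -1 := by
    intro a b ha hb hab
    set w := up a * lo b * up a with hw
    have hwH : w ∈ H := mul_mem (mul_mem ha hb) ha
    have w00 : w 0 0 = 1 + a * b := by simp [hw, mul_val, up_val, lo_val]
    have w10 : w 1 0 = b := by simp [hw, mul_val, up_val, lo_val]
    obtain ⟨b', hb', hb'H⟩ := exL (-(b * b))
    set e := w * up 1 * w⁻¹ * (lo b')⁻¹ with he
    have ee : e.1 = !![(1 - w 0 0 * b) - w 0 0 * w 0 0 * b', w 0 0 * w 0 0;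
        -(b * b) - (1 + w 0 0 * b) * b', 1 + w 0 0 * b] := by
      rw [he, Matrix.SpecialLinearGroup.coe_mul, conj_up, ← lo_neg, lo_val]
      ext i j; fin_cases i <;> fin_cases j <;> simp [Matrix.mul_apply, Fin.sum_univ_two, Matrix.vecMul, dotProduct, w10] <;> ring
    have hp : w 0 0 ∈ Z := by rw [w00, add_comm]; exact hab
    obtain ⟨k1, k2, k3⟩ := hker e
      (mul_mem (mul_mem (mul_mem hwH (by simpa using hU 1)) (inv_mem hwH)) (inv_mem hb'H))
      (by
        rw [ee]; simp
        rw [show 1 - w 0 0 * b - w 0 0 * w 0 0 * b' - 1 = w 0 0 * (-b - w 0 0 * b') by ring]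
        exact Z.mul_mem_right _ hp)
      (by rw [ee]; simp; exact Z.mul_mem_left _ hp)
      (by
        rw [ee]; simp
        rw [show -(b * b) - (1 + w 0 0 * b) * b' = -(b' - -(b * b)) + w 0 0 * (-(b * b')) by ring]
        exact Z.add_mem (Z.neg_mem hb') (Z.mul_mem_right _ hp))
      (by rw [ee]; simp; exact Z.mul_mem_right _ hp)
    rw [ee] at k1 k2 k3
    simp at k1 k3
    have hpb : w 0 0 * b = 0 := by
      refine h2R.mul_right_eq_zero.mp ?_
      linear_combination -k3 - b' * k1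
    have : w 0 0 = 0 := by
      linear_combination k1 - a * hpb - w 0 0 * w00
    rw [w00] at this
    linear_combination this
  let αu : Rˣ := hα.unit
  set β : R := (↑αu⁻¹ : R) with hβ
  have hαβ : α * β = 1 := by rw [hβ]; exact αu.mul_inv
  have hVβ : up β ∈ H := by
    obtain ⟨b, hb, hbH⟩ := exU β
    have := opp b (-α) hbH (by simpa using hL (-1)) (by
      rw [show b * -α + 1 = -((b - β) * α) by linear_combination -hαβ]
      exact Z.neg_mem (Z.mul_mem_right _ hb))
    rw [show β = b by linear_combination β * this + b * hαβ]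
    exact hbH
  have hLk : ∀ c : k, c ≠ 0 → lo (-(algebraMap k R c⁻¹)) ∈ H := by
    intro c hc
    obtain ⟨b, hb, hbH⟩ := exL (-(algebraMap k R c⁻¹))
    have hcc : algebraMap k R c * algebraMap k R c⁻¹ = 1 := by
      rw [← map_mul, mul_inv_cancel₀ hc, map_one]
    have := opp _ b (hU c) hbH (by
      rw [show algebraMap k R c * b + 1 = algebraMap k R c * (b - -(algebraMap k R c⁻¹)) by
        linear_combination -hcc]
      exact Z.mul_mem_left _ hb)
    rw [show -(algebraMap k R c⁻¹) = b by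
      linear_combination (-(algebraMap k R c⁻¹)) * this + b * hcc]
    exact hbH
  have hmul : ∀ a b : R, up a ∈ H → lo b ∈ H → a * b = -1 → ∀ r, up r ∈ H → up (a * a * r) ∈ H := by
    intro a b ha hb hab r hr
    have up1 : up (1 : R) ∈ H := by simpa using hU 1
    have lo1 : lo (-1 : R) ∈ H := by simpa using hLk 1 one_ne_zero
    set d := (up a * lo b * up a) * (up 1 * lo (-1) * up 1)⁻¹ with hd
    have hdH : d ∈ H := mul_mem (mul_mem (mul_mem ha hb) ha) (inv_mem (mul_mem (mul_mem up1 lo1) up1))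
    have w0 : (up a * lo b * up a).1 = !![0, a; b, 0] := by
      ext i j; fin_cases i <;> fin_cases j <;>
        simp [Matrix.SpecialLinearGroup.coe_mul, up_val, lo_val, Matrix.mul_apply, Fin.sum_univ_two, Matrix.vecMul, dotProduct]
      · linear_combination hab
      · linear_combination a * hab
      · linear_combination hab
    have de : d.1 = !![a, 0; 0, -b] := by
      rw [hd, Matrix.SpecialLinearGroup.coe_mul, w0, inv_val]
      ext i j; fin_cases i <;> fin_cases j <;>
        simp [Matrix.SpecialLinearGroup.coe_mul, up_val, lo_val, Matrix.mul_apply, Fin.sum_univ_two, Matrix.vecMul, dotProduct]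
    have : d * up r * d⁻¹ = up (a * a * r) := by
      apply Subtype.ext
      rw [conj_up, up_val, de]
      ext i j; fin_cases i <;> fin_cases j <;> simp
    exact this ▸ mul_mem (mul_mem hdH hr) (inv_mem hdH)
  have hsc : ∀ c : k, ∀ r, up r ∈ H → up (algebraMap k R c * r) ∈ H := by
    intro c r hr
    have key : ∀ d : k, up (algebraMap k R (d * d) * r) ∈ H := by
      intro d
      by_cases hd : d = 0
      · rw [hd, mul_zero, map_zero, zero_mul, up_zero]; exact one_mem _
      rw [map_mul]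
      exact hmul _ _ (hU d) (hLk d hd) (by rw [mul_neg, ← map_mul, mul_inv_cancel₀ hd, map_one]) r hr
    have hc : c = ((c + 1) / 2) * ((c + 1) / 2) - ((c - 1) / 2) * ((c - 1) / 2) := by
      field_simp; ring
    rw [hc, map_sub, sub_mul, sub_eq_add_neg]
    exact hUadd _ _ (key _) (hUneg _ (key _))
  let V : Submodule k R :=
    { carrier := {r | up r ∈ H}
      add_mem' := fun {a b} ha hb => hUadd a b ha hb
      zero_mem' := by show up (0 : R) ∈ H; rw [up_zero]; exact one_mem _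
      smul_mem' := fun c r hr => by show up _ ∈ H; rw [Algebra.smul_def]; exact hsc c r hr }
  have hpow : ∀ i : ℕ, β ^ i ∈ V ∧ β ^ (i + 1) ∈ V := by
    intro i
    induction i with
    | zero => exact ⟨by show up _ ∈ H; simpa using hU 1, by show up _ ∈ H; simpa using hVβ⟩
    | succ i hi =>
      refine ⟨hi.2, ?_⟩
      show up _ ∈ H
      rw [show β ^ (i + 1 + 1) = β * β * β ^ i by ring]
      exact hmul β (-α) hVβ (by simpa using hL (-1)) (by linear_combination -hαβ) _ hi.1
  have hαmem : α ∈ Algebra.adjoin k {β} := by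
    obtain ⟨P, hP0, hP⟩ : ∃ P : Polynomial k, P.coeff 0 ≠ 0 ∧ Polynomial.aeval β P = 0 := by
      refine ⟨minpoly k β, fun h0 => ?_, minpoly.aeval k β⟩
      obtain ⟨Q, hQ⟩ := Polynomial.X_dvd_iff.mpr h0
      have hQ0 : Polynomial.aeval β Q = 0 := by
        have := minpoly.aeval k β
        rw [hQ, map_mul, Polynomial.aeval_X] at this
        linear_combination α * this - Polynomial.aeval β Q * hαβ
      have hne : Q ≠ 0 := fun e => minpoly.ne_zero (Algebra.IsIntegral.isIntegral β) (by rw [hQ, e, mul_zero])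
      have := Polynomial.natDegree_le_natDegree (minpoly.min k β
        (Polynomial.Monic.of_mul_monic_left Polynomial.monic_X (hQ ▸ minpoly.monic (Algebra.IsIntegral.isIntegral β))) hQ0)
      rw [hQ, Polynomial.natDegree_mul Polynomial.X_ne_zero hne, Polynomial.natDegree_X] at this
      omega
    have : α * algebraMap k R (P.coeff 0) = -Polynomial.aeval β P.divX := by
      have h := congrArg (Polynomial.aeval β) (Polynomial.divX_mul_X_add P)
      rw [map_add, map_mul, Polynomial.aeval_X, Polynomial.aeval_C, hP] at h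
      linear_combination α * h - Polynomial.aeval β P.divX * hαβ
    have e : α = (P.coeff 0)⁻¹ • (-Polynomial.aeval β P.divX) := by
      rw [← this, Algebra.smul_def, mul_comm α, ← mul_assoc, ← map_mul, inv_mul_cancel₀ hP0, map_one, one_mul]
    rw [e]
    exact Subalgebra.smul_mem _ (neg_mem (Algebra.adjoin_singleton_eq_range_aeval k β ▸ ⟨_, rfl⟩)) _
  have hVtop : ∀ r, r ∈ V := by
    intro r
    have hr : r ∈ Algebra.adjoin k {β} := Algebra.adjoin_le (Set.singleton_subset_iff.mpr hαmem)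
      (hgen.symm ▸ Algebra.mem_top)
    rw [Algebra.adjoin_singleton_eq_range_aeval] at hr
    obtain ⟨Q, rfl⟩ := hr
    show Polynomial.aeval β Q ∈ V
    rw [Polynomial.aeval_eq_sum_range]
    exact V.sum_mem fun i _ => V.smul_mem _ (hpow i).1
  exact absurd (hA' r0 hr0Z (hVtop r0)) hr0

/-- Generation of `SL₂` by two root groups. -/
theorem gen {R : Type u} [CommRing R] [Algebra k R] [FiniteDimensional k R] (h2 : ringChar k ≠ 2)
    (h3 : Nat.card k ≠ 3) {α : R} (hα : IsUnit α) (hgen : Algebra.adjoin k {α} = ⊤)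
    {H : Subgroup SL(2, R)} (hU : ∀ c : k, up (algebraMap k R c) ∈ H)
    (hL : ∀ c : k, lo (algebraMap k R c * α) ∈ H) (r : R) : up r ∈ H ∧ lo r ∈ H :=
  gen_aux h2 h3 _ R rfl α hα hgen H hU hL r

end Cfsg.Agent.Lib.QuadRoot
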