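import Cfsg.Agent.Lib.QuadRoot.Basic
import Cfsg.Agent.Lib.QuadRoot.Gen

/-! The `SL₂` attached to two quadratic elements with non-nilpotent product. -/

set_option autoImplicit false

namespace Cfsg.Agent.Lib.QuadRoot

open Polynomial
open scoped MatrixGroups

universe u v

variable {k : Type u} [Field k] {M : Type v} [AddCommGroup M] [Module k M]

/-- Polynomial form of Fitting's decomposition. -/
theorem exists_fitting [FiniteDimensional k M] (U : Module.End k M) : ∃ (a : ℕ) (p q : k[X]),
    aeval U p * aeval U p = aeval U p ∧ aeval U (X * q) = aeval U p ∧ aeval U (q * p) = aeval U q ∧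
    U ^ a * aeval U p = U ^ a := by
  by_cases hs : Subsingleton (Module.End k M)
  · exact ⟨0, 0, 0, Subsingleton.elim _ _, Subsingleton.elim _ _, Subsingleton.elim _ _, Subsingleton.elim _ _⟩
  have hμ := minpoly.ne_zero (Algebra.IsIntegral.isIntegral (R := k) U)
  obtain ⟨g, hg, hg0⟩ : ∃ g : k[X], minpoly k U = X ^ (minpoly k U).natTrailingDegree * g ∧ g.coeff 0 ≠ 0 := by
    obtain ⟨g, hg⟩ : X ^ (minpoly k U).natTrailingDegree ∣ minpoly k U :=
      X_pow_dvd_iff.mpr fun d hd => coeff_eq_zero_of_lt_natTrailingDegree hd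
    refine ⟨g, hg, ?_⟩
    have h0 : (minpoly k U).coeff (minpoly k U).natTrailingDegree ≠ 0 :=
      mt trailingCoeff_eq_zero.mp hμ
    have e : (X ^ (minpoly k U).natTrailingDegree * g).coeff (0 + (minpoly k U).natTrailingDegree) = g.coeff 0 :=
      coeff_X_pow_mul g _ 0
    rw [← hg, zero_add] at e
    rwa [e] at h0
  obtain ⟨a, ha⟩ : ∃ a, a = (minpoly k U).natTrailingDegree + 1 := ⟨_, rfl⟩
  obtain ⟨s, hs'⟩ : ∃ s : k[X], s = -C (g.coeff 0)⁻¹ * g.divX := ⟨_, rfl⟩
  have h1 : C (g.coeff 0)⁻¹ * g = 1 - X * s := by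
    have hd := divX_mul_X_add g
    have hC : C (g.coeff 0)⁻¹ * C (g.coeff 0) = 1 := by rw [← map_mul, inv_mul_cancel₀ hg0, map_one]
    rw [hs']
    linear_combination (-(C (g.coeff 0)⁻¹)) * hd + hC
  have hz : aeval U ((X : k[X]) ^ (a - 1) * g) = 0 := by
    rw [show a - 1 = (minpoly k U).natTrailingDegree by omega, ← hg, minpoly.aeval]
  have hstep : aeval U ((X : k[X]) ^ a) = aeval U (X ^ a * (X * s)) := by
    rw [← sub_eq_zero, ← map_sub, ← mul_one_sub, ← h1,
      show (X : k[X]) ^ a * (C (g.coeff 0)⁻¹ * g) = C (g.coeff 0)⁻¹ * X * (X ^ (a - 1) * g) by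
        rw [show a = (a - 1) + 1 by omega, pow_succ]; simp; ring,
      map_mul _ _ ((X : k[X]) ^ (a - 1) * g), hz, mul_zero]
  have hiter : ∀ n, aeval U ((X : k[X]) ^ a) = aeval U (X ^ a * (X * s) ^ n) := by
    intro n
    induction n with
    | zero => simp
    | succ n ih => rw [pow_succ' (X * s) n, ← mul_assoc, map_mul _ ((X : k[X]) ^ a * (X * s)), ← hstep, ← map_mul, ← ih]
  have hp : aeval U ((X * s) ^ a) * aeval U ((X * s) ^ a) = aeval U ((X * s) ^ a) := by
    have := hiter a
    rw [← map_mul, show (X * s) ^ a * (X * s) ^ a = X ^ a * (X * s) ^ a * s ^ a by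
      rw [mul_pow]; ring, map_mul, ← this, ← map_mul, ← mul_pow]
  refine ⟨a, (X * s) ^ a, X ^ (a - 1) * s ^ a * (X * s) ^ a, hp, ?_, ?_, ?_⟩
  · rw [show X * (X ^ (a - 1) * s ^ a * (X * s) ^ a) = (X * s) ^ a * (X * s) ^ a by
      have e : (X : k[X]) * X ^ (a - 1) = X ^ a := by rw [← pow_succ', show a - 1 + 1 = a by omega]
      rw [mul_pow, ← e]; ring, map_mul, hp]
  · rw [mul_assoc (X ^ (a - 1) * s ^ a), map_mul, map_mul _ ((X * s) ^ a), hp, ← map_mul]
  · rw [← aeval_X_pow (R := k) U, ← map_mul, ← hiter]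

/-- The corner algebra of `X Y + Y X` on its invertible part. -/
structure Corner (k : Type u) [Field k] {M : Type v} [AddCommGroup M] [Module k M]
    (X Y : Module.End k M) (R : Type u) [CommRing R] [Algebra k R] where
  /-- generator -/
  α : R
  /-- embedding -/
  ι : R →ₗ[k] Module.End k M
  /-- nilpotency exponent -/
  a : ℕ
  unit : IsUnit α
  gen : Algebra.adjoin k {α} = ⊤
  inj : Function.Injective ι
  mul : ∀ r s, ι (r * s) = ι r * ι s
  eqα : ι α = (X * Y + Y * X) * ι 1
  pow_eq : (X * Y + Y * X) ^ a * ι 1 = (X * Y + Y * X) ^ a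
  commX : ∀ r, ι r * X = X * ι r
  commY : ∀ r, ι r * Y = Y * ι r

theorem commute_aeval {U X : Module.End k M} (h : Commute U X) (f : k[X]) : Commute (aeval U f) X := by
  induction f using Polynomial.induction_on' with
  | add f g hf hg => rw [map_add]; exact hf.add_left hg
  | monomial n c =>
    rw [aeval_monomial]
    exact (Algebra.commute_algebraMap_left c X).mul_left (h.pow_left n)

theorem exists_corner [FiniteDimensional k M] (Xm Ym : Module.End k M) (hX : Xm * Xm = 0) (hY : Ym * Ym = 0) :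
    ∃ (R : Type u) (_ : CommRing R) (_ : Algebra k R) (_ : FiniteDimensional k R),
      Nonempty (Corner k Xm Ym R) := by
  obtain ⟨a, p, q, hp, hXq, hqp, hpow⟩ := exists_fitting (Xm * Ym + Ym * Xm)
  set U := Xm * Ym + Ym * Xm with hU
  let L : k[X] →ₗ[k] Module.End k M :=
    (LinearMap.mulRight k (aeval U p)).comp (aeval U).toLinearMap
  have hL : ∀ f, L f = aeval U f * aeval U p := fun f => rfl
  let J : Ideal k[X] :=
    { carrier := {f | aeval U f * aeval U p = 0}
      add_mem' := fun {f g} hf hg => by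
        show aeval U (f + g) * aeval U p = 0
        rw [map_add, add_mul, hf, hg, add_zero]
      zero_mem' := by show aeval U 0 * aeval U p = 0; simp
      smul_mem' := fun c f hf => by
        show aeval U (c * f) * aeval U p = 0
        rw [map_mul, mul_assoc, hf, mul_zero] }
  let ι : (k[X] ⧸ J) →ₗ[k] Module.End k M :=
    ((J.restrictScalars k).liftQ L (fun f hf => hf)).comp
      (Submodule.Quotient.restrictScalarsEquiv k J).symm.toLinearMap
  have hι : ∀ f, ι (Ideal.Quotient.mk J f) = aeval U f * aeval U p := fun f => rfl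
  have hinj : Function.Injective ι := by
    rw [injective_iff_map_eq_zero]
    intro x hx
    obtain ⟨f, rfl⟩ := Ideal.Quotient.mk_surjective x
    exact Ideal.Quotient.eq_zero_iff_mem.mpr (show aeval U f * aeval U p = 0 from (hι f) ▸ hx)
  have hfd : FiniteDimensional k (k[X] ⧸ J) := FiniteDimensional.of_injective ι hinj
  have h1 : ι 1 = aeval U p := by rw [← map_one (Ideal.Quotient.mk J), hι, map_one, one_mul]
  have hUX : Commute U Xm := by
    show U * Xm = Xm * U
    rw [hU, add_mul, mul_add, mul_assoc Ym, hX, mul_zero, ← mul_assoc Xm Xm, hX, zero_mul]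
    simp [mul_assoc]
  have hUY : Commute U Ym := by
    show U * Ym = Ym * U
    rw [hU, add_mul, mul_add, mul_assoc Xm, hY, mul_zero, ← mul_assoc Ym Ym, hY, zero_mul]
    simp [mul_assoc]
  refine ⟨k[X] ⧸ J, inferInstance, inferInstance, hfd, ⟨{
    α := Ideal.Quotient.mk J X, ι := ι, a := a, unit := ?_, gen := ?_, inj := hinj, mul := ?_,
    eqα := ?_, pow_eq := ?_, commX := ?_, commY := ?_ }⟩⟩
  · refine IsUnit.of_mul_eq_one (Ideal.Quotient.mk J q) ?_
    rw [← map_mul, ← map_one (Ideal.Quotient.mk J), Ideal.Quotient.eq]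
    show aeval U (X * q - 1) * aeval U p = 0
    rw [map_sub, map_one, sub_mul, hXq, one_mul, hp, sub_self]
  · rw [Algebra.adjoin_singleton_eq_range_aeval, AlgHom.range_eq_top]
    intro x
    obtain ⟨f, rfl⟩ := Ideal.Quotient.mk_surjective x
    refine ⟨f, ?_⟩
    rw [show Ideal.Quotient.mk J X = Ideal.Quotient.mkₐ k J X from rfl, aeval_algHom_apply, aeval_X_left_apply]
    rfl
  · intro r s
    obtain ⟨f, rfl⟩ := Ideal.Quotient.mk_surjective r
    obtain ⟨g, rfl⟩ := Ideal.Quotient.mk_surjective s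
    rw [← map_mul, hι, hι, hι, map_mul,
      show aeval U f * aeval U p * (aeval U g * aeval U p) =
        aeval U f * (aeval U p * aeval U g) * aeval U p by simp only [mul_assoc],
      show aeval U p * aeval U g = aeval U g * aeval U p by rw [← map_mul, mul_comm, map_mul]]
    simp only [mul_assoc]
    rw [hp]
  · rw [hι, aeval_X, h1]
  · rw [h1, hpow]
  · intro r
    obtain ⟨f, rfl⟩ := Ideal.Quotient.mk_surjective r
    rw [hι]
    exact ((commute_aeval hUX f).mul_left (commute_aeval hUX p)).eq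
  · intro r
    obtain ⟨f, rfl⟩ := Ideal.Quotient.mk_surjective r
    rw [hι]
    exact ((commute_aeval hUY f).mul_left (commute_aeval hUY p)).eq

end Cfsg.Agent.Lib.QuadRoot
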