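import Cfsg.Agent.Lib.QuadRoot.Rep

/-! The image of `SL₂` lies in the group generated by the two scalar families. -/

set_option autoImplicit false

namespace Cfsg.Agent.Lib.QuadRoot

open scoped MatrixGroups Pointwise

universe u v

section Filtration

variable {k : Type u} [Field k] {M : Type v} [AddCommGroup M] [Module k M]

/-- powers from `j` on -/
def lge (I : Submodule k (Module.End k M)) (j : ℕ) : Submodule k (Module.End k M) := ⨆ i : ℕ, I ^ (j + i)

theorem lge_mono (I : Submodule k (Module.End k M)) {i j : ℕ} (h : i ≤ j) : lge I j ≤ lge I i :=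
  iSup_le fun t => le_iSup_of_le (j - i + t) (le_of_eq (by rw [show i + (j - i + t) = j + t by omega]))

theorem lge_mul (I : Submodule k (Module.End k M)) (i j : ℕ) : lge I i * lge I j ≤ lge I (i + j) := by
  rw [lge, lge, Submodule.iSup_mul]
  refine iSup_le fun a => ?_
  rw [Submodule.mul_iSup]
  refine iSup_le fun b => ?_
  rw [← pow_add]
  exact le_iSup_of_le (a + b) (le_of_eq (by rw [show i + j + (a + b) = i + a + (j + b) by omega]))

theorem mem_lge (I : Submodule k (Module.End k M)) {T : Module.End k M} (hT : T ∈ I) : T ∈ lge I 1 := by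
  refine Submodule.mem_iSup_of_mem 0 ?_
  simpa using hT

theorem lge_eq_bot {I : Submodule k (Module.End k M)} {N : ℕ} (h : I ^ N = ⊥) {j : ℕ} (hj : N ≤ j) :
    lge I j = ⊥ := by
  refine le_bot_iff.mp (iSup_le fun i => ?_)
  rw [show j + i = N + (j + i - N) by omega, pow_add, h, Submodule.bot_mul]

/-- congruence subgroups on the part cut out by `f` -/
def congr1 (I : Submodule k (Module.End k M)) (f : Module.End k M) (hf : f * f = f) (j : ℕ) (hj : 1 ≤ j) :
    Subgroup (LinearMap.GeneralLinearGroup k M) where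
  carrier := {h | Commute (h : Module.End k M) f ∧ ((h : Module.End k M) - 1) * f ∈ lge I j ∧
    (((h⁻¹ : LinearMap.GeneralLinearGroup k M) : Module.End k M) - 1) * f ∈ lge I j}
  one_mem' := by simp
  mul_mem' := by
    intro a b ha hb
    obtain ⟨a1, a2, a3⟩ := ha
    obtain ⟨b1, b2, b3⟩ := hb
    have key : ∀ p q : Module.End k M, Commute q f → (p - 1) * f ∈ lge I j → (q - 1) * f ∈ lge I j →
        (p * q - 1) * f ∈ lge I j := by
      intro p q hq hp hq'
      have e : (p * q - 1) * f = (p - 1) * f + (q - 1) * f + (p - 1) * ((q - 1) * f) := by noncomm_ring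
      rw [e]
      refine Submodule.add_mem _ (Submodule.add_mem _ hp hq') ?_
      have : (p - 1) * ((q - 1) * f) = ((p - 1) * f) * ((q - 1) * f) := by
        have hc : f * (q - 1) = (q - 1) * f := by rw [mul_sub, sub_mul, mul_one, one_mul, hq.eq]
        rw [mul_assoc, ← mul_assoc f, hc, mul_assoc, hf]
      rw [this]
      exact lge_mono I (by omega) (lge_mul I j j (Submodule.mul_mem_mul hp hq'))
    refine ⟨?_, ?_, ?_⟩
    · rw [Units.val_mul]; exact a1.mul_left b1
    · rw [Units.val_mul]; exact key _ _ b1 a2 b2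
    · rw [mul_inv_rev, Units.val_mul]
      exact key _ _ (a1.units_inv_left) b3 a3
  inv_mem' := by
    intro a ha
    exact ⟨ha.1.units_inv_left, ha.2.2, by rw [inv_inv]; exact ha.2.1⟩

theorem comm_part (f : Module.End k M) (hf : f * f = f) (I : Submodule k (Module.End k M))
    {i j : ℕ} (hi : 1 ≤ i) (hj : 1 ≤ j) {g h : LinearMap.GeneralLinearGroup k M}
    (hg : g ∈ congr1 I f hf i hi) (hh : h ∈ congr1 I f hf j hj) :
    (((g * h * g⁻¹ * h⁻¹ : LinearMap.GeneralLinearGroup k M) : Module.End k M) - 1) * f ∈ lge I (i + j) := by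
  set G1 := ((g : Module.End k M) - 1) * f
  set H1 := ((h : Module.End k M) - 1) * f
  set D := ((g : Module.End k M) * h - (h : Module.End k M) * g) * f
  have hD : D = G1 * H1 - H1 * G1 := by
    have e : ∀ p q : Module.End k M, Commute q f → (p * f) * (q * f) = p * q * f := by
      intro p q hq
      rw [mul_assoc, ← mul_assoc f, ← hq.eq, mul_assoc, hf, mul_assoc]
    simp only [D, G1, H1]
    rw [e _ _ (hh.1.sub_left (Commute.one_left f)), e _ _ (hg.1.sub_left (Commute.one_left f))]
    noncomm_ring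
  have hD' : D ∈ lge I (i + j) := by
    rw [hD]
    refine Submodule.sub_mem _ (lge_mul I i j (Submodule.mul_mem_mul hg.2.1 hh.2.1)) ?_
    rw [add_comm i j]
    exact lge_mul I j i (Submodule.mul_mem_mul hh.2.1 hg.2.1)
  set u : LinearMap.GeneralLinearGroup k M := g⁻¹ * h⁻¹
  have hu : u ∈ congr1 I f hf 1 le_rfl := by
    refine mul_mem ?_ ?_
    · exact ⟨hg.1.units_inv_left, lge_mono I hi hg.2.2, by rw [inv_inv]; exact lge_mono I hi hg.2.1⟩
    · exact ⟨hh.1.units_inv_left, lge_mono I hj hh.2.2, by rw [inv_inv]; exact lge_mono I hj hh.2.1⟩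
  have huv : (g : Module.End k M) * h * u - (h : Module.End k M) * g * u =
      ((g * h * g⁻¹ * h⁻¹ : LinearMap.GeneralLinearGroup k M) : Module.End k M) - 1 := by
    rw [← Units.val_mul g h, ← Units.val_mul, ← Units.val_mul h g, ← Units.val_mul, ← Units.val_one]
    congr 2 <;> simp only [u] <;> group
  rw [← huv, ← sub_mul, mul_assoc _ (u : Module.End k M) f, hu.1.eq, ← mul_assoc]
  have : D * (u : Module.End k M) = D + D * (((u : Module.End k M) - 1) * f) := by
    have hDf : D * f = D := by simp only [D]; rw [mul_assoc, hf]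
    rw [← mul_assoc, mul_assoc D ((u : Module.End k M) - 1), (hu.1.sub_left (Commute.one_left f)).eq,
      ← mul_assoc, hDf, mul_sub, mul_one]
    abel
  change D * (u : Module.End k M) ∈ _
  rw [this]
  exact Submodule.add_mem _ hD' (lge_mono I (by omega) (lge_mul I (i + j) 1 (Submodule.mul_mem_mul hD' hu.2.1)))

theorem commutator_le (f : Module.End k M) (hf : f * f = f) (I : Submodule k (Module.End k M))
    {i j : ℕ} (hi : 1 ≤ i) (hj : 1 ≤ j) :
    ⁅congr1 I f hf i hi, congr1 I f hf j hj⁆ ≤ congr1 I f hf (i + j) (by omega) := by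
  rw [Subgroup.commutator_le]
  intro g hg h hh
  rw [commutatorElement_def]
  refine ⟨?_, comm_part f hf I hi hj hg hh, ?_⟩
  · simp only [Units.val_mul]
    exact ((hg.1.mul_left hh.1).mul_left hg.1.units_inv_left).mul_left hh.1.units_inv_left
  · rw [show (g * h * g⁻¹ * h⁻¹)⁻¹ = h * g * h⁻¹ * g⁻¹ by group, add_comm i j]
    exact comm_part f hf I hj hi hh hg

/-- iterated commutator subgroups -/
def der (S : Subgroup (LinearMap.GeneralLinearGroup k M)) : ℕ → Subgroup (LinearMap.GeneralLinearGroup k M)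
  | 0 => S
  | n + 1 => ⁅der S n, der S n⁆

theorem der_le (S : Subgroup (LinearMap.GeneralLinearGroup k M)) : ∀ n, der S n ≤ S := by
  intro n
  induction n with
  | zero => exact le_rfl
  | succ n ih => exact (Subgroup.commutator_mono ih ih).trans (Subgroup.commutator_le_self S)

end Filtration

section Main

variable {k : Type u} [Field k] {M : Type v} [AddCommGroup M] [Module k M]
  {X Y : Module.End k M} {R : Type u} [CommRing R] [Algebra k R] [FiniteDimensional k R]
  (C : Corner k X Y R) (hX : X * X = 0) (hY : Y * Y = 0)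

include hX hY in
/-- The root elements of the corner lie in the generated group. -/
theorem rep_mem (h2 : ringChar k ≠ 2) (h3 : Nat.card k ≠ 3) (S : Subgroup (LinearMap.GeneralLinearGroup k M))
    (hSX : ∀ c : k, uni (c • X) (smul_sq hX c) ∈ S) (hSY : ∀ c : k, uni (c • Y) (smul_sq hY c) ∈ S) (r : R) :
    C.rep hX hY (up r) ∈ S ∧ C.rep hX hY (lo r) ∈ S := by
  obtain ⟨t, ht0, ht1⟩ := exists_ne_pm (Ring.two_ne_zero h2) h3
  set gens : Set (LinearMap.GeneralLinearGroup k M) :=
    Set.range (fun c : k => uni (c • X) (smul_sq hX c)) ∪ Set.range (fun c : k => uni (c • Y) (smul_sq hY c))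
  set S0 := Subgroup.closure gens with hS0
  have hS0S : S0 ≤ S := (Subgroup.closure_le S).mpr (by
    rintro g (⟨c, rfl⟩ | ⟨c, rfl⟩)
    · exact hSX c
    · exact hSY c)
  set f := 1 - C.e with hf
  have hff : f * f = f := by simp [hf, mul_sub, sub_mul, C.e_sq]
  have hfX : Commute f X := by
    show f * X = X * f
    rw [hf, sub_mul, mul_sub, one_mul, mul_one, Corner.e, C.commX]
  have hfY : Commute f Y := by
    show f * Y = Y * f
    rw [hf, sub_mul, mul_sub, one_mul, mul_one, Corner.e, C.commY]
  set I : Submodule k (Module.End k M) := Submodule.span k {X * f, Y * f} with hI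
  set U := X * Y + Y * X with hU
  -- nilpotency
  have hnil : I ^ (2 * C.a + 1) = ⊥ := by
    have hXf : X * f * (X * f) = 0 := by
      rw [mul_assoc, ← mul_assoc f, hfX.eq, mul_assoc, hff, ← mul_assoc, hX, zero_mul]
    have hYf : Y * f * (Y * f) = 0 := by
      rw [mul_assoc, ← mul_assoc f, hfY.eq, mul_assoc, hff, ← mul_assoc, hY, zero_mul]
    have hXYX : X * f * (Y * f) * (X * f) = U * (X * f) := by
      rw [show X * f * (Y * f) = X * Y * f by rw [mul_assoc, ← mul_assoc f, hfY.eq, mul_assoc, hff, mul_assoc],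
        mul_assoc (X * Y), ← mul_assoc f, hfX.eq, mul_assoc X f f, hff, hU, add_mul, mul_assoc Y X (X * f),
        ← mul_assoc X X, hX, zero_mul, mul_zero, add_zero]
    have hYXY : Y * f * (X * f) * (Y * f) = U * (Y * f) := by
      rw [show Y * f * (X * f) = Y * X * f by rw [mul_assoc, ← mul_assoc f, hfX.eq, mul_assoc, hff, mul_assoc],
        mul_assoc (Y * X), ← mul_assoc f, hfY.eq, mul_assoc Y f f, hff, hU, add_mul, mul_assoc X Y (Y * f),
        ← mul_assoc Y Y, hY, zero_mul, mul_zero, zero_add]
    have h3' : I ^ 3 ≤ Submodule.span k {U} * I := by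
      rw [show I ^ 3 = I * I * I by rw [pow_succ, pow_two], hI, Submodule.span_mul_span,
        Submodule.span_mul_span, Submodule.span_le]
      rintro w ⟨w1, ⟨a, ha, b, hb, rfl⟩, c, hc, rfl⟩
      show a * b * c ∈ _
      rcases ha with rfl | rfl <;> rcases hb with rfl | rfl <;> rcases hc with rfl | rfl
      · rw [hXf, zero_mul]; exact zero_mem _
      · rw [hXf, zero_mul]; exact zero_mem _
      · rw [hXYX]; exact Submodule.mul_mem_mul (Submodule.mem_span_singleton_self U) (Submodule.subset_span (Or.inl rfl))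
      · rw [mul_assoc, hYf, mul_zero]; exact zero_mem _
      · rw [mul_assoc, hXf, mul_zero]; exact zero_mem _
      · rw [hYXY]; exact Submodule.mul_mem_mul (Submodule.mem_span_singleton_self U) (Submodule.subset_span (Or.inr rfl))
      · rw [hYf, zero_mul]; exact zero_mem _
      · rw [hYf, zero_mul]; exact zero_mem _
    have hj : ∀ j, I ^ (2 * j + 1) ≤ Submodule.span k {U ^ j} * I := by
      intro j
      induction j with
      | zero => simp [← Submodule.one_eq_span]
      | succ j ih =>
        calc I ^ (2 * (j + 1) + 1) = I ^ (2 * j + 1) * I ^ 2 := by rw [← pow_add]; congr 1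
          _ ≤ Submodule.span k {U ^ j} * I * I ^ 2 := mul_le_mul' ih le_rfl
          _ = Submodule.span k {U ^ j} * I ^ 3 := by rw [mul_assoc, ← pow_succ']
          _ ≤ Submodule.span k {U ^ j} * (Submodule.span k {U} * I) := mul_le_mul' le_rfl h3'
          _ = _ := by rw [← mul_assoc, Submodule.span_mul_span, Set.singleton_mul_singleton, pow_succ]
    refine le_bot_iff.mp ((hj C.a).trans ?_)
    rw [hI, Submodule.span_mul_span, Submodule.span_le]
    have hz : U ^ C.a * f = 0 := by
      rw [hf, mul_sub, mul_one, Corner.e, hU, C.pow_eq, sub_self]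
    rintro w ⟨a, rfl, b, hb, rfl⟩
    show U ^ C.a * b ∈ (⊥ : Submodule k (Module.End k M))
    rw [Submodule.mem_bot]
    rcases hb with rfl | rfl
    · rw [← hfX.eq, ← mul_assoc, hz, zero_mul]
    · rw [← hfY.eq, ← mul_assoc, hz, zero_mul]
  have hgen1 : S0 ≤ congr1 I f hff 1 le_rfl := by
    refine (Subgroup.closure_le _).mpr ?_
    have mk : ∀ (Z : Module.End k M) (hZ : Z * Z = 0) (c : k), Commute f Z → Z * f ∈ I →
        uni (c • Z) (smul_sq hZ c) ∈ congr1 I f hff 1 le_rfl := by
      intro Z hZ c hcom hmem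
      refine ⟨?_, ?_, ?_⟩
      · rw [coe_uni]; exact (Commute.one_left f).add_left (hcom.symm.smul_left c)
      · rw [coe_uni, add_sub_cancel_left, smul_mul_assoc]
        exact Submodule.smul_mem _ _ (mem_lge I hmem)
      · rw [coe_uni_inv, sub_sub_cancel_left, neg_mul, smul_mul_assoc]
        exact Submodule.neg_mem _ (Submodule.smul_mem _ _ (mem_lge I hmem))
    rintro g (⟨c, rfl⟩ | ⟨c, rfl⟩)
    · exact mk X hX c hfX (Submodule.subset_span (Or.inl rfl))
    · exact mk Y hY c hfY (Submodule.subset_span (Or.inr rfl))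
  have hder : ∀ j, ∀ g ∈ der S0 j, Commute (g : Module.End k M) f ∧
      ((g : Module.End k M) - 1) * f ∈ lge I (j + 1) := by
    have : ∀ j, der S0 j ≤ congr1 I f hff (j + 1) (by omega) := by
      intro j
      induction j with
      | zero => exact hgen1
      | succ j ih =>
        refine (Subgroup.commutator_mono ih ih).trans ((commutator_le f hff I _ _).trans ?_)
        intro g hg
        exact ⟨hg.1, lge_mono I (by omega) hg.2.1, lge_mono I (by omega) hg.2.2⟩
    exact fun j g hg => ⟨(this j hg).1, (this j hg).2.1⟩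
  -- the pullback
  have hce : ∀ j, ∀ g ∈ der S0 j, Commute (g : Module.End k M) C.e := fun j g hg => by
    have : C.e = 1 - f := by rw [hf, sub_sub_cancel]
    rw [this]
    exact (Commute.one_right _).sub_right (hder j g hg).1
  let H : ℕ → Subgroup SL(2, R) := fun j =>
    { carrier := {g | ∃ h ∈ der S0 j, (h : Module.End k M) * C.e = C.Φ g.1}
      one_mem' := ⟨1, one_mem _, by simp [C.Φ_one]⟩
      mul_mem' := by
        rintro a b ⟨ha, hha, ea⟩ ⟨hb, hhb, eb⟩
        refine ⟨ha * hb, mul_mem hha hhb, ?_⟩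
        rw [Matrix.SpecialLinearGroup.coe_mul, C.Φ_mul hX hY, ← ea, ← eb, Units.val_mul, mul_assoc (ha : Module.End k M),
          mul_assoc (ha : Module.End k M) C.e, ← mul_assoc C.e, ← (hce j hb hhb).eq, mul_assoc (hb : Module.End k M),
          C.e_sq]
      inv_mem' := by
        rintro a ⟨ha, hha, ea⟩
        refine ⟨ha⁻¹, inv_mem hha, ?_⟩
        have h1 : C.Φ a.1 * C.Φ (a⁻¹).1 = C.e := by
          rw [← C.Φ_mul hX hY, ← Matrix.SpecialLinearGroup.coe_mul, mul_inv_cancel,
            Matrix.SpecialLinearGroup.coe_one, C.Φ_one]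
        calc ((ha⁻¹ : LinearMap.GeneralLinearGroup k M) : Module.End k M) * C.e
            = ((ha⁻¹ : LinearMap.GeneralLinearGroup k M) : Module.End k M) * (C.Φ a.1 * C.Φ (a⁻¹).1) := by rw [h1]
          _ = C.Φ (a⁻¹).1 := by rw [← ea, ← mul_assoc, ← mul_assoc, Units.inv_mul, one_mul, C.e_Φ] }
  have hup : ∀ r, C.Φ (up r).1 = C.e + C.ι r * C.E := fun r => by
    rw [← C.rep_mul_e hX hY, C.rep_up, add_mul, one_mul, mul_assoc, C.E_e]
  have hlo : ∀ r, C.Φ (lo r).1 = C.e + C.ι r * C.F := fun r => by
    rw [← C.rep_mul_e hX hY, C.rep_lo, add_mul, one_mul, mul_assoc, C.F_e]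
  have hH0 : ∀ j, ∀ r, up r ∈ H j ∧ lo r ∈ H j := by
    intro j
    induction j with
    | zero =>
      refine gen h2 h3 C.unit C.gen (fun c => ?_) (fun c => ?_)
      · refine ⟨uni (c • X) (smul_sq hX c), Subgroup.subset_closure (Or.inl ⟨c, rfl⟩), ?_⟩
        rw [hup, coe_uni, add_mul, one_mul, Algebra.algebraMap_eq_smul_one, map_smul, smul_mul_assoc,
          smul_mul_assoc, C.ι_one, C.e_E, Corner.E, C.commX, ← C.ι_one]
      · refine ⟨uni (c • Y) (smul_sq hY c), Subgroup.subset_closure (Or.inr ⟨c, rfl⟩), ?_⟩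
        rw [hlo, coe_uni, add_mul, one_mul, ← Algebra.smul_def, map_smul, smul_mul_assoc,
          smul_mul_assoc, ← C.eY, Corner.e, C.commY]
    | succ j ih =>
      have htt : t * t - 1 ≠ 0 := sub_ne_zero.mpr ht1
      have ht' : algebraMap k R t * algebraMap k R t⁻¹ = 1 := by rw [← map_mul, mul_inv_cancel₀ ht0, map_one]
      obtain ⟨d, hd⟩ : ∃ d : SL(2, R), d.1 = !![algebraMap k R t, 0; 0, algebraMap k R t⁻¹] :=
        ⟨⟨_, by rw [Matrix.det_fin_two]; simpa using ht'⟩, rfl⟩
      have hdi : (d⁻¹).1 = !![algebraMap k R t⁻¹, 0; 0, algebraMap k R t] := by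
        rw [inv_val, hd]; simp
      have hdmem : d ∈ H j := by
        have e : d = up (algebraMap k R t) * lo (-algebraMap k R t⁻¹) * up (algebraMap k R t) *
            (up 1 * lo (-1) * up 1)⁻¹ := by
          refine ext2 ?_ ?_ ?_ ?_ <;>
            simp [hd, mul_val, up_val, lo_val, Matrix.adjugate_fin_two] <;> ring_nf
          all_goals first | linear_combination (algebraMap k R t) * ht' | linear_combination (-(algebraMap k R t)) * ht' | linear_combination ht' | linear_combination (-1 : R) * ht'
        rw [e]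
        exact mul_mem (mul_mem (mul_mem (ih _).1 (ih _).2) (ih _).1) (inv_mem (mul_mem (mul_mem (ih _).1 (ih _).2) (ih _).1))
      have hcomm : ∀ a b : SL(2, R), a ∈ H j → b ∈ H j → a * b * a⁻¹ * b⁻¹ ∈ H (j + 1) := by
        intro a b ha hb
        obtain ⟨p, hp, ep⟩ := ha
        obtain ⟨q, hq, eq⟩ := hb
        obtain ⟨a', ha', ea⟩ := (H j).inv_mem (x := a) ⟨p, hp, ep⟩
        obtain ⟨b', hb', eb⟩ := (H j).inv_mem (x := b) ⟨q, hq, eq⟩
        refine ⟨p * q * p⁻¹ * q⁻¹, commutatorElement_def p q ▸ Subgroup.commutator_mem_commutator hp hq, ?_⟩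
        have key : ∀ (x : LinearMap.GeneralLinearGroup k M), x ∈ der S0 j → ∀ (z : SL(2, R)),
            (x : Module.End k M) * C.e = C.Φ z.1 →
            ((x⁻¹ : LinearMap.GeneralLinearGroup k M) : Module.End k M) * C.e = C.Φ (z⁻¹).1 := by
          intro x hx z hz
          have h1 : C.Φ z.1 * C.Φ (z⁻¹).1 = C.e := by
            rw [← C.Φ_mul hX hY, ← Matrix.SpecialLinearGroup.coe_mul, mul_inv_cancel,
              Matrix.SpecialLinearGroup.coe_one, C.Φ_one]
          calc _ = ((x⁻¹ : LinearMap.GeneralLinearGroup k M) : Module.End k M) * (C.Φ z.1 * C.Φ (z⁻¹).1) := by rw [h1]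
            _ = C.Φ (z⁻¹).1 := by rw [← hz, ← mul_assoc, ← mul_assoc, Units.inv_mul, one_mul, C.e_Φ]
        have pm : ∀ (x : LinearMap.GeneralLinearGroup k M) (y : LinearMap.GeneralLinearGroup k M) (z w : SL(2, R)),
            Commute (y : Module.End k M) C.e → (x : Module.End k M) * C.e = C.Φ z.1 →
            (y : Module.End k M) * C.e = C.Φ w.1 →
            ((x * y : LinearMap.GeneralLinearGroup k M) : Module.End k M) * C.e = C.Φ (z * w).1 := by
          intro x y z w hy hz hw
          rw [Matrix.SpecialLinearGroup.coe_mul, C.Φ_mul hX hY, ← hz, ← hw, Units.val_mul,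
            mul_assoc (x : Module.End k M), mul_assoc (x : Module.End k M) C.e, ← mul_assoc C.e, ← hy.eq,
            mul_assoc (y : Module.End k M), C.e_sq]
        exact pm _ _ _ _ (hce j _ (inv_mem hq)) (pm _ _ _ _ (hce j _ (inv_mem hp))
          (pm _ _ _ _ (hce j q hq) ep eq) (key p hp a ep)) (key q hq b eq)
      obtain ⟨z, hz⟩ : ∃ z : R, (algebraMap k R (t * t - 1)) * z = 1 :=
        ((isUnit_iff_ne_zero.mpr htt).map (algebraMap k R)).exists_right_inv
      obtain ⟨w, hw⟩ : ∃ w : R, (algebraMap k R (t⁻¹ * t⁻¹ - 1)) * w = 1 := by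
        refine ((isUnit_iff_ne_zero.mpr ?_).map (algebraMap k R)).exists_right_inv
        rw [sub_ne_zero, ← mul_inv, ne_eq, inv_eq_one]
        exact ht1
      intro r
      constructor
      · have := hcomm d (up (r * z)) hdmem (ih _).1
        convert this using 1
        rw [← up_neg]
        refine ext2 ?_ ?_ ?_ ?_ <;> simp [mul_val, hd, hdi, up_val]
        all_goals
          rw [map_sub, map_mul, map_one] at hz
          first
          | linear_combination (-(1:R)) * ht'
          | linear_combination (-r) * hz + (r * z) * ht'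
      · have := hcomm d (lo (r * w)) hdmem (ih _).2
        convert this using 1
        rw [← lo_neg]
        refine ext2 ?_ ?_ ?_ ?_ <;> simp [mul_val, hd, hdi, lo_val]
        all_goals
          rw [map_sub, map_mul, map_one] at hw
          first
          | linear_combination (-(1:R)) * ht'
          | linear_combination (-r) * hw + (r * w) * ht'
  have key : ∀ (g : SL(2, R)), g ∈ H (2 * C.a + 1) → C.rep hX hY g ∈ S := by
    rintro g ⟨h, hh, e⟩
    refine hS0S (der_le S0 (2 * C.a + 1) ?_)
    have : C.rep hX hY g = h := by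
      refine Units.ext ?_
      have := (hder _ h hh).2
      rw [lge_eq_bot hnil (by omega), Submodule.mem_bot, sub_mul, one_mul, sub_eq_zero] at this
      rw [C.coe_rep, ← e, ← hf]
      conv_lhs => rw [← this, hf]
      rw [← mul_add, sub_add_cancel, mul_one]
    rwa [this]
  exact ⟨key _ (hH0 _ r).1, key _ (hH0 _ r).2⟩

end Main

end Cfsg.Agent.Lib.QuadRoot
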