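import Cfsg.Agent.Lib.QuadRoot.Rank1

/-! The central involution of a rank one pair. -/

set_option autoImplicit false

namespace Cfsg.Agent.Lib.QuadRoot

universe u v

variable {k : Type u} [Field k] {M : Type v} [AddCommGroup M] [Module k M] [FiniteDimensional k M]
  {G : Subgroup (LinearMap.GeneralLinearGroup k M)} {X Y Z F : Module.End k M}

theorem sup_fixed (hX : Root G X) (hY : Root G Y) :
    Cfsg.fixedSubmodule (grp G X hX.1.1 ⊔ grp G Y hY.1.1) = LinearMap.ker X ⊓ LinearMap.ker Y := by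
  refine le_antisymm ?_ ?_
  · rw [← grp_fixed hX, ← grp_fixed hY]
    exact le_inf (biInf_mono fun g => Subgroup.mem_sup_left) (biInf_mono fun g => Subgroup.mem_sup_right)
  · intro m hm
    let S : Subgroup (LinearMap.GeneralLinearGroup k M) :=
      { carrier := {g | (g : Module.End k M) m = m}
        one_mem' := rfl
        mul_mem' := fun {a b} (ha : (a : Module.End k M) m = m) (hb : (b : Module.End k M) m = m) => by
          show (a : Module.End k M) ((b : Module.End k M) m) = m
          rw [hb, ha]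
        inv_mem' := fun {a} (ha : (a : Module.End k M) m = m) => by
          show ((a⁻¹ : LinearMap.GeneralLinearGroup k M) : Module.End k M) m = m
          conv_lhs => rw [← ha]
          exact inv_mul_coe_apply a m }
    have hle : grp G X hX.1.1 ⊔ grp G Y hY.1.1 ≤ S := by
      refine sup_le (fun g hg => ?_) (fun g hg => ?_)
      · exact sub_eq_zero.mp (LinearMap.mem_ker.mp ((mem_grp.mp hg).2.2 hm.1))
      · exact sub_eq_zero.mp (LinearMap.mem_ker.mp ((mem_grp.mp hg).2.2 hm.2))
    simp only [Cfsg.fixedSubmodule, Submodule.mem_iInf]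
    intro g hg
    show (g : Module.End k M) m - m = 0
    exact sub_eq_zero.mpr (hle hg)

theorem sup_commutator (hX : Root G X) (hY : Root G Y) :
    Cfsg.commutatorSubmodule (grp G X hX.1.1 ⊔ grp G Y hY.1.1) = LinearMap.range X ⊔ LinearMap.range Y := by
  refine le_antisymm ?_ ?_
  · let D := LinearMap.range X ⊔ LinearMap.range Y
    let S : Subgroup (LinearMap.GeneralLinearGroup k M) :=
      { carrier := {g | ∀ m, (g : Module.End k M) m - m ∈ D}
        one_mem' := fun m => by simp
        mul_mem' := fun {a b} (ha : ∀ m, (a : Module.End k M) m - m ∈ D) (hb : ∀ m, (b : Module.End k M) m - m ∈ D) m => by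
          show (a : Module.End k M) ((b : Module.End k M) m) - m ∈ D
          have := D.add_mem (ha ((b : Module.End k M) m)) (hb m)
          rwa [sub_add_sub_cancel] at this
        inv_mem' := fun {a} (ha : ∀ m, (a : Module.End k M) m - m ∈ D) m => by
          have := D.neg_mem (ha (((a⁻¹ : LinearMap.GeneralLinearGroup k M) : Module.End k M) m))
          rwa [coe_mul_inv_apply, neg_sub] at this }
    have hle : grp G X hX.1.1 ⊔ grp G Y hY.1.1 ≤ S := by
      refine sup_le (fun g hg m => ?_) (fun g hg m => ?_)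
      · exact Submodule.mem_sup_left ((mem_grp.mp hg).2.1 ⟨m, rfl⟩)
      · exact Submodule.mem_sup_right ((mem_grp.mp hg).2.1 ⟨m, rfl⟩)
    refine iSup₂_le fun g hg => ?_
    rintro _ ⟨m, rfl⟩
    exact hle hg m
  · rw [← grp_commutator hX, ← grp_commutator hY]
    exact sup_le (biSup_mono fun g => Subgroup.mem_sup_left) (biSup_mono fun g => Subgroup.mem_sup_right)

/-- the facts about the idempotent -/
theorem idem_facts (hk2 : ringChar k ≠ 2) (hk3 : Nat.card k ≠ 3) (hX : Root G X) (hY : Root G Y)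
    (h : X * Y * X ≠ 0) : ∃ F ∈ cls G Y hY.1.1, F ≠ 0 ∧ X * F * X = X ∧ F * X * F = F ∧
      LinearMap.range (X * F + F * X) = LinearMap.range X ⊔ LinearMap.range Y ∧
      LinearMap.ker (X * F + F * X) = LinearMap.ker X ⊓ LinearMap.ker Y ∧
      (X * F + F * X) * (X * F + F * X) = X * F + F * X := by
  obtain ⟨F, hF, hF0, e1, e2⟩ := exists_inverse_cls hk2 hk3 hX hY h hX.mem_cls hX.2.1
  obtain ⟨-, hs⟩ := hY.same_of_mem_cls hF hF0
  have hX2 := hX.1.1
  have hF2 := hF.1.1
  have eX : (X * F + F * X) * X = X := by rw [add_mul, e1, mul_assoc, hX2, mul_zero, add_zero]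
  have eF : (X * F + F * X) * F = F := by rw [add_mul, e2, mul_assoc, hF2, mul_zero, zero_add]
  have Xe : X * (X * F + F * X) = X := by rw [mul_add, ← mul_assoc, hX2, zero_mul, zero_add, ← mul_assoc, e1]
  have Fe : F * (X * F + F * X) = F := by
    rw [mul_add, ← mul_assoc F F, hF2, zero_mul, add_zero, ← mul_assoc, e2]
  refine ⟨F, hF, hF0, e1, e2, ?_, ?_, ?_⟩
  · rw [← hs.1]
    refine le_antisymm ?_ (sup_le ?_ ?_)
    · rintro _ ⟨m, rfl⟩
      exact Submodule.add_mem _ (Submodule.mem_sup_left ⟨_, rfl⟩) (Submodule.mem_sup_right ⟨_, rfl⟩)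
    · conv_lhs => rw [← eX]
      exact range_mul_le _ _
    · conv_lhs => rw [← eF]
      exact range_mul_le _ _
  · rw [← hs.2]
    refine le_antisymm (le_inf ?_ ?_) ?_
    · conv_rhs => rw [← Xe]
      exact ker_le_ker_mul _ _
    · conv_rhs => rw [← Fe]
      exact ker_le_ker_mul _ _
    · rintro m ⟨h1, h1'⟩
      simp [LinearMap.mem_ker.mp h1, LinearMap.mem_ker.mp h1']
  · rw [add_mul, mul_assoc X, Fe, mul_assoc F, Xe]

theorem fixed_isCompl (hk2 : ringChar k ≠ 2) (hk3 : Nat.card k ≠ 3) (hX : Root G X) (hY : Root G Y)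
    (h : X * Y * X ≠ 0) :
    IsCompl (Cfsg.fixedSubmodule (grp G X hX.1.1 ⊔ grp G Y hY.1.1))
      (Cfsg.commutatorSubmodule (grp G X hX.1.1 ⊔ grp G Y hY.1.1)) := by
  obtain ⟨F, -, -, -, -, hr, hk, he⟩ := idem_facts hk2 hk3 hX hY h
  rw [sup_fixed hX hY, sup_commutator hX hY, ← hr, ← hk]
  set e := X * F + F * X
  constructor
  · rw [Submodule.disjoint_def]
    rintro _ hm ⟨m, rfl⟩
    rw [← he]
    exact hm
  · rw [codisjoint_iff, eq_top_iff]
    intro m _
    rw [show m = (m - e m) + e m by abel]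
    refine Submodule.add_mem_sup ?_ ⟨m, rfl⟩
    rw [LinearMap.mem_ker, map_sub, sub_eq_zero]
    exact (LinearMap.congr_fun he m).symm

theorem involution_exists (hk2 : ringChar k ≠ 2) (hk3 : Nat.card k ≠ 3) (hX : Root G X) (hY : Root G Y)
    (h : X * Y * X ≠ 0) :
    ∃! i : LinearMap.GeneralLinearGroup k M, i ∈ grp G X hX.1.1 ⊔ grp G Y hY.1.1 ∧ i ≠ 1 ∧ i * i = 1 ∧
      (∀ x ∈ grp G X hX.1.1 ⊔ grp G Y hY.1.1, i * x = x * i) ∧
      (∀ m ∈ Cfsg.commutatorSubmodule (grp G X hX.1.1 ⊔ grp G Y hY.1.1), (i : M →ₗ[k] M) m = -m) ∧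
      (∀ m ∈ Cfsg.fixedSubmodule (grp G X hX.1.1 ⊔ grp G Y hY.1.1), (i : M →ₗ[k] M) m = m) := by
  have h2 : (2 : k) ≠ 0 := Ring.two_ne_zero hk2
  obtain ⟨F, hF, hF0, e1, e2, hr, hk, he⟩ := idem_facts hk2 hk3 hX hY h
  obtain ⟨e, hedef⟩ : ∃ e, e = X * F + F * X := ⟨_, rfl⟩
  rw [← hedef] at hr hk he
  rw [sup_fixed hX hY, sup_commutator hX hY, ← hr, ← hk]
  have hX2 := hX.1.1
  have hF2 := hF.1.1
  have eX : e * X = X := by rw [hedef, add_mul, e1, mul_assoc, hX2, mul_zero, add_zero]
  have Xe : X * e = X := by rw [hedef, mul_add, ← mul_assoc, hX2, zero_mul, zero_add, ← mul_assoc, e1]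
  have eF : e * F = F := by rw [hedef, add_mul, e2, mul_assoc, hF2, mul_zero, zero_add]
  have Fe : F * e = F := by rw [hedef, mul_add, ← mul_assoc F F, hF2, zero_mul, add_zero, ← mul_assoc, e2]
  obtain ⟨w, hw⟩ : ∃ w, w = uni X hX2 * (uni F hF2)⁻¹ * uni X hX2 := ⟨_, rfl⟩
  have hwc : (w : Module.End k M) = 1 - e + (X - F) := by
    simp only [hw, Units.val_mul, coe_uni, coe_uni_inv]
    calc (1 + X) * (1 - F) * (1 + X)
        = 1 + X + X - F - (X * F + F * X) + X * X - X * F * X := by noncomm_ring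
      _ = 1 - e + (X - F) := by rw [hX2, e1, hedef]; abel
  obtain ⟨i, hi⟩ : ∃ i, i = w * w := ⟨_, rfl⟩
  have hic : (i : Module.End k M) = 1 - e - e := by
    rw [hi, Units.val_mul, hwc]
    calc (1 - e + (X - F)) * (1 - e + (X - F))
        = 1 - e - e + e * e + (X - e * X) + (X - X * e) - (F - e * F) - (F - F * e)
          + (X * X + F * F - (X * F + F * X)) := by noncomm_ring
      _ = 1 - e - e := by rw [he, eX, Xe, eF, Fe, hX2, hF2, ← hedef]; abel
  have hiD : ∀ m ∈ LinearMap.range e, (i : Module.End k M) m = -m := by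
    rintro _ ⟨n, rfl⟩
    rw [hic]
    simp only [LinearMap.sub_apply, Module.End.one_apply]
    rw [← Module.End.mul_apply, he]
    abel
  have hiC : ∀ m ∈ LinearMap.ker e, (i : Module.End k M) m = m := by
    intro m hm
    simp [hic, LinearMap.mem_ker.mp hm]
  refine ⟨i, ⟨?_, ?_, ?_, ?_, hiD, hiC⟩, ?_⟩
  · rw [hi, hw]
    have m1 := Subgroup.mem_sup_left (T := grp G Y hY.1.1) (uni_mem_grp hX.mem_cls)
    have m2 := Subgroup.mem_sup_right (S := grp G X hX.1.1) (uni_mem_grp hF)
    exact mul_mem (mul_mem (mul_mem m1 (inv_mem m2)) m1) (mul_mem (mul_mem m1 (inv_mem m2)) m1)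
  · intro hone
    refine hX.2.1 ?_
    have h0 : e + e = 0 := by
      have := hic
      rw [hone, Units.val_one] at this
      linear_combination (norm := abel) this
    have : (2 : k) • X = 0 := by
      rw [two_smul, ← eX, ← add_mul, h0, zero_mul]
    exact (smul_eq_zero.mp this).resolve_left h2
  · refine Units.ext ?_
    rw [Units.val_mul, hic, Units.val_one]
    calc (1 - e - e) * (1 - e - e) = 1 + (e * e - e) + (e * e - e) + (e * e - e) + (e * e - e) := by noncomm_ring
      _ = 1 := by rw [he]; abel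
  · have hle : grp G X hX.1.1 ⊔ grp G Y hY.1.1 ≤ Subgroup.centralizer {i} := by
      have base : ∀ g : LinearMap.GeneralLinearGroup k M, LinearMap.range (nil g) ≤ LinearMap.range e →
          LinearMap.ker e ≤ LinearMap.ker (nil g) → g ∈ Subgroup.centralizer {i} := by
        intro g g1 g2
        rw [Subgroup.mem_centralizer_singleton_iff]
        refine Units.ext ?_
        have a1 : e * nil g = nil g := by
          refine LinearMap.ext fun m => ?_
          obtain ⟨n, hn⟩ := g1 ⟨m, rfl⟩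
          show e (nil g m) = nil g m
          rw [← hn]
          exact LinearMap.congr_fun he n
        have a2 : nil g * e = nil g := by
          have : nil g * (1 - e) = 0 := mul_eq_zero_iff_range_le_ker.mpr (le_trans (by
            rw [← mul_eq_zero_iff_range_le_ker, mul_sub, mul_one, he, sub_self]) g2)
          rwa [mul_sub, mul_one, sub_eq_zero, eq_comm] at this
        rw [Units.val_mul, Units.val_mul, coe_eq_nil g, hic]
        generalize nil g = N at a1 a2 ⊢
        simp only [mul_add, add_mul, sub_mul, mul_sub, mul_one, one_mul, a1, a2]; abel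
      refine sup_le (fun g hg => base g ?_ ?_) (fun g hg => base g ?_ ?_)
      · rw [hr]; exact (mem_grp.mp hg).2.1.trans le_sup_left
      · rw [hk]; exact inf_le_left.trans (mem_grp.mp hg).2.2
      · rw [hr]; exact (mem_grp.mp hg).2.1.trans le_sup_right
      · rw [hk]; exact inf_le_right.trans (mem_grp.mp hg).2.2
    exact fun x hx => (Subgroup.mem_centralizer_singleton_iff.mp (hle hx)).symm
  · rintro j ⟨-, -, -, -, hjD, hjC⟩
    refine Units.ext (LinearMap.ext fun m => ?_)
    have d1 : m - e m ∈ LinearMap.ker e := by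
      rw [LinearMap.mem_ker, map_sub, sub_eq_zero]
      exact (LinearMap.congr_fun he m).symm
    rw [show m = (m - e m) + e m by abel, map_add, map_add, hjD _ ⟨m, rfl⟩, hjC _ d1, hiD _ ⟨m, rfl⟩, hiC _ d1]

end Cfsg.Agent.Lib.QuadRoot
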