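import Cfsg.Agent.Lib.QuadRoot.Pair

/-! Normal subgroups of groups without unipotent normal subgroups. -/

set_option autoImplicit false

namespace Cfsg.Agent.Lib.QuadRoot

universe u v

variable {k : Type u} [Field k] {M : Type v} [AddCommGroup M] [Module k M]
  {A B : Subgroup (LinearMap.GeneralLinearGroup k M)}

theorem unipotent_mono (h : A ≤ B) (hB : Cfsg.IsUnipotentOn B) : Cfsg.IsUnipotentOn A := by
  obtain ⟨n, hn⟩ := hB
  exact ⟨n, fun l hl hlen => hn l (fun g hg => h (hl g hg)) hlen⟩

theorem unipotent_def : Cfsg.IsUnipotentOn A ↔ ∃ n : ℕ, ∀ l : List (LinearMap.GeneralLinearGroup k M),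
    (∀ g ∈ l, g ∈ A) → l.length = n →
    (l.map fun x : LinearMap.GeneralLinearGroup k M => (x : Module.End k M) - 1).prod = 0 := by
  simp only [Cfsg.IsUnipotentOn]
  refine exists_congr fun n => forall_congr' fun l => ?_
  simp [← List.map_eq_flatMap, List.map_map, Function.comp_def]

theorem conj_prod (g : LinearMap.GeneralLinearGroup k M) (l : List (LinearMap.GeneralLinearGroup k M)) :
    ((l.map fun x => g * x * g⁻¹).map fun x : LinearMap.GeneralLinearGroup k M => (x : Module.End k M) - 1).prod =
      cj g (l.map fun x : LinearMap.GeneralLinearGroup k M => (x : Module.End k M) - 1).prod := by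
  induction l with
  | nil => simp [cj_one]
  | cons a t ih =>
    rw [List.map_cons, List.map_cons, List.prod_cons, ih, List.map_cons, List.prod_cons, cj_mul, cj_coe, cj_sub,
      cj_one]

theorem unipotent_conjBy (g : LinearMap.GeneralLinearGroup k M) (hA : Cfsg.IsUnipotentOn A) :
    Cfsg.IsUnipotentOn (Cfsg.conjBy A g) := by
  rw [unipotent_def] at hA ⊢
  obtain ⟨n, hn⟩ := hA
  refine ⟨n, fun l hl hlen => ?_⟩
  have h2 := conj_prod g (l.map fun x => g⁻¹ * x * g)
  rw [hn (l.map fun x => g⁻¹ * x * g) (fun x hx => by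
    obtain ⟨y, hy, rfl⟩ := List.mem_map.mp hx
    obtain ⟨z, hz, rfl⟩ := hl y hy
    simpa [mul_assoc] using hz) (by simp [hlen]), cj_zero] at h2
  simpa [List.map_map, Function.comp_def, mul_assoc] using h2

/-- Two unipotent subgroups, one normalising the other, generate a unipotent subgroup. -/
theorem unipotent_sup (hn : ∀ b ∈ B, ∀ a ∈ A, b * a * b⁻¹ ∈ A) (hA : Cfsg.IsUnipotentOn A)
    (hB : Cfsg.IsUnipotentOn B) : Cfsg.IsUnipotentOn (A ⊔ B) := by
  rw [unipotent_def] at hA hB ⊢
  obtain ⟨p, hp⟩ := hA
  obtain ⟨q, hq⟩ := hB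
  have hnorm : B ≤ Subgroup.normalizer (A : Set (LinearMap.GeneralLinearGroup k M)) := by
    intro b hb
    rw [Subgroup.mem_normalizer_iff]
    refine fun a => ⟨fun ha => hn b hb a ha, fun ha => ?_⟩
    have := hn b⁻¹ (inv_mem hb) _ ha
    simpa [mul_assoc] using this
  let P : List (LinearMap.GeneralLinearGroup k M) → Module.End k M :=
    fun l => (l.map fun x : LinearMap.GeneralLinearGroup k M => (x : Module.End k M) - 1).prod
  let K : ℕ → Submodule k M := fun j => ⨅ l : {l : List (LinearMap.GeneralLinearGroup k M) //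
    (∀ g ∈ l, g ∈ A) ∧ l.length = j}, LinearMap.ker (P l.1)
  have memK : ∀ j m, m ∈ K j ↔ ∀ l : List (LinearMap.GeneralLinearGroup k M), (∀ g ∈ l, g ∈ A) → l.length = j →
      P l m = 0 := by
    intro j m
    simp only [K, Submodule.mem_iInf, LinearMap.mem_ker, Subtype.forall, and_imp]
  have step : ∀ j, ∀ a ∈ A, ∀ m ∈ K (j + 1), (a : Module.End k M) m - m ∈ K j := by
    intro j a ha m hm
    rw [memK] at hm ⊢
    intro l hl hlen
    have := hm (l ++ [a]) (fun g hg => by
      rcases List.mem_append.mp hg with hg | hg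
      · exact hl g hg
      · rw [List.mem_singleton.mp hg]; exact ha) (by simp [hlen])
    simpa [P] using this
  have mono : ∀ j, K j ≤ K (j + 1) := by
    intro j m hm
    rw [memK] at hm ⊢
    intro l hl hlen
    match l, hlen with
    | a :: t, h =>
      simp only [List.length_cons, Nat.add_right_cancel_iff] at h
      simp only [P, List.map_cons, List.prod_cons, Module.End.mul_apply]
      rw [show (t.map fun x : LinearMap.GeneralLinearGroup k M => (x : Module.End k M) - 1).prod m = P t m from rfl,
        hm t (fun g hg => hl g (List.mem_cons_of_mem a hg)) h, map_zero]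
  have stab : ∀ j, ∀ b ∈ B, ∀ m ∈ K j, (b : Module.End k M) m ∈ K j := by
    intro j b hb m hm
    rw [memK] at hm ⊢
    intro l hl hlen
    have h0 := hm (l.map fun x => b⁻¹ * x * b) (fun g hg => by
      obtain ⟨y, hy, rfl⟩ := List.mem_map.mp hg
      have := hn b⁻¹ (inv_mem hb) y (hl y hy)
      simpa using this) (by simp [hlen])
    have e := conj_prod b⁻¹ l
    simp only [inv_inv] at e
    simp only [P] at h0 ⊢
    rw [e] at h0
    simp only [cj, inv_inv, Module.End.mul_apply] at h0
    exact (map_eq_zero_iff _ (coe_injective b⁻¹)).mp h0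
  have main : ∀ j, ∀ l : List (LinearMap.GeneralLinearGroup k M), (∀ g ∈ l, g ∈ A ⊔ B) → l.length = j * q →
      ∀ m ∈ K j, P l m = 0 := by
    intro j
    induction j with
    | zero =>
      intro l _ hlen m hm
      have hl0 : l = [] := List.length_eq_zero_iff.mp (by simpa using hlen)
      have := (memK 0 m).mp hm [] (by simp) rfl
      rw [hl0]; exact this
    | succ j ih =>
      intro l hl hlen m hm
      have e : P l m = P (l.take (j * q)) (P (l.drop (j * q)) m) := by
        simp only [P]
        conv_lhs => rw [← List.take_append_drop (j * q) l]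
        rw [List.map_append, List.prod_append]
        rfl
      rw [e]
      refine ih _ (fun g hg => hl g (List.mem_of_mem_take hg)) (by rw [List.length_take, hlen, add_mul, one_mul]; omega) _ ?_
      have key : ∀ t : List (LinearMap.GeneralLinearGroup k M), (∀ g ∈ t, g ∈ A ⊔ B) →
          P t m ∈ K (j + 1) ∧ ∃ bs : List (LinearMap.GeneralLinearGroup k M), (∀ g ∈ bs, g ∈ B) ∧
            bs.length = t.length ∧ P t m - P bs m ∈ K j := by
        intro t
        induction t with
        | nil => exact fun _ => ⟨by simpa [P] using hm, [], by simp, rfl, by simp⟩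
        | cons g t iht =>
          intro hgt
          obtain ⟨hx, bs, hbs, hlen', hd⟩ := iht fun y hy => hgt y (List.mem_cons_of_mem g hy)
          have hg := hgt g (List.mem_cons_self ..)
          rw [← SetLike.mem_coe, Subgroup.coe_mul_of_right_le_normalizer_left A B hnorm] at hg
          obtain ⟨a, ha, b, hb, rfl⟩ := hg
          have hPg : P ((a * b) :: t) m = ((a : Module.End k M) ((b : Module.End k M) (P t m)) - (b : Module.End k M) (P t m)) +
              ((b : Module.End k M) (P t m) - P t m) := by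
            rw [sub_add_sub_cancel]; simp [P]
          have h1 := step j a ha _ (stab (j + 1) b hb _ hx)
          refine ⟨?_, b :: bs, ?_, by simp [hlen'], ?_⟩
          · rw [hPg]
            exact Submodule.add_mem _ (mono j h1) (Submodule.sub_mem _ (stab (j + 1) b hb _ hx) hx)
          · intro y hy
            rcases List.mem_cons.mp hy with rfl | hy
            · exact hb
            · exact hbs y hy
          · have hPb : P (b :: bs) m = (b : Module.End k M) (P bs m) - P bs m := by simp [P]
            rw [hPg, hPb]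
            have h2 := Submodule.sub_mem _ (stab j b hb _ hd) hd
            rw [map_sub] at h2
            have := Submodule.add_mem _ h1 h2
            convert this using 1
            abel
      obtain ⟨-, bs, hbs, hblen, hd⟩ := key (l.drop (j * q)) fun g hg => hl g (List.mem_of_mem_drop hg)
      have : P bs m = 0 := by
        have := hq bs hbs (by rw [hblen, List.length_drop, hlen, add_mul, one_mul]; omega)
        exact LinearMap.congr_fun this m
      rwa [this, sub_zero] at hd
  refine ⟨p * q, fun l hl hlen => LinearMap.ext fun m => main p l hl hlen m ((memK p m).mpr fun l' hl' hlen' => ?_)⟩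
  exact LinearMap.congr_fun (hp l' hl' hlen') m

theorem conjBy_conjBy (A : Subgroup (LinearMap.GeneralLinearGroup k M)) (g h : LinearMap.GeneralLinearGroup k M) :
    Cfsg.conjBy (Cfsg.conjBy A g) h = Cfsg.conjBy A (h * g) := by
  show (A.map _).map _ = _
  rw [Subgroup.map_map]
  congr 1

theorem conjBy_eq_of_forall {K : Subgroup (LinearMap.GeneralLinearGroup k M)}
    (h : ∀ g ∈ K, ∀ n ∈ A, g * n * g⁻¹ ∈ A) : ∀ g ∈ K, Cfsg.conjBy A g = A := by
  intro g hg
  refine le_antisymm ?_ fun x hx => ?_
  · rintro _ ⟨n, hn, rfl⟩; exact h g hg n hn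
  · exact ⟨g⁻¹ * x * g, by simpa using h g⁻¹ (inv_mem hg) x hx, by simp [mul_assoc]⟩

variable [FiniteDimensional k M]

theorem noUnip_normal {G H : Subgroup (LinearMap.GeneralLinearGroup k M)} (hG : NoUnip G) (hHG : H ≤ G)
    (hH : ∀ g ∈ G, Cfsg.conjBy H g = H) : NoUnip H := by
  intro U hUH hU hu
  have hle : ∀ g ∈ G, Cfsg.conjBy U g ≤ H := fun g hg => (Subgroup.map_mono hUH).trans (hH g hg).le
  have hnor : ∀ g ∈ G, ∀ h ∈ H, Cfsg.conjBy (Cfsg.conjBy U g) h = Cfsg.conjBy U g := by
    intro g hg h hh
    have hh' : g⁻¹ * h * g ∈ H := by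
      have := (hH g⁻¹ (inv_mem hg)).le ⟨h, hh, rfl⟩
      simpa using this
    rw [conjBy_conjBy, show h * g = g * (g⁻¹ * h * g) by group, ← conjBy_conjBy, hU _ hh']
  let W : Set (Subgroup (LinearMap.GeneralLinearGroup k M)) := {A | ∃ g ∈ G, A = Cfsg.conjBy U g}
  have hW := Cfsg.Agent.S5061.result (G := G) (W := W)
    (by rintro A ⟨g, hg, rfl⟩; exact (hle g hg).trans hHG)
    (by
      rintro A ⟨g, hg, rfl⟩ B ⟨g', hg', rfl⟩
      refine unipotent_sup (fun b hb a ha => ?_) (unipotent_conjBy g hu) (unipotent_conjBy g' hu)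
      exact (hnor g hg b (hle g' hg' hb)).le ⟨a, ha, rfl⟩)
    (by rintro A ⟨g, hg, rfl⟩ g' hg'; exact ⟨g' * g, mul_mem hg' hg, conjBy_conjBy U g g'⟩)
  have hbot := hG _ (iSup₂_le fun A ⟨g, hg, e⟩ => e ▸ (hle g hg).trans hHG) hW.2 hW.1
  rw [eq_bot_iff, ← hbot]
  exact le_iSup₂_of_le U ⟨1, one_mem _, (hU 1 (one_mem _)).symm⟩ le_rfl

end Cfsg.Agent.Lib.QuadRoot
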