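import Cfsg.Agent.Lib.QuadRoot.Derived
import Cfsg.Agent.S5061

/-! Pairs of quadratic elements, one of minimal rank. -/

set_option autoImplicit false

namespace Cfsg.Agent.Lib.QuadRoot

open scoped MatrixGroups Pointwise

universe u v

variable {k : Type u} [Field k] {M : Type v} [AddCommGroup M] [Module k M] [FiniteDimensional k M]
  {G : Subgroup (LinearMap.GeneralLinearGroup k M)} {X Y : Module.End k M}

/-- Everything about a pair with a non-vanishing sandwich. -/
theorem exists_split (h2 : ringChar k ≠ 2) (h3 : Nat.card k ≠ 3) (hX : Root G X) (hY : Fam G Y)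
    (h : X * Y * X ≠ 0) :
    ∃ (R : Type u) (_ : CommRing R) (_ : Algebra k R) (_ : FiniteDimensional k R) (C : Corner k X Y R),
      IsField R ∧ C.E = X ∧ Root G C.F ∧ Root G (C.e * Y) ∧ Fam G (Y - C.e * Y) ∧
      rk (Y - C.e * Y) < rk Y ∧ LinearMap.range (C.e * Y) = LinearMap.range C.F ∧
      LinearMap.ker (C.e * Y) = LinearMap.ker C.F ∧
      (Root G Y → C.e * Y = Y) := by
  have h2' : (2 : k) ≠ 0 := Ring.two_ne_zero h2
  obtain ⟨R, i1, i2, i3, ⟨C⟩⟩ := exists_corner X Y hX.1.1 hY.1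
  refine ⟨R, i1, i2, i3, C, ?_⟩
  have hm := fun r => rep_mem C hX.1.1 hY.1 h2 h3 G (fun c => (hX.1.smul c).uni_mem)
    (fun c => (hY.smul c).uni_mem) r
  have famE : ∀ r, Fam G (C.ι r * C.E) := fun r => by
    refine ⟨?_, fun c => ⟨_, (hm (algebraMap k R c * r)).1, ?_⟩⟩
    · rw [C.comm_left C.E_comm, C.EE hX.1.1, mul_zero]
    · rw [C.rep_up, ← Algebra.smul_def, map_smul, smul_mul_assoc]
  have famF : ∀ r, Fam G (C.ι r * C.F) := fun r => by
    refine ⟨?_, fun c => ⟨_, (hm (algebraMap k R c * r)).2, ?_⟩⟩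
    · rw [C.comm_left C.F_comm, C.FF hY.1, mul_zero]
    · rw [C.rep_lo, ← Algebra.smul_def, map_smul, smul_mul_assoc]
  have hE0 : C.E ≠ 0 := by
    intro h0
    refine h (sandwich_nilp h2' hX C.a Y hY ?_)
    have e1 : ∀ n, (X * Y) ^ n * X = (X * Y + Y * X) ^ n * X := by
      intro n
      induction n with
      | zero => simp
      | succ n ih =>
        have hc : Commute (X * Y + Y * X) X := by
          show (X * Y + Y * X) * X = X * (X * Y + Y * X)
          rw [add_mul, mul_add, mul_assoc Y, hX.1.1, mul_zero, ← mul_assoc X X, hX.1.1, zero_mul]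
          simp [mul_assoc]
        rw [pow_succ', mul_assoc, ih, pow_succ' (X * Y + Y * X), mul_assoc (X * Y + Y * X), (hc.pow_left n).eq,
          ← mul_assoc (X * Y), ← mul_assoc (X * Y + Y * X) X, add_mul, mul_assoc Y X X, hX.1.1, mul_zero,
          add_zero]
    rw [e1, ← C.pow_eq, mul_assoc]
    change _ * C.E = 0
    rw [h0, mul_zero]
  have hrk : ∀ r, LinearMap.range (C.ι r * C.E) ≤ LinearMap.range X ∧
      LinearMap.ker X ≤ LinearMap.ker (C.ι r * C.E) := by
    intro r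
    refine ⟨?_, ?_⟩
    · rw [C.ι_E, C.commX]; exact range_mul_le _ _
    · rw [C.ι_E]; exact ker_le_ker_mul _ _
  have hfull : ∀ r, C.ι r * C.E ≠ 0 → LinearMap.range (C.ι r * C.E) = LinearMap.range X := fun r hr =>
    hX.range_eq (famE r) hr (hrk r).1
  have hEX : C.E = X := by
    have hr := hfull 1 (by rwa [C.ι_E, ← Corner.E])
    rw [C.ι_E, ← Corner.E] at hr
    refine LinearMap.ext fun m => ?_
    obtain ⟨n, hn⟩ : X m ∈ LinearMap.range C.E := hr ▸ ⟨m, rfl⟩
    show C.e (X m) = X m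
    rw [← hn]
    exact LinearMap.congr_fun C.e_E n
  have hdom : ∀ r s : R, r * s = 0 → r = 0 ∨ s = 0 := by
    intro r s hrs
    by_cases hs : C.ι s * C.E = 0
    · exact Or.inr (C.eq_zero_of_ι_E hs)
    left
    refine C.eq_zero_of_ι_E ?_
    have hr := hfull s hs
    rw [hEX]
    refine LinearMap.ext fun m => ?_
    obtain ⟨n, hn⟩ : X m ∈ LinearMap.range (C.ι s * C.E) := hr ▸ ⟨m, rfl⟩
    show C.ι r (X m) = 0
    rw [← hn, ← Module.End.mul_apply, ← mul_assoc, ← C.mul, hrs, map_zero, zero_mul]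
    rfl
  have hnt : Nontrivial R := ⟨⟨0, 1, fun e => hE0 (by
    have h01 : C.ι (0 : R) * C.E = C.ι 1 * C.E := by rw [e]
    rwa [map_zero, zero_mul, C.ι_one, C.e_E, eq_comm] at h01)⟩⟩
  have hfield : IsField R := by
    haveI : NoZeroDivisors R := ⟨fun h => hdom _ _ h⟩
    haveI : IsDomain R := NoZeroDivisors.to_isDomain R
    haveI : IsArtinianRing R := IsArtinianRing.of_finite k R
    exact IsArtinianRing.isField_of_isDomain R
  have hF0 : C.F ≠ 0 := fun e => by
    have := C.EFE hX.1.1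
    rw [e, mul_zero, zero_mul] at this
    exact hE0 this.symm
  have hrkF : ∀ r, rk (C.ι r * C.F) ≤ rk X := by
    intro r
    have : LinearMap.range (C.ι r * C.F) ≤ (LinearMap.range X).map (C.ι r * C.F) := by
      rintro _ ⟨m, rfl⟩
      refine ⟨C.E (C.F m), ⟨C.F m, by rw [hEX]⟩, ?_⟩
      show (C.ι r * (C.F * C.E * C.F)) m = (C.ι r * C.F) m
      rw [C.FEF hY.1]
    exact (Submodule.finrank_mono this).trans (Submodule.finrank_map_le _ _)
  have hFroot : Root G C.F := by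
    have h1 := famF 1
    have h2'' := hrkF 1
    rw [C.ι_one, C.e_F] at h1 h2''
    exact hX.of_rk_le h1 hF0 h2''
  have heY0 : C.e * Y ≠ 0 := by
    rw [C.eY]
    intro e
    refine hF0 ?_
    rw [← C.e_F, ← C.inv_α, mul_assoc, e, mul_zero]
  have heY : Root G (C.e * Y) := hX.of_rk_le (C.eY ▸ famF C.α) heY0 (C.eY ▸ hrkF C.α)
  have hYe : C.e * Y = Y * C.e := C.commY 1
  have hcomp : Fam G (Y - C.e * Y) := by
    have e1 : Y * (C.e * Y) = 0 := by rw [hYe, ← mul_assoc, hY.1, zero_mul]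
    have := hY.add heY.1.neg (by rw [mul_neg, e1, neg_zero]) (by rw [neg_mul, mul_assoc, hY.1, mul_zero, neg_zero])
    rwa [← sub_eq_add_neg] at this
  refine ⟨hfield, hEX, hFroot, heY, hcomp, ?_, ?_, ?_, ?_⟩
  · refine Submodule.finrank_lt_finrank_of_lt (lt_of_le_of_ne ?_ ?_)
    · rw [show Y - C.e * Y = Y * (1 - C.e) by rw [mul_sub, mul_one, hYe]]
      exact range_mul_le _ _
    · intro he
      refine heY0 (LinearMap.ext fun m => ?_)
      obtain ⟨n, hn⟩ : Y m ∈ LinearMap.range (Y - C.e * Y) := he ▸ ⟨m, rfl⟩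
      show C.e (Y m) = 0
      rw [← hn]
      simp only [LinearMap.sub_apply, Module.End.mul_apply, map_sub]
      rw [← Module.End.mul_apply C.e C.e, C.e_sq, sub_self]
  · refine le_antisymm ?_ ?_
    · rw [C.eY, C.F_comm]; exact range_mul_le _ _
    · intro x hx
      rw [← C.F_e, ← C.inv_α, C.comm, ← mul_assoc, ← C.F_comm, ← C.eY] at hx
      exact range_mul_le _ _ hx
  · refine le_antisymm ?_ ?_
    · intro x hx
      rw [← C.e_F, ← C.inv_α, mul_assoc, ← C.eY]
      exact ker_le_ker_mul _ _ hx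
    · rw [C.eY]; exact ker_le_ker_mul _ _
  · intro hYr
    have hr := hYr.range_eq heY.1 heY0 (by rw [hYe]; exact range_mul_le _ _)
    refine LinearMap.ext fun m => ?_
    obtain ⟨n, hn⟩ : Y m ∈ LinearMap.range (C.e * Y) := hr.symm ▸ ⟨m, rfl⟩
    show C.e (Y m) = Y m
    rw [← hn]
    show C.e (C.e (Y n)) = C.e (Y n)
    rw [← Module.End.mul_apply C.e C.e, C.e_sq]

/-- The inverse of a root in a non-nilpotent pair. -/
theorem exists_inverse (h2 : ringChar k ≠ 2) (h3 : Nat.card k ≠ 3) (hX : Root G X) (hY : Root G Y)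
    (h : X * Y * X ≠ 0) :
    ∃ F, Root G F ∧ X * F * X = X ∧ F * X * F = F ∧ LinearMap.range F = LinearMap.range Y ∧
      LinearMap.ker F = LinearMap.ker Y := by
  obtain ⟨R, i1, i2, i3, C, -, hE, hF, -, -, -, hr, hk, he⟩ := exists_split h2 h3 hX hY.1 h
  rw [he hY] at hr hk
  refine ⟨C.F, hF, ?_, ?_, hr.symm, hk.symm⟩
  · have := C.EFE hX.1.1; rwa [hE] at this
  · have := C.FEF hY.1.1; rwa [hE] at this

theorem sandwich_symm (h2 : (2 : k) ≠ 0) (hY : Root G Y) (hX : Fam G X) (h : X * Y * X = 0) :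
    Y * X * Y = 0 :=
  sandwich_nilp h2 hY 2 X hX (by
    rw [show (Y * X) ^ 2 * Y = Y * (X * Y * X) * Y by rw [pow_two]; simp only [mul_assoc], h, mul_zero, zero_mul])

/-- A group generated by elements with vanishing triple products acts unipotently. -/
theorem isUnipotentOn_of_triple (P : Set (Module.End k M))
    (hP : ∀ a ∈ P, ∀ b ∈ P, ∀ c ∈ P, a * b * c = 0) (S : Set (LinearMap.GeneralLinearGroup k M))
    (hS : ∀ g ∈ S, (g : Module.End k M) - 1 ∈ P) : Cfsg.IsUnipotentOn (Subgroup.closure S) := by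
  set I := Submodule.span k P with hI
  have h3 : I * I * I = ⊥ := by
    rw [hI, Submodule.span_mul_span, Submodule.span_mul_span, ← le_bot_iff, Submodule.span_le]
    rintro w ⟨w1, ⟨a, ha, b, hb, rfl⟩, c, hc, rfl⟩
    simp [hP a ha b hb c hc]
  set L := I ⊔ I * I with hL
  have h4 : I * I * (I * I) = ⊥ := by rw [← mul_assoc, h3, Submodule.bot_mul]
  have hLL : L * L ≤ I * I := by
    rw [hL, Submodule.sup_mul, Submodule.mul_sup, Submodule.mul_sup, h4, ← mul_assoc I I I, h3]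
    simp
  have hL3 : L ^ 3 = ⊥ := by
    rw [pow_succ, pow_two, ← le_bot_iff]
    refine (mul_le_mul' hLL le_rfl).trans ?_
    rw [hL, Submodule.mul_sup, h3, h4]
    simp
  have hle : UnipBS.spanOf (Subgroup.closure S) ≤ L :=
    UnipBS.closure_span_le (hLL.trans le_sup_right) 3 hL3
      (fun y hy => le_sup_left (b := I * I) (Submodule.subset_span (hS y hy)))
  refine ⟨3, fun l hl hlen => ?_⟩
  match l, hlen with
  | [a, b, c], _ =>
    have hm : ∀ g ∈ Subgroup.closure S, (g : Module.End k M) - 1 ∈ L := fun g hg => hle (UnipBS.mem_spanOf hg)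
    have := Submodule.mul_mem_mul (Submodule.mul_mem_mul (hm a (hl a (by simp))) (hm b (hl b (by simp))))
      (hm c (hl c (by simp)))
    rw [show L * L * L = L ^ 3 by rw [pow_succ, pow_two], hL3, Submodule.mem_bot] at this
    simpa [List.map, mul_assoc] using this

/-- No nontrivial unipotent subgroup is normalized by the group. -/
def NoUnip (G : Subgroup (LinearMap.GeneralLinearGroup k M)) : Prop :=
  ∀ U : Subgroup (LinearMap.GeneralLinearGroup k M), U ≤ G → (∀ g ∈ G, Cfsg.conjBy U g = U) →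
    Cfsg.IsUnipotentOn U → U = ⊥

/-- the one-parameter group of a nilpotent element -/
def famGrp (X : Module.End k M) (hX : X * X = 0) : Subgroup (LinearMap.GeneralLinearGroup k M) where
  carrier := {g | ∃ c : k, (g : Module.End k M) = 1 + c • X}
  one_mem' := ⟨0, by simp⟩
  mul_mem' := by
    rintro a b ⟨c, hc⟩ ⟨d, hd⟩
    refine ⟨c + d, ?_⟩
    rw [Units.val_mul, hc, hd, mul_add, add_mul, add_mul, smul_mul_smul_comm, hX, smul_zero, add_smul]
    simp [add_assoc]
  inv_mem' := by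
    rintro a ⟨c, hc⟩
    refine ⟨-c, ?_⟩
    have e : a = uni (c • X) (smul_sq hX c) := Units.ext hc
    rw [e, coe_uni_inv, neg_smul, sub_eq_add_neg]

omit [FiniteDimensional k M] in
theorem famGrp_le (hX : Fam G X) : famGrp X hX.1 ≤ G := by
  rintro g ⟨c, hc⟩
  obtain ⟨g', hg', e⟩ := hX.2 c
  exact (Units.ext (e.trans hc.symm) : g' = g) ▸ hg'

omit [FiniteDimensional k M] in
theorem conjBy_famGrp (hX : X * X = 0) (g : LinearMap.GeneralLinearGroup k M) :
    Cfsg.conjBy (famGrp X hX) g = famGrp (cj g X) (by rw [← cj_mul, hX, cj_zero]) := by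
  ext x
  constructor
  · rintro ⟨y, ⟨c, hc⟩, rfl⟩
    exact ⟨c, by rw [← cj_smul, ← cj_one g, ← cj_add, ← hc]; rfl⟩
  · rintro ⟨c, hc⟩
    refine ⟨g⁻¹ * x * g, ⟨c, ?_⟩, by simp [mul_assoc]⟩
    have := cj_coe g⁻¹ x
    rw [inv_inv] at this
    rw [this, hc, cj_add, cj_one, cj_smul, cj_inv_cj]

/-- Every root has a partner. -/
theorem exists_partner (hG : NoUnip G) (hX : Root G X) : ∃ Y, Root G Y ∧ X * Y * X ≠ 0 := by
  by_contra hcon
  push Not at hcon
  let W : Set (Subgroup (LinearMap.GeneralLinearGroup k M)) :=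
    {A | ∃ g ∈ G, A = famGrp (cj g X) (by rw [← cj_mul, hX.1.1, cj_zero])}
  have hW := Cfsg.Agent.S5061.result (G := G) (W := W)
    (by rintro A ⟨g, hg, rfl⟩; exact famGrp_le (hX.1.cj hg))
    (by
      rintro A ⟨g, hg, rfl⟩ B ⟨h, hh, rfl⟩
      set P := cj g X
      set Q := cj h X
      have hP2 : P * P = 0 := (hX.1.cj hg).1
      have hQ2 : Q * Q = 0 := (hX.1.cj hh).1
      have hPQP : P * Q * P = 0 := by
        have := hcon _ (hX.cj (mul_mem (inv_mem hg) hh))
        have e := congrArg (cj g) this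
        rwa [cj_mul, cj_mul, cj_cj, ← mul_assoc g, mul_inv_cancel, one_mul, cj_zero] at e
      have hQPQ : Q * P * Q = 0 := by
        have := hcon _ (hX.cj (mul_mem (inv_mem hh) hg))
        have e := congrArg (cj h) this
        rwa [cj_mul, cj_mul, cj_cj, ← mul_assoc h, mul_inv_cancel, one_mul, cj_zero] at e
      rw [Subgroup.sup_eq_closure]
      refine isUnipotentOn_of_triple ({Z | ∃ c : k, Z = c • P} ∪ {Z | ∃ c : k, Z = c • Q}) ?_ _ ?_
      · rintro a (⟨c1, rfl⟩ | ⟨c1, rfl⟩) b (⟨c2, rfl⟩ | ⟨c2, rfl⟩) c (⟨c3, rfl⟩ | ⟨c3, rfl⟩) <;>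
          simp [smul_mul_smul_comm, hP2, hQ2, hPQP, hQPQ, mul_assoc P Q, mul_assoc Q P]
      · rintro x (⟨c, hc⟩ | ⟨c, hc⟩)
        · exact Or.inl ⟨c, by rw [hc, add_sub_cancel_left]⟩
        · exact Or.inr ⟨c, by rw [hc, add_sub_cancel_left]⟩)
    (by
      rintro A ⟨g, hg, rfl⟩ h hh
      refine ⟨h * g, mul_mem hh hg, ?_⟩
      rw [conjBy_famGrp]
      congr 1)
  have hbot := hG _ (iSup₂_le fun A ⟨g, hg, e⟩ => e ▸ famGrp_le (hX.1.cj hg)) hW.2 hW.1
  have hmem : uni X hX.1.1 ∈ (⨆ A ∈ W, A) := by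
    refine Subgroup.mem_iSup_of_mem (famGrp X hX.1.1) (Subgroup.mem_iSup_of_mem ⟨1, one_mem _, ?_⟩ ⟨1, by simp [coe_uni]⟩)
    congr 1
  rw [hbot, Subgroup.mem_bot] at hmem
  have := congrArg (fun g : LinearMap.GeneralLinearGroup k M => (g : Module.End k M)) hmem
  simp [coe_uni] at this
  exact hX.2.1 this

end Cfsg.Agent.Lib.QuadRoot
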