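import Cfsg.Prelude.Def_RootSubgroups

/-! Root subgroup sets inside the subgroup they generate. -/

set_option autoImplicit false

namespace Cfsg.Agent.Lib.QuadRoot

open scoped commutatorElement

universe u

variable {Γ : Type u} [Group Γ] {H A B : Subgroup Γ}

theorem conjBy_subgroupOf (hA : A ≤ H) (h : H) :
    Cfsg.conjBy (A.subgroupOf H) h = (Cfsg.conjBy A (h : Γ)).subgroupOf H := by
  ext x
  constructor
  · rintro ⟨y, hy, rfl⟩
    exact ⟨(y : Γ), hy, rfl⟩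
  · rintro ⟨y, hy, he⟩
    exact ⟨⟨y, hA hy⟩, hy, Subtype.ext he⟩

theorem conjBy_le (hA : A ≤ H) {h : Γ} (hh : h ∈ H) : Cfsg.conjBy A h ≤ H := by
  rintro _ ⟨y, hy, rfl⟩
  exact mul_mem (mul_mem hh (hA hy)) (inv_mem hh)

theorem eq_of_subgroupOf_eq (hA : A ≤ H) (hB : B ≤ H) (h : A.subgroupOf H = B.subgroupOf H) : A = B := by
  rw [← Subgroup.map_subgroupOf_eq_of_le hA, h, Subgroup.map_subgroupOf_eq_of_le hB]

theorem commutator_subgroupOf (hA : A ≤ H) (hB : B ≤ H) :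
    ⁅A.subgroupOf H, B.subgroupOf H⁆ = (⁅A, B⁆ : Subgroup Γ).subgroupOf H := by
  refine Subgroup.map_injective H.subtype_injective ?_
  rw [Subgroup.map_commutator, Subgroup.map_subgroupOf_eq_of_le hA, Subgroup.map_subgroupOf_eq_of_le hB,
    Subgroup.map_subgroupOf_eq_of_le ((Subgroup.commutator_mono hA hB).trans (Subgroup.commutator_le_self H))]

theorem sup_subgroupOf' (hA : A ≤ H) (hB : B ≤ H) :
    A.subgroupOf H ⊔ B.subgroupOf H = (A ⊔ B).subgroupOf H := by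
  refine Subgroup.map_injective H.subtype_injective ?_
  rw [Subgroup.map_sup, Subgroup.map_subgroupOf_eq_of_le hA, Subgroup.map_subgroupOf_eq_of_le hB,
    Subgroup.map_subgroupOf_eq_of_le (sup_le hA hB)]

theorem isMulCommutative_subgroupOf (h : IsMulCommutative A) : IsMulCommutative (A.subgroupOf H) :=
  ⟨⟨fun a b => Subtype.ext (Subtype.ext (by
    simpa using congrArg Subtype.val (h.is_comm.comm (⟨((a : H) : Γ), a.2⟩ : A) ⟨((b : H) : Γ), b.2⟩)))⟩⟩

theorem rankOne_cond_subgroupOf (hA : A ≤ H) (hB : B ≤ H) (h : Cfsg.RankOneCondition A B) :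
    Cfsg.RankOneCondition (A.subgroupOf H) (B.subgroupOf H) := by
  intro a ha ha1
  obtain ⟨b, hb, hb1, he⟩ := h (a : Γ) ha (fun e => ha1 (Subtype.ext e))
  refine ⟨⟨b, hB hb⟩, hb, fun e => hb1 (congrArg Subtype.val e), ?_⟩
  rw [conjBy_subgroupOf hA, conjBy_subgroupOf hB]
  exact congrArg (Subgroup.subgroupOf · H) he

theorem isRankOnePair_subgroupOf (hA : A ≤ H) (hB : B ≤ H) (h : Cfsg.IsRankOnePair A B) :
    Cfsg.IsRankOnePair (A.subgroupOf H) (B.subgroupOf H) :=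
  ⟨fun e => h.ne (eq_of_subgroupOf_eq hA hB e),
    haveI := h.nilpotent_left
    Group.nilpotent_of_mulEquiv (Subgroup.subgroupOfEquivOfLe hA).symm,
    haveI := h.nilpotent_right
    Group.nilpotent_of_mulEquiv (Subgroup.subgroupOfEquivOfLe hB).symm,
    rankOne_cond_subgroupOf hA hB h.cond_left, rankOne_cond_subgroupOf hB hA h.cond_right⟩

theorem closure_comm_subgroupOf (hB : B ≤ H) (a : H) :
    (Subgroup.closure ((fun b : H => a * b * a⁻¹ * b⁻¹) '' (B.subgroupOf H : Set H))).map H.subtype =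
      Subgroup.closure ((fun b : Γ => (a : Γ) * b * (a : Γ)⁻¹ * b⁻¹) '' (B : Set Γ)) := by
  rw [MonoidHom.map_closure]
  congr 1
  ext x
  constructor
  · rintro ⟨_, ⟨b, hb, rfl⟩, rfl⟩
    exact ⟨(b : Γ), hb, rfl⟩
  · rintro ⟨b, hb, rfl⟩
    exact ⟨_, ⟨⟨b, hB hb⟩, hb, rfl⟩, rfl⟩

theorem closure_comm_subgroupOf' (hA : A ≤ H) (b : H) :
    (Subgroup.closure ((fun a : H => a * b * a⁻¹ * b⁻¹) '' (A.subgroupOf H : Set H))).map H.subtype =
      Subgroup.closure ((fun a : Γ => a * (b : Γ) * a⁻¹ * (b : Γ)⁻¹) '' (A : Set Γ)) := by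
  rw [MonoidHom.map_closure]
  congr 1
  ext x
  constructor
  · rintro ⟨_, ⟨a, ha, rfl⟩, rfl⟩
    exact ⟨(a : Γ), ha, rfl⟩
  · rintro ⟨a, ha, rfl⟩
    exact ⟨_, ⟨⟨a, hA ha⟩, ha, rfl⟩, rfl⟩

theorem rootCommutatorCase_subgroupOf {S : Set (Subgroup Γ)} (hA : A ≤ H) (hB : B ≤ H)
    (h : Cfsg.RootCommutatorCase S A B) :
    Cfsg.RootCommutatorCase ((fun C : Subgroup Γ => C.subgroupOf H) '' S) (A.subgroupOf H) (B.subgroupOf H) := by
  obtain ⟨h1, h2, h3, h4⟩ := h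
  have hC : ⁅A, B⁆ ≤ H := (Subgroup.commutator_mono hA hB).trans (Subgroup.commutator_le_self H)
  refine ⟨⟨_, h1, (commutator_subgroupOf hA hB).symm⟩, ?_, ?_, ?_⟩
  · intro c hc x hx
    rw [commutator_subgroupOf hA hB] at hc
    rw [sup_subgroupOf' hA hB] at hx
    exact Subtype.ext (h2 _ hc _ hx)
  · intro a ha ha1
    refine Subgroup.map_injective H.subtype_injective ?_
    rw [closure_comm_subgroupOf hB, commutator_subgroupOf hA hB, Subgroup.map_subgroupOf_eq_of_le hC]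
    exact h3 _ ha (fun e => ha1 (Subtype.ext e))
  · intro b hb hb1
    refine Subgroup.map_injective H.subtype_injective ?_
    rw [closure_comm_subgroupOf' hA, commutator_subgroupOf hA hB, Subgroup.map_subgroupOf_eq_of_le hC]
    exact h4 _ hb (fun e => hb1 (Subtype.ext e))

/-- A set with the root subgroup properties becomes a root subgroup set of the group it generates. -/
theorem isRootSubgroupSet_image {S : Set (Subgroup Γ)} (hc : ∀ A ∈ S, IsMulCommutative A)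
    (hn : ∀ A ∈ S, A ≠ ⊥) (hconj : ∀ A ∈ S, ∀ g ∈ (⨆ B ∈ S, B), Cfsg.conjBy A g ∈ S)
    (hp : ∀ A ∈ S, ∀ B ∈ S, ⁅A, B⁆ = ⊥ ∨ Cfsg.IsRankOnePair A B ∨ Cfsg.RootCommutatorCase S A B) :
    Cfsg.IsRootSubgroupSet ((fun A : Subgroup Γ => A.subgroupOf (⨆ B ∈ S, B)) '' S) := by
  have hle : ∀ A ∈ S, A ≤ ⨆ B ∈ S, B := fun A hA => le_iSup₂ (f := fun B _ => B) A hA
  refine ⟨?_, ?_, ?_, ?_, ?_⟩
  · rintro _ ⟨A, hA, rfl⟩
    exact isMulCommutative_subgroupOf (hc A hA)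
  · rintro _ ⟨A, hA, rfl⟩ e
    refine hn A hA ?_
    rw [← Subgroup.map_subgroupOf_eq_of_le (hle A hA), show A.subgroupOf (⨆ B ∈ S, B) = ⊥ from e,
      Subgroup.map_bot]
  · refine Subgroup.map_injective (Subgroup.subtype_injective _) ?_
    rw [iSup_image, Subgroup.map_iSup, ← MonoidHom.range_eq_map, Subgroup.range_subtype]
    refine iSup_congr fun A => ?_
    rw [Subgroup.map_iSup]
    exact iSup_congr fun hA => Subgroup.map_subgroupOf_eq_of_le (hle A hA)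
  · rintro _ ⟨A, hA, rfl⟩ g
    exact ⟨_, hconj A hA _ g.2, (conjBy_subgroupOf (hle A hA) g).symm⟩
  · rintro _ ⟨A, hA, rfl⟩ _ ⟨B, hB, rfl⟩
    rcases hp A hA B hB with h | h | h
    · left
      rw [commutator_subgroupOf (hle A hA) (hle B hB), h, Subgroup.bot_subgroupOf]
    · exact Or.inr (Or.inl (isRankOnePair_subgroupOf (hle A hA) (hle B hB) h))
    · exact Or.inr (Or.inr (rootCommutatorCase_subgroupOf (hle A hA) (hle B hB) h))

end Cfsg.Agent.Lib.QuadRoot
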