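import Cfsg.Agent.Lib.QuadRoot.Rank1
import Cfsg.Agent.Lib.QuadRoot.Transfer

/-! The set of quadratic root subgroups. -/

set_option autoImplicit false

namespace Cfsg.Agent.Lib.QuadRoot

open scoped MatrixGroups commutatorElement

universe u v

variable {k : Type u} [Field k] {M : Type v} [AddCommGroup M] [Module k M] [FiniteDimensional k M]
  {G : Subgroup (LinearMap.GeneralLinearGroup k M)} {X Y Z : Module.End k M}

theorem pair_cases (hk2 : ringChar k ≠ 2) (hk3 : Nat.card k ≠ 3) (hG : NoUnip G) (hX : Root G X) (hY : Root G Y)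
    (S : Set (Subgroup (LinearMap.GeneralLinearGroup k M)))
    (hS : X * Y * X = 0 → X * Y ≠ Y * X → ∀ hA : (Y * X - X * Y) * (Y * X - X * Y) = 0,
      grp G (Y * X - X * Y) hA ∈ S) :
    ⁅grp G X hX.1.1, grp G Y hY.1.1⁆ = ⊥ ∨ Cfsg.IsRankOnePair (grp G X hX.1.1) (grp G Y hY.1.1) ∨
      Cfsg.RootCommutatorCase S (grp G X hX.1.1) (grp G Y hY.1.1) := by
  have h2 : (2 : k) ≠ 0 := Ring.two_ne_zero hk2
  by_cases h : X * Y * X = 0
  swap
  · exact Or.inr (Or.inl (isRankOnePair hk2 hk3 hX hY h))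
  by_cases hne : X * Y = Y * X
  · exact Or.inl (commute_grp h2 hX hY hne)
  right; right
  obtain ⟨hA, -⟩ := class2 h2 hX hY h hne
  have e := commutator_eq hk2 hk3 hG hX hY h hne hA.1.1
  unfold Cfsg.RootCommutatorCase
  rw [e]
  exact ⟨hS h hne hA.1.1, fun c hc x hx => comm_central hk2 hk3 hG hX hY h hne hA.1.1 hc hx,
    fun a ha ha1 => closure_eq_left hk2 hk3 hG hX hY h hne hA.1.1 ha ha1,
    fun b hb hb1 => closure_eq_right hk2 hk3 hG hX hY h hne hA.1.1 hb hb1⟩

theorem grp_ne_bot (hX : Root G X) : grp G X hX.1.1 ≠ ⊥ := fun e =>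
  uni_ne_one hX.1.1 hX.2.1 ((Subgroup.eq_bot_iff_forall _).mp e _ (uni_mem_grp hX.mem_cls))

theorem four_le_card (hk2 : ringChar k ≠ 2) (hk3 : Nat.card k ≠ 3) : 3 < ENat.card k := by
  rcases finite_or_infinite k with h | h
  · letI := Fintype.ofFinite k
    rw [ENat.card_eq_coe_fintype_card]
    rw [Nat.card_eq_fintype_card] at hk3
    have h1 := Fintype.one_lt_card (α := k)
    have h2 : Fintype.card k ≠ 2 := fun e => Ring.two_ne_zero hk2 (by
      have := Nat.cast_card_eq_zero k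
      rw [e] at this
      simpa using this)
    exact_mod_cast (show 3 < Fintype.card k by omega)
  · rw [ENat.card_eq_top_of_infinite]
    decide

/-- A rank one pair contains an image of `SL₂`. -/
theorem psl_pair (hk2 : ringChar k ≠ 2) (hk3 : Nat.card k ≠ 3) (hX : Root G X) (hY : Root G Y)
    (h : X * Y * X ≠ 0) : ∃ A₀ B₀ : Subgroup (LinearMap.GeneralLinearGroup k M),
      A₀ ≤ grp G X hX.1.1 ∧ B₀ ≤ grp G Y hY.1.1 ∧
      ∃ (k₁ : Type u) (_ : Field k₁), 3 < ENat.card k₁ ∧ Cfsg.IsPSL2PairOver k₁ A₀ B₀ := by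
  obtain ⟨R, i1, i2, i3, C, hfield, hE, -, -, -, -, hr, hk, heq⟩ := exists_split hk2 hk3 hX hY.1 h
  rw [heq hY] at hr hk
  letI : Field R := hfield.toField
  have hXX := hX.1.1
  have hYY := hY.1.1
  have hm := fun r => rep_mem C hXX hYY hk2 hk3 G (fun c => (hX.1.smul c).uni_mem) (fun c => (hY.1.smul c).uni_mem) r
  have hup : ∀ r, C.rep hXX hYY (up r) ∈ grp G X hXX := by
    intro r
    rw [mem_grp, nil, C.rep_up, add_sub_cancel_left]
    refine ⟨⟨by rw [C.comm_left C.E_comm, C.EE hXX, mul_zero], fun c => ⟨_, (hm (algebraMap k R c * r)).1, ?_⟩⟩, ?_, ?_⟩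
    · rw [C.rep_up, ← Algebra.smul_def, map_smul, smul_mul_assoc]
    · rw [C.E_comm, hE]; exact range_mul_le _ _
    · rw [hE]; exact ker_le_ker_mul _ _
  have hlo : ∀ r, C.rep hXX hYY (lo r) ∈ grp G Y hYY := by
    intro r
    rw [mem_grp, nil, C.rep_lo, add_sub_cancel_left]
    refine ⟨⟨by rw [C.comm_left C.F_comm, C.FF hYY, mul_zero], fun c => ⟨_, (hm (algebraMap k R c * r)).2, ?_⟩⟩, ?_, ?_⟩
    · rw [C.rep_lo, ← Algebra.smul_def, map_smul, smul_mul_assoc]
    · rw [C.F_comm, hr]; exact range_mul_le _ _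
    · rw [hk]; exact ker_le_ker_mul _ _
  refine ⟨(Cfsg.upperUnipotentSL2 R).map (C.rep hXX hYY), (Cfsg.lowerUnipotentSL2 R).map (C.rep hXX hYY), ?_, ?_,
    R, inferInstance, ?_, C.rep hXX hYY, ?_, ?_, rfl, rfl⟩
  · rw [Subgroup.map_le_iff_le_comap, Cfsg.upperUnipotentSL2, Subgroup.closure_le]
    rintro g ⟨h10, h00, h11⟩
    have e : g = up (g 0 1) := ext2 (by simpa [up_val] using h00) (by simp [up_val]) (by simpa [up_val] using h10)
      (by simpa [up_val] using h11)
    rw [e]; exact hup _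
  · rw [Subgroup.map_le_iff_le_comap, Cfsg.lowerUnipotentSL2, Subgroup.closure_le]
    rintro g ⟨h01, h00, h11⟩
    have e : g = lo (g 1 0) := ext2 (by simpa [lo_val] using h00) (by simpa [lo_val] using h01) (by simp [lo_val])
      (by simpa [lo_val] using h11)
    rw [e]; exact hlo _
  · exact (four_le_card hk2 hk3).trans_le (ENat.card_le_card_of_injective (algebraMap k R).injective)
  · rw [← Subgroup.map_sup, MonoidHom.range_eq_map]
    congr 1
    refine (gen_field (k := k) hk2 hk3 (α := C.α) C.unit.ne_zero C.gen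
      (fun c => Subgroup.mem_sup_left (Subgroup.subset_closure ?_))
      (fun c => Subgroup.mem_sup_right (Subgroup.subset_closure ?_))).symm
    · simp [up_val]
    · simp [lo_val]
  · rw [(MonoidHom.ker_eq_bot_iff _).mpr (C.rep_injective hXX hYY)]
    exact bot_le

end Cfsg.Agent.Lib.QuadRoot
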