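import Cfsg.Agent.Lib.QuadRoot.Cocentral
import Cfsg.Agent.Lib.QuadRoot.RootSet

/-! The classes of quadratic root subgroups. -/

set_option autoImplicit false

namespace Cfsg.Agent.Lib.QuadRoot

open scoped commutatorElement

universe u v

variable {k : Type u} [Field k] {M : Type v} [AddCommGroup M] [Module k M] [FiniteDimensional k M]
  {G : Subgroup (LinearMap.GeneralLinearGroup k M)} {X Y Z : Module.End k M}

/-- non-commuting roots -/
def Adj (G : Subgroup (LinearMap.GeneralLinearGroup k M)) (X Y : Module.End k M) : Prop :=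
  Root G X ∧ Root G Y ∧ X * Y ≠ Y * X

/-- connected roots -/
def Conn (G : Subgroup (LinearMap.GeneralLinearGroup k M)) (X Y : Module.End k M) : Prop :=
  Relation.ReflTransGen (Adj G) X Y

/-- the part of a root -/
def part (G : Subgroup (LinearMap.GeneralLinearGroup k M)) (X : Module.End k M) :
    Set (Subgroup (LinearMap.GeneralLinearGroup k M)) :=
  {A | ∃ (Y : Module.End k M) (h : Root G Y), Conn G X Y ∧ A = grp G Y h.1.1}

/-- the group of a part -/
abbrev partGrp (G : Subgroup (LinearMap.GeneralLinearGroup k M)) (X : Module.End k M) :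
    Subgroup (LinearMap.GeneralLinearGroup k M) :=
  ⨆ A ∈ part G X, A

omit [FiniteDimensional k M] in
theorem Adj.symm (h : Adj G X Y) : Adj G Y X := ⟨h.2.1, h.1, h.2.2.symm⟩

omit [FiniteDimensional k M] in
theorem Conn.symm (h : Conn G X Y) : Conn G Y X := by
  induction h with
  | refl => exact Relation.ReflTransGen.refl
  | tail _ h' ih => exact Relation.ReflTransGen.head h'.symm ih

omit [FiniteDimensional k M] in
theorem Conn.trans (h : Conn G X Y) (h' : Conn G Y Z) : Conn G X Z := Relation.ReflTransGen.trans h h'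

omit [FiniteDimensional k M] in
theorem Adj.cj (h : Adj G X Y) {g : LinearMap.GeneralLinearGroup k M} (hg : g ∈ G) :
    Adj G (cj g X) (cj g Y) := by
  refine ⟨h.1.cj hg, h.2.1.cj hg, fun e => h.2.2 ?_⟩
  rw [← cj_mul, ← cj_mul] at e
  exact cj_injective g e

omit [FiniteDimensional k M] in
theorem Conn.cj (h : Conn G X Y) {g : LinearMap.GeneralLinearGroup k M} (hg : g ∈ G) :
    Conn G (cj g X) (cj g Y) := by
  induction h with
  | refl => exact Relation.ReflTransGen.refl
  | tail _ h' ih => exact Relation.ReflTransGen.tail ih (h'.cj hg)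

omit [FiniteDimensional k M] in
theorem noncomm_of_sandwich (hX : X * X = 0) (h : X * Y * X ≠ 0) : X * Y ≠ Y * X := fun e =>
  h (by rw [e, mul_assoc, hX, mul_zero])

theorem conn_of_same (hG : NoUnip G) (h2 : (2 : k) ≠ 0) (hX : Root G X) (hY : Root G Y) (hs : Same X Y) :
    Conn G X Y := by
  obtain ⟨W, hW, h⟩ := exists_partner hG hX
  have hne := noncomm_of_sandwich hX.1.1 h
  refine Relation.ReflTransGen.head ⟨hX, hW, hne⟩ (Relation.ReflTransGen.single ⟨hW, hY, ?_⟩)
  exact fun e => hne (comm_of_same h2 hY hW hX hs e.symm)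

omit [FiniteDimensional k M] in
theorem cj_uni_of_comm (hZ : Z * Z = 0) (hc : Z * X = X * Z) : cj (uni Z hZ) X = X := by
  simp only [cj, coe_uni, coe_uni_inv]
  rw [add_mul, one_mul, mul_sub, mul_one, add_mul, hc, mul_assoc X Z Z, hZ, mul_zero, add_zero]
  abel

theorem conn_cj_uni (hX : Root G X) (hZ : Root G Z) : Conn G X (cj (uni Z hZ.1.1) X) := by
  by_cases hc : Z * X = X * Z
  · rw [cj_uni_of_comm hZ.1.1 hc]; exact Relation.ReflTransGen.refl
  have h1 : Adj G X Z := ⟨hX, hZ, fun e => hc e.symm⟩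
  have h2 := (h1.cj hZ.1.uni_mem).symm
  rw [cj_uni_of_comm hZ.1.1 (rfl : Z * Z = Z * Z)] at h2
  exact Relation.ReflTransGen.head h1 (Relation.ReflTransGen.single h2)

theorem conn_cj (hk2 : ringChar k ≠ 2) (hk3 : Nat.card k ≠ 3) (hG : NoUnip G)
    (hgen : Subgroup.closure (Cfsg.quadraticElements G) = G) {g : LinearMap.GeneralLinearGroup k M}
    (hg : g ∈ G) (hX : Root G X) : Conn G X (cj g X) := by
  let S : Subgroup (LinearMap.GeneralLinearGroup k M) :=
    { carrier := {g | g ∈ G ∧ ∀ X, Root G X → Conn G X (cj g X)}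
      one_mem' := ⟨one_mem _, fun X _ => by rw [one_cj]; exact Relation.ReflTransGen.refl⟩
      mul_mem' := fun {a b} ha hb => ⟨mul_mem ha.1 hb.1, fun X hX => by
        rw [← cj_cj]; exact (hb.2 X hX).trans (ha.2 _ (hX.cj hb.1))⟩
      inv_mem' := fun {a} ha => ⟨inv_mem ha.1, fun X hX => by
        have := ha.2 _ (hX.cj (inv_mem ha.1))
        rw [cj_cj, mul_inv_cancel, one_cj] at this
        exact this.symm⟩ }
  suffices h : G ≤ S from (h hg).2 X hX
  conv_lhs => rw [← cocentral hk2 hk3 hG hgen]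
  refine sup_le (iSup₂_le fun B hB => ?_) ?_
  · obtain ⟨Z, hZ, rfl⟩ := mem_quadraticRootSubgroups.mp hB
    intro e he
    refine ⟨grp_le _ he, fun X hX => ?_⟩
    by_cases h0 : nil e = 0
    · rw [show e = 1 from Units.ext (sub_eq_zero.mp h0), one_cj]; exact Relation.ReflTransGen.refl
    obtain ⟨hr, -⟩ := hZ.same_of_mem_cls (mem_grp.mp he) h0
    rw [eq_uni hr.1.1]
    exact conn_cj_uni hX hr
  · rintro e ⟨he, hc⟩
    refine ⟨he, fun X hX => ?_⟩
    have h' := hc _ (grp_le_rootGrp hX (uni_mem_grp hX.mem_cls))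
    have : cj e X = X := by
      have h2' : cj e (1 + X) = 1 + X := by
        rw [← coe_uni hX.1.1, ← cj_coe, ← h', mul_inv_cancel_right]
      rw [cj_add, cj_one] at h2'
      exact add_left_cancel h2'
    rw [this]; exact Relation.ReflTransGen.refl

theorem grp_le_partGrp (hY : Root G Y) (h : Conn G X Y) : grp G Y hY.1.1 ≤ partGrp G X :=
  le_iSup₂ (f := fun A _ => A) _ (⟨Y, hY, h, rfl⟩ : grp G Y hY.1.1 ∈ part G X)

theorem uni_mem_partGrp (hY : Root G Y) (h : Conn G X Y) : uni Y hY.1.1 ∈ partGrp G X :=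
  grp_le_partGrp hY h (uni_mem_grp hY.mem_cls)

theorem partGrp_le : partGrp G X ≤ G := iSup₂_le fun _ ⟨_, _, _, e⟩ => e ▸ grp_le _

theorem partGrp_le_rootGrp : partGrp G X ≤ rootGrp G := iSup₂_le fun _ ⟨_, hY, _, e⟩ => e ▸ grp_le_rootGrp hY

omit [FiniteDimensional k M] in
theorem part_eq_of_conn (h : Conn G X Y) : part G X = part G Y := by
  ext A
  exact ⟨fun ⟨Z, hZ, hc, e⟩ => ⟨Z, hZ, h.symm.trans hc, e⟩, fun ⟨Z, hZ, hc, e⟩ => ⟨Z, hZ, h.trans hc, e⟩⟩

omit [FiniteDimensional k M] in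
theorem partGrp_eq_of_conn (h : Conn G X Y) : partGrp G X = partGrp G Y := by
  unfold partGrp; rw [part_eq_of_conn h]

theorem part_conj (hk2 : ringChar k ≠ 2) (hk3 : Nat.card k ≠ 3) (hG : NoUnip G)
    (hgen : Subgroup.closure (Cfsg.quadraticElements G) = G) {g : LinearMap.GeneralLinearGroup k M}
    (hg : g ∈ G) {A : Subgroup (LinearMap.GeneralLinearGroup k M)} (hA : A ∈ part G X) :
    Cfsg.conjBy A g ∈ part G X := by
  obtain ⟨Y, hY, hc, rfl⟩ := hA
  exact ⟨_, hY.cj hg, hc.trans (conn_cj hk2 hk3 hG hgen hg hY), conjBy_grp hY.1.1 hg _⟩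

theorem partGrp_conj (hk2 : ringChar k ≠ 2) (hk3 : Nat.card k ≠ 3) (hG : NoUnip G)
    (hgen : Subgroup.closure (Cfsg.quadraticElements G) = G) {g : LinearMap.GeneralLinearGroup k M}
    (hg : g ∈ G) : Cfsg.conjBy (partGrp G X) g = partGrp G X := by
  have key : ∀ g ∈ G, Cfsg.conjBy (partGrp G X) g ≤ partGrp G X := by
    intro g hg
    simp only [Cfsg.conjBy, partGrp, Subgroup.map_iSup]
    exact iSup₂_le fun A hA => le_iSup₂ (f := fun A _ => A) _ (part_conj hk2 hk3 hG hgen hg hA)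
  refine le_antisymm (key g hg) fun x hx => ?_
  refine ⟨g⁻¹ * x * g, key g⁻¹ (inv_mem hg) ⟨x, hx, ?_⟩, ?_⟩
  · simp
  · simp [mul_assoc]

theorem conn_comm (h2 : (2 : k) ≠ 0) (hG : NoUnip G) (hX : Root G X) (hY : Root G Y) (h : X * Y * X = 0)
    (hne : X * Y ≠ Y * X) : Conn G X (Y * X - X * Y) := by
  obtain ⟨hA, -⟩ := class2 h2 hX hY h hne
  set A := Y * X - X * Y with hAdef
  obtain ⟨W, hW, hAW⟩ := exists_partner hG hA
  have hWA : W * A * W ≠ 0 := fun e => hAW (sandwich_symm h2 hA hW.1 e)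
  have hadj : Adj G W A := ⟨hW, hA, noncomm_of_sandwich hW.1.1 hWA⟩
  by_cases hWX : W * X * W = 0
  · have hs := sandwich_symm h2 hY hX.1 h
    have e : cj (uni Y hY.1.1) X = X + A := by
      simp only [cj, coe_uni, coe_uni_inv, hAdef]
      rw [add_mul, one_mul, mul_sub, mul_one, add_mul, hs]; abel
    have hX' : Root G (X + A) := e ▸ hX.cj hY.1.uni_mem
    have hW' : W * (X + A) * W ≠ 0 := by rwa [mul_add, add_mul, hWX, zero_add]
    have h1 : Conn G X (X + A) := e ▸ conn_cj_uni hX hY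
    exact h1.trans (Relation.ReflTransGen.head (Adj.symm ⟨hW, hX', noncomm_of_sandwich hW.1.1 hW'⟩)
      (Relation.ReflTransGen.single hadj))
  · exact Relation.ReflTransGen.head (Adj.symm ⟨hW, hX, noncomm_of_sandwich hW.1.1 hWX⟩)
      (Relation.ReflTransGen.single hadj)

/-- partners are conjugate under any group containing both root groups -/
theorem rel_partner (hk2 : ringChar k ≠ 2) (hk3 : Nat.card k ≠ 3) (hX : Root G X) (hY : Root G Y)
    (h : X * Y * X ≠ 0) {H : Subgroup (LinearMap.GeneralLinearGroup k M)} (hHX : grp G X hX.1.1 ≤ H)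
    (hHY : grp G Y hY.1.1 ≤ H) : Rel H X Y := by
  obtain ⟨F, hF, e1, e2, hr, hk⟩ := exists_inverse hk2 hk3 hX hY h
  refine ⟨uni X hX.1.1 * (uni F hF.1.1)⁻¹ * uni X hX.1.1, ?_, ?_⟩
  · have m1 := hHX (uni_mem_grp hX.mem_cls)
    have m2 := hHY (uni_mem_grp (mem_cls_of_same (hX := hY.1.1) hF.1 ⟨hr, hk⟩))
    exact mul_mem (mul_mem m1 (inv_mem m2)) m1
  · rw [conj_neg_inverse hX.1.1 hF.1.1 e1 e2]
    exact (same_neg F).trans ⟨hr, hk⟩

theorem rel_to_comm (hk2 : ringChar k ≠ 2) (hk3 : Nat.card k ≠ 3) (hG : NoUnip G) (hX : Root G X) (hY : Root G Y)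
    (h : X * Y * X = 0) (hne : X * Y ≠ Y * X) {X₀ : Module.End k M} (hc : Conn G X₀ X) :
    Rel (partGrp G X₀) X (Y * X - X * Y) := by
  have h2 : (2 : k) ≠ 0 := Ring.two_ne_zero hk2
  obtain ⟨hA, -⟩ := class2 h2 hX hY h hne
  have hcA := hc.trans (conn_comm h2 hG hX hY h hne)
  set A := Y * X - X * Y with hAdef
  obtain ⟨W, hW, hAW⟩ := exists_partner hG hA
  have hcW : Conn G X₀ W := hcA.tail ⟨hA, hW, noncomm_of_sandwich hA.1.1 hAW⟩
  have hWA : W * A * W ≠ 0 := fun e => hAW (sandwich_symm h2 hA hW.1 e)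
  have r1 := rel_partner hk2 hk3 hW hA hWA (grp_le_partGrp hW hcW) (grp_le_partGrp hA hcA)
  by_cases hWX : W * X * W = 0
  · have hs := sandwich_symm h2 hY hX.1 h
    have e : cj (uni Y hY.1.1) X = X + A := by
      simp only [cj, coe_uni, coe_uni_inv, hAdef]
      rw [add_mul, one_mul, mul_sub, mul_one, add_mul, hs]; abel
    have hX' : Root G (X + A) := e ▸ hX.cj hY.1.uni_mem
    have hcX' : Conn G X₀ (X + A) := hc.trans (e ▸ conn_cj_uni hX hY)
    have hW' : W * (X + A) * W ≠ 0 := by rwa [mul_add, add_mul, hWX, zero_add]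
    have hcY : Conn G X₀ Y := hc.tail ⟨hX, hY, hne⟩
    refine Rel.trans (Y := X + A) ⟨uni Y hY.1.1, uni_mem_partGrp hY hcY, by rw [e]; exact Same.refl _⟩ ?_
    exact (rel_partner hk2 hk3 hW hX' hW' (grp_le_partGrp hW hcW) (grp_le_partGrp hX' hcX')).symm.trans r1
  · exact (rel_partner hk2 hk3 hW hX hWX (grp_le_partGrp hW hcW) (grp_le_partGrp hX hc)).symm.trans r1

theorem rel_of_conn (hk2 : ringChar k ≠ 2) (hk3 : Nat.card k ≠ 3) (hG : NoUnip G) (h : Conn G X Y) :
    Rel (partGrp G X) X Y := by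
  induction h with
  | refl => exact Rel.refl X
  | @tail a b hab hadj ih =>
    obtain ⟨ha, hb, hne⟩ := hadj
    refine ih.trans ?_
    by_cases h : a * b * a = 0
    · have hcb : Conn G X b := Relation.ReflTransGen.tail hab ⟨ha, hb, hne⟩
      refine (rel_to_comm hk2 hk3 hG ha hb h hne hab).trans (Rel.trans ?_
        (rel_to_comm hk2 hk3 hG hb ha (sandwich_symm (Ring.two_ne_zero hk2) hb ha.1 h) hne.symm hcb).symm)
      rw [← neg_sub (a * b) (b * a)]
      exact (same_neg _).rel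
    · exact rel_partner hk2 hk3 ha hb h (grp_le_partGrp ha hab)
        (grp_le_partGrp hb (Relation.ReflTransGen.tail hab ⟨ha, hb, hne⟩))

theorem grp_comm_of_not_conn (hX : Root G X) (hY : Root G Y) (h : ¬ Conn G X Y) : X * Y = Y * X := by
  by_contra hne
  exact h (Relation.ReflTransGen.single ⟨hX, hY, hne⟩)

theorem partGrp_comm (h2 : (2 : k) ≠ 0) (h : ¬ Conn G X Y) : ⁅partGrp G X, partGrp G Y⁆ = ⊥ := by
  rw [Subgroup.commutator_eq_bot_iff_le_centralizer]
  refine iSup₂_le fun A ⟨Z, hZ, hcZ, eA⟩ => ?_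
  subst eA
  rw [Subgroup.le_centralizer_iff]
  refine iSup₂_le fun B ⟨W, hW, hcW, eB⟩ => ?_
  subst eB
  rw [Subgroup.le_centralizer_iff, ← Subgroup.commutator_eq_bot_iff_le_centralizer]
  refine commute_grp h2 hZ hW (grp_comm_of_not_conn hZ hW fun hc => h ?_)
  exact (hcZ.trans hc).trans hcW.symm

/-- Roots of pairwise different parts are linearly independent. -/
theorem finite_parts (h2 : (2 : k) ≠ 0) (hG : NoUnip G) :
    ∃ reps : Set (Module.End k M), reps.Finite ∧ (∀ X ∈ reps, Root G X) ∧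
      (∀ Y, Root G Y → ∃ X ∈ reps, Conn G X Y) ∧ ∀ X ∈ reps, ∀ Y ∈ reps, Conn G X Y → X = Y := by
  let s : Setoid {X : Module.End k M // Root G X} :=
    ⟨fun a b => Conn G a.1 b.1, fun a => Relation.ReflTransGen.refl, Conn.symm, Conn.trans⟩
  have hout : ∀ q q' : Quotient s, Conn G q.out.1 q'.out.1 → q = q' := fun q q' h => by
    rw [← Quotient.out_eq q, ← Quotient.out_eq q']
    exact Quotient.sound h
  have hli : LinearIndependent k (fun q : Quotient s => q.out.1) := by
    rw [linearIndependent_iff_notMem_span]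
    intro q hq
    obtain ⟨F, hF, hqF⟩ := exists_partner hG q.out.2
    refine noncomm_of_sandwich q.out.2.1.1 hqF ?_
    generalize hv : q.out.1 = v at hq ⊢
    clear hv
    induction hq using Submodule.span_induction with
    | mem x hx =>
      obtain ⟨q', hq', rfl⟩ := hx
      refine grp_comm_of_not_conn q'.out.2 hF fun hc => hq'.2 ?_
      exact hout q' q (hc.trans (Relation.ReflTransGen.single (Adj.symm ⟨q.out.2, hF, noncomm_of_sandwich q.out.2.1.1 hqF⟩)))
    | zero => simp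
    | add x y _ _ hx hy => rw [add_mul, mul_add, hx, hy]
    | smul c x _ hx => rw [smul_mul_assoc, mul_smul_comm, hx]
  haveI : Finite (Quotient s) := hli.finite
  refine ⟨Set.range (fun q : Quotient s => q.out.1), Set.finite_range _, ?_, ?_, ?_⟩
  · rintro _ ⟨q, rfl⟩; exact q.out.2
  · intro Y hY
    exact ⟨_, ⟨Quotient.mk s ⟨Y, hY⟩, rfl⟩, Quotient.mk_out (s := s) ⟨Y, hY⟩⟩
  · rintro _ ⟨q, rfl⟩ _ ⟨q', rfl⟩ h
    show q.out.1 = q'.out.1
    rw [hout q q' h]

end Cfsg.Agent.Lib.QuadRoot
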