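import Cfsg.Agent.Lib.QuadRoot.Sigma

/-! Rank one pairs of root subgroups. -/

set_option autoImplicit false

namespace Cfsg.Agent.Lib.QuadRoot

open scoped commutatorElement

universe u v

variable {k : Type u} [Field k] {M : Type v} [AddCommGroup M] [Module k M] [FiniteDimensional k M]
  {G : Subgroup (LinearMap.GeneralLinearGroup k M)} {X Y Z F : Module.End k M}

omit [FiniteDimensional k M] in
theorem nil_ne_zero {a : LinearMap.GeneralLinearGroup k M} (ha : a ≠ 1) : nil a ≠ 0 :=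
  fun e => ha (Units.ext (sub_eq_zero.mp e))

omit [FiniteDimensional k M] in
theorem uni_ne_one (h : X * X = 0) (h0 : X ≠ 0) : uni X h ≠ 1 :=
  fun e => h0 (by rw [← nil_uni h, e]; simp [nil])

omit [FiniteDimensional k M] in
theorem cj_uni_inv (hF : F * F = 0) (Z : Module.End k M) :
    cj (uni F hF)⁻¹ Z = Z + Z * F - F * Z - F * Z * F := by
  simp only [cj, inv_inv, coe_uni, coe_uni_inv]
  noncomm_ring

theorem sandwich_ne_cls (h2 : (2 : k) ≠ 0) (hX : Root G X) (hY : Root G Y) (h : X * Y * X ≠ 0)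
    {X' Y' : Module.End k M} (hX' : X' ∈ cls G X hX.1.1) (hY' : Y' ∈ cls G Y hY.1.1) (hx0 : X' ≠ 0)
    (hy0 : Y' ≠ 0) : X' * Y' * X' ≠ 0 := by
  intro h'
  obtain ⟨hXr, hXs⟩ := hX.same_of_mem_cls hX' hx0
  obtain ⟨hYr, hYs⟩ := hY.same_of_mem_cls hY' hy0
  exact h (sandwich_cls h2 hXr hYr h' (mem_cls_of_same hX.1 hXs.symm) (mem_cls_of_same hY.1 hYs.symm)).1

/-- The inverse of a member of the class. -/
theorem exists_inverse_cls (hk2 : ringChar k ≠ 2) (hk3 : Nat.card k ≠ 3) (hX : Root G X) (hY : Root G Y)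
    (h : X * Y * X ≠ 0) {X' : Module.End k M} (hX' : X' ∈ cls G X hX.1.1) (hx0 : X' ≠ 0) :
    ∃ F ∈ cls G Y hY.1.1, F ≠ 0 ∧ X' * F * X' = X' ∧ F * X' * F = F := by
  obtain ⟨hXr, -⟩ := hX.same_of_mem_cls hX' hx0
  obtain ⟨F, hF, e1, e2, hr, hk⟩ := exists_inverse hk2 hk3 hXr hY
    (sandwich_ne_cls (Ring.two_ne_zero hk2) hX hY h hX' hY.mem_cls hx0 hY.2.1)
  exact ⟨F, mem_cls_of_same hF.1 ⟨hr, hk⟩, hF.2.1, e1, e2⟩

theorem conj_eq_of_inverse (hX : Root G X) (hY : Root G Y) {X' : Module.End k M}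
    (hX' : X' ∈ cls G X hX.1.1) (hx0 : X' ≠ 0) (hF : F ∈ cls G Y hY.1.1) (hF0 : F ≠ 0)
    (e1 : X' * F * X' = X') (e2 : F * X' * F = F) :
    Cfsg.conjBy (grp G X hX.1.1) (uni F hF.1.1)⁻¹ = Cfsg.conjBy (grp G Y hY.1.1) (uni X' hX'.1.1)⁻¹ := by
  have hb := inv_mem hF.1.uni_mem
  have ha := inv_mem hX'.1.uni_mem
  rw [conjBy_grp hX.1.1 hb (hX.1.cj hb).1, conjBy_grp hY.1.1 ha (hY.1.cj ha).1]
  obtain ⟨-, hXs⟩ := hX.same_of_mem_cls hX' hx0
  obtain ⟨-, hYs⟩ := hY.same_of_mem_cls hF hF0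
  refine grp_congr ((hXs.symm.cj _).trans (Same.trans ?_ (hYs.cj _)))
  rw [cj_uni_inv, cj_uni_inv, e1, e2,
    show F + F * X' - X' * F - X' = -(X' + X' * F - F * X' - F) by abel]
  exact (same_neg _).symm

omit [FiniteDimensional k M] in
theorem special_identity (hX : X * X = 0) (hF : F * F = 0) (e1 : X * F * X = X) (e2 : F * X * F = F) :
    (uni F hF)⁻¹ * uni X hX * uni F hF = (uni X hX)⁻¹ * (uni F hF)⁻¹ * uni X hX := by
  refine Units.ext ?_
  simp only [Units.val_mul, coe_uni, coe_uni_inv]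
  calc (1 - F) * (1 + X) * (1 + F) = 1 - F * F + (X + X * F - F * X - F * X * F) := by noncomm_ring
    _ = 1 - X * X - (F + F * X - X * F - X * F * X) := by rw [e1, e2, hX, hF]; abel
    _ = (1 - X) * (1 - F) * (1 + X) := by noncomm_ring

theorem rankOne_cond (hk2 : ringChar k ≠ 2) (hk3 : Nat.card k ≠ 3) (hX : Root G X) (hY : Root G Y)
    (h : X * Y * X ≠ 0) : Cfsg.RankOneCondition (grp G X hX.1.1) (grp G Y hY.1.1) := by
  intro a ha ha1
  obtain ⟨F, hF, hF0, e1, e2⟩ := exists_inverse_cls hk2 hk3 hX hY h (mem_grp.mp ha) (nil_ne_zero ha1)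
  refine ⟨uni F hF.1.1, uni_mem_grp hF, uni_ne_one _ hF0, ?_⟩
  have := conj_eq_of_inverse hX hY (mem_grp.mp ha) (nil_ne_zero ha1) hF hF0 e1 e2
  rwa [← eq_uni (mem_grp.mp ha).1.1] at this

theorem grp_isMulCommutative (h2 : (2 : k) ≠ 0) (hX : Root G X) : IsMulCommutative (grp G X hX.1.1) :=
  ⟨⟨fun a b => Subtype.ext (grp_mul_comm h2 hX hX rfl a.2 b.2)⟩⟩

theorem grp_isNilpotent (h2 : (2 : k) ≠ 0) (hX : Root G X) : Group.IsNilpotent (grp G X hX.1.1) :=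
  letI : CommGroup (grp G X hX.1.1) :=
    { mul_comm := fun a b => Subtype.ext (grp_mul_comm h2 hX hX rfl a.2 b.2) }
  CommGroup.isNilpotent

theorem isRankOnePair (hk2 : ringChar k ≠ 2) (hk3 : Nat.card k ≠ 3) (hX : Root G X) (hY : Root G Y)
    (h : X * Y * X ≠ 0) : Cfsg.IsRankOnePair (grp G X hX.1.1) (grp G Y hY.1.1) := by
  have h2 : (2 : k) ≠ 0 := Ring.two_ne_zero hk2
  refine ⟨?_, grp_isNilpotent h2 hX, grp_isNilpotent h2 hY, rankOne_cond hk2 hk3 hX hY h,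
    rankOne_cond hk2 hk3 hY hX fun e => h (sandwich_symm h2 hX hY.1 e)⟩
  intro e
  have hx : nil (uni X hX.1.1) ∈ cls G Y hY.1.1 := mem_grp.mp (e ▸ uni_mem_grp hX.mem_cls)
  rw [nil_uni] at hx
  refine h ?_
  rw [mul_eq_zero_iff_range_le_ker.mpr ((range_le_ker hY.1.1).trans hx.2.2), zero_mul]

theorem eq_inverse (hX : Root G X) (hY : Root G Y) {X' Y' : Module.End k M}
    (hX' : X' ∈ cls G X hX.1.1) (hx0 : X' ≠ 0) (hY' : Y' ∈ cls G Y hY.1.1) (hF : F ∈ cls G Y hY.1.1)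
    (hF0 : F ≠ 0) (e1 : X' * F * X' = X') (e2 : F * X' * F = F)
    (he : Cfsg.conjBy (grp G X hX.1.1) (uni Y' hY'.1.1)⁻¹ = Cfsg.conjBy (grp G Y hY.1.1) (uni X' hX'.1.1)⁻¹) :
    Y' = F := by
  rw [← conj_eq_of_inverse hX hY hX' hx0 hF hF0 e1 e2, conjBy_grp hX.1.1 (inv_mem hY'.1.uni_mem)
    (hX.1.cj (inv_mem hY'.1.uni_mem)).1, conjBy_grp hX.1.1 (inv_mem hF.1.uni_mem)
    (hX.1.cj (inv_mem hF.1.uni_mem)).1] at he
  have hc := congrArg Cfsg.commutatorSubmodule he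
  rw [grp_commutator (hX.cj (inv_mem hY'.1.uni_mem)), grp_commutator (hX.cj (inv_mem hF.1.uni_mem)),
    range_cj, range_cj, ← (hX.same_of_mem_cls hX' hx0).2.1] at hc
  obtain ⟨-, hYs⟩ := hY.same_of_mem_cls hF hF0
  have hYF : Y' * X' = F * X' := by
    refine LinearMap.ext fun n => ?_
    obtain ⟨w, hw, hw'⟩ : ((uni F hF.1.1)⁻¹ : LinearMap.GeneralLinearGroup k M).val (X' n) ∈
        (LinearMap.range X').map ((uni Y' hY'.1.1)⁻¹ : LinearMap.GeneralLinearGroup k M).val :=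
      hc ▸ ⟨X' n, ⟨n, rfl⟩, rfl⟩
    simp only [coe_uni_inv, LinearMap.sub_apply, Module.End.one_apply] at hw'
    obtain ⟨j, hj⟩ : F (X' n) - Y' w ∈ LinearMap.range F := by
      refine Submodule.sub_mem _ ⟨_, rfl⟩ ?_
      rw [hYs.1]
      exact hY'.2.1 ⟨w, rfl⟩
    have hd : X' n - w = F (X' n) - Y' w := by linear_combination (norm := abel) -hw'
    obtain ⟨i, rfl⟩ := hw
    have hj0 : F j = 0 := by
      rw [← e2]
      show F (X' (F j)) = 0
      rw [hj, ← hd, ← map_sub]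
      show F ((X' * X') (n - i)) = 0
      rw [hX'.1.1]; simp
    rw [hj0] at hj
    have hw0 : X' n = X' i := sub_eq_zero.mp (hd.trans hj.symm)
    show Y' (X' n) = F (X' n)
    rw [sub_eq_zero.mp hj.symm, ← hw0]
  have : Y' * (1 - X' * F) = 0 := by
    rw [mul_eq_zero_iff_range_le_ker]
    refine le_trans ?_ (hY'.2.2)
    rw [← hYs.2, ← mul_eq_zero_iff_range_le_ker, mul_sub, mul_one, ← mul_assoc, e2, sub_self]
  rw [mul_sub, mul_one, ← mul_assoc, hYF, e2, sub_eq_zero] at this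
  exact this

theorem isSpecialRankOnePair (hk2 : ringChar k ≠ 2) (hk3 : Nat.card k ≠ 3) (hX : Root G X) (hY : Root G Y)
    (h : X * Y * X ≠ 0) : Cfsg.IsSpecialRankOnePair (grp G X hX.1.1) (grp G Y hY.1.1) := by
  refine ⟨isRankOnePair hk2 hk3 hX hY h, fun a ha ha1 b hb hb1 he => ?_⟩
  have hA := eq_uni (mem_grp.mp ha).1.1
  have hB := eq_uni (mem_grp.mp hb).1.1
  obtain ⟨F, hF, hF0, e1, e2⟩ := exists_inverse_cls hk2 hk3 hX hY h (mem_grp.mp ha) (nil_ne_zero ha1)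
  rw [hA, hB] at he
  have hy : nil b = F := eq_inverse hX hY (mem_grp.mp ha) (nil_ne_zero ha1) (mem_grp.mp hb) hF hF0 e1 e2 he
  rw [hA, hB]
  subst hy
  exact special_identity _ _ e1 e2

/-- A rank one pair has non-vanishing sandwiches. -/
theorem sandwich_ne_of_rankOne (hk2 : ringChar k ≠ 2) (hX : Root G X) (hY : Root G Y)
    (hp : Cfsg.IsRankOnePair (grp G X hX.1.1) (grp G Y hY.1.1)) : X * Y * X ≠ 0 := by
  have h2 : (2 : k) ≠ 0 := Ring.two_ne_zero hk2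
  intro h
  obtain ⟨b, hb, hb1, he⟩ := hp.cond_left _ (uni_mem_grp hX.mem_cls) (uni_ne_one _ hX.2.1)
  by_cases hne : X * Y = Y * X
  · have key : ∀ (A : Subgroup (LinearMap.GeneralLinearGroup k M)) (g : LinearMap.GeneralLinearGroup k M),
        (∀ a ∈ A, g * a = a * g) → Cfsg.conjBy A g = A := by
      intro A g hc
      ext x
      constructor
      · rintro ⟨y, hy, rfl⟩
        show g * y * g⁻¹ ∈ A
        rw [hc y hy, mul_inv_cancel_right]; exact hy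
      · exact fun hx => ⟨x, hx, by show g * x * g⁻¹ = x; rw [hc x hx, mul_inv_cancel_right]⟩
    rw [key _ _ fun a ha => (grp_mul_comm h2 hX hY hne ha (inv_mem hb)).symm,
      key _ _ fun a ha => grp_mul_comm h2 hX hY hne (inv_mem (uni_mem_grp hX.mem_cls)) ha] at he
    exact hp.ne he
  obtain ⟨-, -, -, a4, -, -⟩ := class2 h2 hX hY h hne
  have hb' := mem_grp.mp hb
  have hgb := inv_mem (eq_uni hb'.1.1 ▸ hb'.1.uni_mem : b ∈ G)
  have hga := inv_mem hX.1.uni_mem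
  rw [conjBy_grp hX.1.1 hgb (hX.1.cj hgb).1, conjBy_grp hY.1.1 hga (hY.1.cj hga).1] at he
  have hc := congrArg Cfsg.commutatorSubmodule he
  rw [grp_commutator (hX.cj hgb), grp_commutator (hY.cj hga), range_cj, range_cj, eq_uni hb'.1.1] at hc
  obtain ⟨s1, s2⟩ := sandwich_cls h2 hX hY h hX.mem_cls hY.mem_cls
  have hI : LinearMap.range X ≤ LinearMap.ker X := range_le_ker hX.1.1
  have hJ : LinearMap.range Y ≤ LinearMap.ker Y := range_le_ker hY.1.1
  have split : ∀ v ∈ LinearMap.range X, ∀ w ∈ LinearMap.range Y, v - nil b v = w - X w →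
      v = -X w ∧ w = -nil b v := by
    intro v hv w hw e
    have e' : v + X w = w + nil b v := by linear_combination (norm := abel) e
    have m1 : v + X w ∈ LinearMap.range X := Submodule.add_mem _ hv ⟨w, rfl⟩
    have m2 : v + X w ∈ LinearMap.range Y := e' ▸ Submodule.add_mem _ hw (hb'.2.1 ⟨v, rfl⟩)
    have z : v + X w = 0 := Submodule.disjoint_def.mp a4 _ ⟨m1, hJ m2⟩ ⟨m2, hI m1⟩
    exact ⟨eq_neg_of_add_eq_zero_left z, eq_neg_of_add_eq_zero_left (e'.symm.trans z)⟩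
  have r1 : Y * X = 0 := by
    refine LinearMap.ext fun m => ?_
    obtain ⟨w, hw, e⟩ : ((uni (nil b) hb'.1.1)⁻¹ : LinearMap.GeneralLinearGroup k M).val (X m) ∈
        (LinearMap.range Y).map ((uni X hX.1.1)⁻¹ : LinearMap.GeneralLinearGroup k M).val :=
      hc ▸ ⟨X m, ⟨m, rfl⟩, rfl⟩
    simp only [coe_uni_inv, LinearMap.sub_apply, Module.End.one_apply] at e
    obtain ⟨z, -⟩ := split _ ⟨m, rfl⟩ w hw e.symm
    obtain ⟨n, rfl⟩ := hw
    show Y (X m) = 0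
    rw [z, map_neg, neg_eq_zero]
    exact LinearMap.congr_fun s2 n
  have r2 : X * Y = 0 := by
    refine LinearMap.ext fun m => ?_
    obtain ⟨v, hv, e⟩ : ((uni X hX.1.1)⁻¹ : LinearMap.GeneralLinearGroup k M).val (Y m) ∈
        (LinearMap.range X).map ((uni (nil b) hb'.1.1)⁻¹ : LinearMap.GeneralLinearGroup k M).val :=
      hc.symm ▸ ⟨Y m, ⟨m, rfl⟩, rfl⟩
    simp only [coe_uni_inv, LinearMap.sub_apply, Module.End.one_apply] at e
    obtain ⟨-, z⟩ := split v hv _ ⟨m, rfl⟩ e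
    obtain ⟨n, rfl⟩ := hv
    show X (Y m) = 0
    rw [z, map_neg, neg_eq_zero]
    exact LinearMap.congr_fun (sandwich_cls h2 hX hY h hX.mem_cls hb').1 n
  exact hne (r2.trans r1.symm)

end Cfsg.Agent.Lib.QuadRoot
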