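import Cfsg.Agent.Lib.QuadRoot.Core

/-! The representation of `SL₂` on the invertible part of two quadratic elements. -/

set_option autoImplicit false

namespace Cfsg.Agent.Lib.QuadRoot

open scoped MatrixGroups

universe u v

variable {k : Type u} [Field k] {M : Type v} [AddCommGroup M] [Module k M]
  {X Y : Module.End k M} {R : Type u} [CommRing R] [Algebra k R] (C : Corner k X Y R)

namespace Corner

/-- the idempotent -/
def e : Module.End k M := C.ι 1

/-- upper unit -/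
def E : Module.End k M := C.ι 1 * X

/-- lower unit -/
noncomputable def F : Module.End k M := Y * C.ι (↑C.unit.unit⁻¹ : R)

theorem comm (r s : R) : C.ι r * C.ι s = C.ι s * C.ι r := by rw [← C.mul, mul_comm, C.mul]

theorem e_mul (r : R) : C.e * C.ι r = C.ι r := by rw [e, ← C.mul, one_mul]

theorem mul_e (r : R) : C.ι r * C.e = C.ι r := by rw [e, ← C.mul, mul_one]

theorem ι_one : C.ι 1 = C.e := rfl

theorem e_sq : C.e * C.e = C.e := C.e_mul 1

theorem inv_α : C.ι (↑C.unit.unit⁻¹ : R) * C.ι C.α = C.e := by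
  rw [← C.mul, IsUnit.val_inv_mul, e]

theorem ι_α : C.ι C.α = (X * Y + Y * X) * C.e := C.eqα

theorem ι_E (r : R) : C.ι r * C.E = C.ι r * X := by
  rw [E, ← mul_assoc, ← C.mul, mul_one]

theorem E_comm (r : R) : C.ι r * C.E = C.E * C.ι r := by
  rw [C.ι_E, E, C.commX, mul_assoc, ← C.commX, ← mul_assoc, ← C.mul, one_mul, C.commX]

theorem F_comm (r : R) : C.ι r * C.F = C.F * C.ι r := by
  rw [F, ← mul_assoc, C.commY, mul_assoc, comm, ← mul_assoc]

theorem e_E : C.e * C.E = C.E := by rw [E, e, ← mul_assoc, ← C.mul, one_mul]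

theorem E_e : C.E * C.e = C.E := by rw [e, ← C.E_comm, ← e, C.e_E]

theorem e_F : C.e * C.F = C.F := by
  rw [F, e, ← mul_assoc, C.commY, mul_assoc, ← C.mul, one_mul]

theorem F_e : C.F * C.e = C.F := by rw [e, ← C.F_comm, ← e, C.e_F]

theorem E_F : C.E * C.F = X * Y * C.ι (↑C.unit.unit⁻¹ : R) := by
  rw [E, F, C.commX, mul_assoc, ← mul_assoc (C.ι 1), C.commY, mul_assoc Y, ← C.mul, one_mul, mul_assoc]

theorem F_E : C.F * C.E = Y * X * C.ι (↑C.unit.unit⁻¹ : R) := by
  rw [E, F, mul_assoc, ← mul_assoc (C.ι _), ← C.mul, mul_one, C.commX, mul_assoc]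

variable (hX : X * X = 0) (hY : Y * Y = 0)

theorem EF_add : C.E * C.F + C.F * C.E = C.e := by
  rw [C.E_F, C.F_E, ← add_mul, ← C.e_mul (↑C.unit.unit⁻¹ : R), ← mul_assoc, ← C.ι_α, ← C.mul,
    IsUnit.mul_val_inv, e]

include hX in
theorem EE : C.E * C.E = 0 := by
  rw [E, mul_assoc, ← mul_assoc X, ← C.commX, mul_assoc, hX, mul_zero, mul_zero]

include hY in
theorem FF : C.F * C.F = 0 := by
  rw [F, mul_assoc, ← mul_assoc (C.ι _) Y, C.commY, ← mul_assoc, ← mul_assoc, hY, zero_mul, zero_mul]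

include hX in
theorem EFE : C.E * C.F * C.E = C.E := by
  calc C.E * C.F * C.E = C.E * (C.E * C.F + C.F * C.E) := by
        rw [mul_add, ← mul_assoc C.E C.E, C.EE hX, zero_mul, zero_add, mul_assoc]
    _ = C.E := by rw [C.EF_add, C.E_e]

include hY in
theorem FEF : C.F * C.E * C.F = C.F := by
  calc C.F * C.E * C.F = C.F * (C.E * C.F + C.F * C.E) := by
        rw [mul_add, ← mul_assoc C.F C.F, C.FF hY, zero_mul, add_zero, mul_assoc]
    _ = C.F := by rw [C.EF_add, C.F_e]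

theorem eY : C.e * Y = C.ι C.α * C.F := by
  rw [F, ← mul_assoc, C.commY, mul_assoc, comm, C.inv_α, e, C.commY]

/-- matrices act on the corner -/
noncomputable def Φ (A : Matrix (Fin 2) (Fin 2) R) : Module.End k M :=
  C.ι (A 0 0) * (C.E * C.F) + C.ι (A 0 1) * C.E + C.ι (A 1 0) * C.F + C.ι (A 1 1) * (C.F * C.E)

theorem comm_left {U : Module.End k M} (hU : ∀ r, C.ι r * U = U * C.ι r) (r s : R) (V : Module.End k M) :
    C.ι r * U * (C.ι s * V) = C.ι (r * s) * (U * V) := by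
  rw [C.mul]; simp only [mul_assoc]; rw [← mul_assoc U, ← hU, mul_assoc]

include hX hY in
theorem Φ_mul (A B : Matrix (Fin 2) (Fin 2) R) : C.Φ (A * B) = C.Φ A * C.Φ B := by
  have hP : ∀ r, C.ι r * (C.E * C.F) = C.E * C.F * C.ι r := fun r => by
    rw [← mul_assoc, C.E_comm, mul_assoc, C.F_comm, mul_assoc]
  have hQ : ∀ r, C.ι r * (C.F * C.E) = C.F * C.E * C.ι r := fun r => by
    rw [← mul_assoc, C.F_comm, mul_assoc, C.E_comm, mul_assoc]
  have a1 : C.E * C.F * (C.E * C.F) = C.E * C.F := by rw [← mul_assoc, C.EFE hX]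
  have a2 : C.E * C.F * C.E = C.E := C.EFE hX
  have a3 : C.E * C.F * C.F = 0 := by rw [mul_assoc, C.FF hY, mul_zero]
  have a4 : C.E * C.F * (C.F * C.E) = 0 := by rw [← mul_assoc, a3, zero_mul]
  have b1 : C.E * (C.E * C.F) = 0 := by rw [← mul_assoc, C.EE hX, zero_mul]
  have b4 : C.E * (C.F * C.E) = C.E := by rw [← mul_assoc, C.EFE hX]
  have c1 : C.F * (C.E * C.F) = C.F := by rw [← mul_assoc, C.FEF hY]
  have c4 : C.F * (C.F * C.E) = 0 := by rw [← mul_assoc, C.FF hY, zero_mul]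
  have d1 : C.F * C.E * (C.E * C.F) = 0 := by rw [mul_assoc, b1, mul_zero]
  have d2 : C.F * C.E * C.E = 0 := by rw [mul_assoc, C.EE hX, mul_zero]
  have d3 : C.F * C.E * C.F = C.F := C.FEF hY
  have d4 : C.F * C.E * (C.F * C.E) = C.F * C.E := by rw [← mul_assoc, C.FEF hY]
  simp only [Φ, Matrix.mul_apply, Fin.sum_univ_two, add_mul, mul_add, map_add,
    C.comm_left hP, C.comm_left hQ, C.comm_left C.E_comm, C.comm_left C.F_comm,
    a1, a2, a3, a4, b1, b4, c1, c4, d1, d2, d3, d4, C.EE hX, C.FF hY, mul_zero, add_zero, zero_add]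
  abel

theorem Φ_one : C.Φ 1 = C.e := by
  simp [Φ, Matrix.one_apply, C.ι_one, ← mul_assoc, C.e_E, C.e_F, C.EF_add]

theorem e_Φ (A : Matrix (Fin 2) (Fin 2) R) : C.e * C.Φ A = C.Φ A := by
  simp only [Φ, mul_add, ← mul_assoc, C.e_mul]

theorem Φ_e (A : Matrix (Fin 2) (Fin 2) R) : C.Φ A * C.e = C.Φ A := by
  simp only [Φ, add_mul, mul_assoc, C.E_e, C.F_e]

/-- the representation -/
noncomputable def rep : SL(2, R) →* LinearMap.GeneralLinearGroup k M :=
  MonoidHom.toHomUnits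
    { toFun := fun g => (1 - C.e) + C.Φ g.1
      map_one' := by simp [C.Φ_one]
      map_mul' := fun g h => by
        rw [Matrix.SpecialLinearGroup.coe_mul, C.Φ_mul hX hY, add_mul, mul_add, mul_add, sub_mul 1 C.e,
          mul_sub, sub_mul, mul_sub, mul_sub]
        simp [C.e_sq, C.e_Φ, C.Φ_e] }

theorem coe_rep (g : SL(2, R)) : (C.rep hX hY g : Module.End k M) = (1 - C.e) + C.Φ g.1 := rfl

theorem rep_mul_e (g : SL(2, R)) : (C.rep hX hY g : Module.End k M) * C.e = C.Φ g.1 := by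
  rw [coe_rep, add_mul, sub_mul, one_mul, C.e_sq, sub_self, zero_add, C.Φ_e]

theorem rep_up (r : R) : (C.rep hX hY (up r) : Module.End k M) = 1 + C.ι r * C.E := by
  have h := C.EF_add
  rw [coe_rep, Φ, up_val]
  simp [C.ι_one, ← mul_assoc, C.e_E, C.e_F]
  rw [← h]
  abel

theorem rep_lo (r : R) : (C.rep hX hY (lo r) : Module.End k M) = 1 + C.ι r * C.F := by
  have h := C.EF_add
  rw [coe_rep, Φ, lo_val]
  simp [C.ι_one, ← mul_assoc, C.e_E, C.e_F]
  rw [← h]
  abel

theorem eq_zero_of_ι_E {r : R} (hr : C.ι r * C.E = 0) : r = 0 := by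
  refine C.inj ?_
  rw [map_zero, ← C.mul_e r, ← C.EF_add, mul_add, ← mul_assoc, hr, zero_mul, zero_add,
    ← mul_assoc, C.F_comm, mul_assoc, hr, mul_zero]

include hX hY in
theorem Φ_injective : Function.Injective C.Φ := by
  intro A B h
  ext i j
  have key : ∀ D : Matrix (Fin 2) (Fin 2) R,
      C.Φ (Matrix.single 0 i 1 * D * Matrix.single j 1 1) = C.ι (D i j) * C.E := fun D => by
    rw [Matrix.single_mul_mul_single]
    simp [Φ]
  have := congrArg (fun T => C.Φ (Matrix.single 0 i 1) * T * C.Φ (Matrix.single j 1 1)) h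
  simp only [← C.Φ_mul hX hY, key] at this
  rw [← sub_eq_zero]
  refine C.eq_zero_of_ι_E ?_
  rw [map_sub, sub_mul, this, sub_self]

theorem rep_injective : Function.Injective (C.rep hX hY) := by
  rw [injective_iff_map_eq_one]
  intro g hg
  refine Subtype.ext (C.Φ_injective hX hY ?_)
  rw [← C.rep_mul_e hX hY, hg, Matrix.SpecialLinearGroup.coe_one, C.Φ_one, Units.val_one, one_mul]

end Corner

end Cfsg.Agent.Lib.QuadRoot
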