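import Cfsg.Agent.Lib.QuadRoot.Bridge

/-! Pairs of root subgroups. -/

set_option autoImplicit false

namespace Cfsg.Agent.Lib.QuadRoot

open scoped Pointwise commutatorElement

universe u v

variable {k : Type u} [Field k] {M : Type v} [AddCommGroup M] [Module k M] [FiniteDimensional k M]
  {G : Subgroup (LinearMap.GeneralLinearGroup k M)} {X Y Z : Module.End k M}

/-- the group commutator of two unipotent elements -/
theorem group_comm (hX : X * X = 0) (hY : Y * Y = 0) (h : X * Y * X = 0) (h' : Y * X * Y = 0) :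
    ((uni X hX * uni Y hY * (uni X hX)⁻¹ * (uni Y hY)⁻¹ : LinearMap.GeneralLinearGroup k M) : Module.End k M) =
      1 + (X * Y - Y * X) := by
  simp only [Units.val_mul, coe_uni, coe_uni_inv]
  rw [comm_eq hY hX h', h, sub_zero]

theorem sandwich_cls (h2 : (2 : k) ≠ 0) (hX : Root G X) (hY : Root G Y) (h : X * Y * X = 0)
    {X' Y' : Module.End k M} (hX' : X' ∈ cls G X hX.1.1) (hY' : Y' ∈ cls G Y hY.1.1) :
    X' * Y' * X' = 0 ∧ Y' * X' * Y' = 0 := by
  by_cases hx0 : X' = 0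
  · simp [hx0]
  by_cases hy0 : Y' = 0
  · simp [hy0]
  obtain ⟨hXr, hXs⟩ := hX.same_of_mem_cls hX' hx0
  obtain ⟨hYr, hYs⟩ := hY.same_of_mem_cls hY' hy0
  have h1 : X' * Y * X' = 0 := (sandwich_eq_zero_of_same hXs h).1
  have h2' : Y' * X' * Y' = 0 := (sandwich_eq_zero_of_same hYs (sandwich_symm h2 hY hXr.1 h1)).1
  exact ⟨sandwich_symm h2 hXr hYr.1 h2', h2'⟩

theorem comm_cls (h2 : (2 : k) ≠ 0) (hX : Root G X) (hY : Root G Y) (hne : X * Y ≠ Y * X)
    {X' Y' : Module.End k M} (hX' : X' ∈ cls G X hX.1.1) (hY' : Y' ∈ cls G Y hY.1.1) (hx0 : X' ≠ 0)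
    (hy0 : Y' ≠ 0) : X' * Y' ≠ Y' * X' := by
  intro hc
  obtain ⟨hXr, hXs⟩ := hX.same_of_mem_cls hX' hx0
  obtain ⟨hYr, hYs⟩ := hY.same_of_mem_cls hY' hy0
  have h1 : X * Y' = Y' * X := comm_of_same h2 hXr hYr hX hXs.symm hc
  exact hne (comm_of_same h2 hYr hX hY hYs.symm h1.symm).symm

/-- The product of three members of a unipotent pair of classes vanishes. -/
theorem triple (h2 : (2 : k) ≠ 0) (hX : Root G X) (hY : Root G Y) (h : X * Y * X = 0) :
    ∀ a ∈ (cls G X hX.1.1 : Set (Module.End k M)) ∪ cls G Y hY.1.1,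
    ∀ b ∈ (cls G X hX.1.1 : Set (Module.End k M)) ∪ cls G Y hY.1.1,
    ∀ c ∈ (cls G X hX.1.1 : Set (Module.End k M)) ∪ cls G Y hY.1.1, a * b * c = 0 := by
  have hsq : ∀ {X : Module.End k M} (hX : X * X = 0), ∀ a ∈ cls G X hX, ∀ b ∈ cls G X hX, a * b = 0 :=
    fun hX a ha b hb => mul_eq_zero_iff_range_le_ker.mpr ((hb.2.1.trans (range_le_ker hX)).trans ha.2.2)
  have halt : ∀ {X Y : Module.End k M} (hX : Root G X) (hY : Root G Y), X * Y * X = 0 →
      ∀ a ∈ cls G X hX.1.1, ∀ b ∈ cls G Y hY.1.1, ∀ c ∈ cls G X hX.1.1, a * b * c = 0 := by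
    intro X Y hX hY h a ha b hb c hc
    by_cases ha0 : a = 0
    · simp [ha0]
    by_cases hc0 : c = 0
    · simp [hc0]
    obtain ⟨har, has⟩ := hX.same_of_mem_cls ha ha0
    obtain ⟨hcr, hcs⟩ := hX.same_of_mem_cls hc hc0
    exact (sandwich_eq_zero_of_same (hcs.trans has.symm) (sandwich_cls h2 hX hY h ha hb).1).2.1
  have h' := sandwich_symm h2 hY hX.1 h
  rintro a (ha | ha) b (hb | hb) c (hc | hc)
  · rw [hsq hX.1.1 a ha b hb, zero_mul]
  · rw [hsq hX.1.1 a ha b hb, zero_mul]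
  · exact halt hX hY h a ha b hb c hc
  · rw [mul_assoc, hsq hY.1.1 b hb c hc, mul_zero]
  · rw [mul_assoc, hsq hX.1.1 b hb c hc, mul_zero]
  · exact halt hY hX h' a ha b hb c hc
  · rw [hsq hY.1.1 a ha b hb, zero_mul]
  · rw [hsq hY.1.1 a ha b hb, zero_mul]

theorem unipotent_iff (h2 : ringChar k ≠ 2) (h3 : Nat.card k ≠ 3) (hX : Root G X) (hY : Root G Y) :
    Cfsg.IsUnipotentOn (grp G X hX.1.1 ⊔ grp G Y hY.1.1) ↔ X * Y * X = 0 := by
  constructor
  · rintro ⟨n, hn⟩
    by_contra hne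
    obtain ⟨F, hF, e1, e2, hr, hk⟩ := exists_inverse h2 h3 hX hY hne
    have hx : uni X hX.1.1 ∈ grp G X hX.1.1 ⊔ grp G Y hY.1.1 :=
      Subgroup.mem_sup_left (uni_mem_grp hX.mem_cls)
    have hf : uni F hF.1.1 ∈ grp G X hX.1.1 ⊔ grp G Y hY.1.1 :=
      Subgroup.mem_sup_right (uni_mem_grp (mem_cls_of_same hF.1 ⟨hr, hk⟩))
    have key : ∀ j, ∃ l : List (LinearMap.GeneralLinearGroup k M),
        (∀ g ∈ l, g ∈ grp G X hX.1.1 ⊔ grp G Y hY.1.1) ∧ l.length = j ∧
        ((l.map fun g : LinearMap.GeneralLinearGroup k M => (g : Module.End k M) - 1).prod * X = X ∨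
         (l.map fun g : LinearMap.GeneralLinearGroup k M => (g : Module.End k M) - 1).prod * X = F * X) := by
      intro j
      induction j with
      | zero => exact ⟨[], by simp, rfl, Or.inl (by simp)⟩
      | succ j ih =>
        obtain ⟨l, hl, hlen, h | h⟩ := ih
        · refine ⟨uni F hF.1.1 :: l, by simpa [hf] using hl, by simp [hlen], Or.inr ?_⟩
          rw [List.map_cons, List.prod_cons, mul_assoc, h, coe_uni, add_sub_cancel_left]
        · refine ⟨uni X hX.1.1 :: l, by simpa [hx] using hl, by simp [hlen], Or.inl ?_⟩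
          rw [List.map_cons, List.prod_cons, mul_assoc, h, coe_uni, add_sub_cancel_left, ← mul_assoc, e1]
    obtain ⟨l, hl, hlen, h⟩ := key n
    have h0 : (l.map fun g : LinearMap.GeneralLinearGroup k M => (g : Module.End k M) - 1).prod = 0 := by
      have := hn l hl hlen
      simpa [← List.map_eq_flatMap, List.map_map, Function.comp_def] using this
    rw [h0, zero_mul] at h
    rcases h with h | h
    · exact hX.2.1 h.symm
    · exact hX.2.1 (by rw [← e1, mul_assoc, ← h, mul_zero])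
  · intro h
    rw [Subgroup.sup_eq_closure]
    refine isUnipotentOn_of_triple ((cls G X hX.1.1 : Set (Module.End k M)) ∪ cls G Y hY.1.1)
      (triple (Ring.two_ne_zero h2) hX hY h) _ ?_
    rintro g (hg | hg)
    · exact Or.inl hg
    · exact Or.inr hg

/-- A rank one pair generates a group which is not nilpotent of class two. -/
theorem not_class_two (h2 : ringChar k ≠ 2) (h3 : Nat.card k ≠ 3) (hX : Root G X) (hY : Root G Y)
    (h : X * Y * X ≠ 0) :
    ⁅⁅grp G X hX.1.1 ⊔ grp G Y hY.1.1, grp G X hX.1.1 ⊔ grp G Y hY.1.1⁆, grp G X hX.1.1 ⊔ grp G Y hY.1.1⁆ ≠ ⊥ := by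
  obtain ⟨F, hF, e1, e2, hr, hk⟩ := exists_inverse h2 h3 hX hY h
  intro hbot
  set R := grp G X hX.1.1 ⊔ grp G Y hY.1.1
  have hx : uni X hX.1.1 ∈ R := Subgroup.mem_sup_left (uni_mem_grp hX.mem_cls)
  have hf : uni F hF.1.1 ∈ R := Subgroup.mem_sup_right (uni_mem_grp (mem_cls_of_same hF.1 ⟨hr, hk⟩))
  set c := uni X hX.1.1 * uni F hF.1.1 * (uni X hX.1.1)⁻¹ * (uni F hF.1.1)⁻¹ with hc
  have hcR : c ∈ ⁅R, R⁆ := Subgroup.commutator_mem_commutator hx hf
  have hcomm := Subgroup.commutator_mem_commutator hcR hx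
  rw [hbot, Subgroup.mem_bot, commutatorElement_eq_one_iff_mul_comm] at hcomm
  have e := congrArg (fun g : LinearMap.GeneralLinearGroup k M => (g : Module.End k M)) hcomm
  simp only [Units.val_mul, coe_uni, mul_add, add_mul, mul_one, one_mul, add_right_inj] at e
  have e3 := congrArg (fun T => X * T) e
  simp only [← mul_assoc, hX.1.1, zero_mul] at e3
  refine hX.2.1 ?_
  rw [← e3]
  have hX2 := hX.1.1
  have w1 : ∀ w : Module.End k M, w * X * X = 0 := fun w => by rw [mul_assoc, hX2, mul_zero]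
  have w2 : ∀ w : Module.End k M, w * F * F = 0 := fun w => by rw [mul_assoc, hF.1.1, mul_zero]
  simp [hc, coe_uni, coe_uni_inv, mul_add, add_mul, mul_sub, sub_mul, ← mul_assoc, hX2, e1, w1, w2]

section Class2

variable (h2 : ringChar k ≠ 2) (h3 : Nat.card k ≠ 3) (hG : NoUnip G) (hX : Root G X) (hY : Root G Y)
  (h : X * Y * X = 0) (hne : X * Y ≠ Y * X)

include h2 h3 hG hX hY h hne

theorem comm_mem_cls {X' Y' : Module.End k M} (hX' : X' ∈ cls G X hX.1.1) (hY' : Y' ∈ cls G Y hY.1.1)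
    (hA : (Y * X - X * Y) * (Y * X - X * Y) = 0) :
    X' * Y' - Y' * X' ∈ cls G (Y * X - X * Y) hA := by
  have h2' : (2 : k) ≠ 0 := Ring.two_ne_zero h2
  by_cases hx0 : X' = 0
  · rw [hx0, zero_mul, mul_zero, sub_zero]; exact Submodule.zero_mem _
  by_cases hy0 : Y' = 0
  · rw [hy0, zero_mul, mul_zero, sub_zero]; exact Submodule.zero_mem _
  obtain ⟨hXr, hXs⟩ := hX.same_of_mem_cls hX' hx0
  obtain ⟨hYr, hYs⟩ := hY.same_of_mem_cls hY' hy0
  obtain ⟨-, -, -, -, hr, hk⟩ := class2 h2' hX hY h hne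
  obtain ⟨hA', -, -, -, hr', hk'⟩ := class2 h2' hXr hYr (sandwich_cls h2' hX hY h hX' hY').1
    (comm_cls h2' hX hY hne hX' hY' hx0 hy0)
  rw [← neg_sub (Y' * X') (X' * Y')]
  refine Submodule.neg_mem _ (mem_cls_of_same hA'.1 ⟨?_, ?_⟩)
  · rw [hr', hr, hXs.1, hXs.2, hYs.1, hYs.2]
  · rw [hk', hk, hXs.1, hXs.2, hYs.1, hYs.2]

theorem comm_grp_le (hA : (Y * X - X * Y) * (Y * X - X * Y) = 0) {e f : LinearMap.GeneralLinearGroup k M}
    (he : e ∈ grp G X hX.1.1) (hf : f ∈ grp G Y hY.1.1) :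
    e * f * e⁻¹ * f⁻¹ ∈ grp G (Y * X - X * Y) hA := by
  have h2' : (2 : k) ≠ 0 := Ring.two_ne_zero h2
  obtain ⟨s1, s2⟩ := sandwich_cls h2' hX hY h (mem_grp.mp he) (mem_grp.mp hf)
  rw [mem_grp, eq_uni (mem_grp.mp he).1.1, eq_uni (mem_grp.mp hf).1.1]
  show ((_ : LinearMap.GeneralLinearGroup k M) : Module.End k M) - 1 ∈ _
  rw [group_comm _ _ s1 s2, add_sub_cancel_left]
  exact comm_mem_cls h2 h3 hG hX hY h hne (mem_grp.mp he) (mem_grp.mp hf) hA

theorem closure_eq_left (hA : (Y * X - X * Y) * (Y * X - X * Y) = 0) {e : LinearMap.GeneralLinearGroup k M}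
    (he : e ∈ grp G X hX.1.1) (he1 : e ≠ 1) :
    Subgroup.closure ((fun f : LinearMap.GeneralLinearGroup k M => e * f * e⁻¹ * f⁻¹) ''
      (grp G Y hY.1.1 : Set (LinearMap.GeneralLinearGroup k M))) = grp G (Y * X - X * Y) hA := by
  have h2' : (2 : k) ≠ 0 := Ring.two_ne_zero h2
  refine le_antisymm ((Subgroup.closure_le _).mpr ?_) ?_
  · rintro _ ⟨f, hf, rfl⟩
    exact comm_grp_le h2 h3 hG hX hY h hne hA he hf
  · intro g hg
    have hx0 : nil e ≠ 0 := fun e0 => he1 (Units.ext (sub_eq_zero.mp e0))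
    obtain ⟨hXr, hXs⟩ := hX.same_of_mem_cls (mem_grp.mp he) hx0
    have s := sandwich_cls h2' hX hY h (mem_grp.mp he) hY.mem_cls
    have hne' := comm_cls h2' hX hY hne (mem_grp.mp he) hY.mem_cls hx0 hY.2.1
    obtain ⟨hAr, -, -, -, hr, hk⟩ := class2 h2' hX hY h hne
    obtain ⟨hA', -, -, -, hr', hk'⟩ := class2 h2' hXr hY s.1 hne'
    have hsame : Same (Y * nil e - nil e * Y) (Y * X - X * Y) :=
      ⟨by rw [hr', hr, hXs.1, hXs.2], by rw [hk', hk, hXs.1, hXs.2]⟩
    have hg' : -nil g ∈ cls G (Y * nil e - nil e * Y) hA'.1.1 := by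
      rw [cls_eq (hY := hA) hsame]; exact Submodule.neg_mem _ (mem_grp.mp hg)
    obtain ⟨Y', hY', e'⟩ := comm_surjective h2 h3 hG hXr hY s.1 hne' hA'.1.1 _ hg'
    refine Subgroup.subset_closure ⟨uni Y' hY'.1.1, uni_mem_grp hY', ?_⟩
    refine Units.ext ?_
    obtain ⟨s1, s2⟩ := sandwich_cls h2' hX hY h (mem_grp.mp he) hY'
    show ((e * uni Y' hY'.1.1 * e⁻¹ * (uni Y' hY'.1.1)⁻¹ : LinearMap.GeneralLinearGroup k M) : Module.End k M) = _
    conv_lhs => rw [eq_uni (mem_grp.mp he).1.1]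
    rw [group_comm _ _ s1 s2, ← neg_sub (Y' * nil e), e', neg_neg, ← coe_eq_nil]

theorem commutator_eq (hA : (Y * X - X * Y) * (Y * X - X * Y) = 0) :
    ⁅grp G X hX.1.1, grp G Y hY.1.1⁆ = grp G (Y * X - X * Y) hA := by
  refine le_antisymm ?_ ?_
  · rw [Subgroup.commutator_le]
    intro e he f hf
    rw [commutatorElement_def]
    exact comm_grp_le h2 h3 hG hX hY h hne hA he hf
  · have hx : uni X hX.1.1 ≠ 1 := fun e => hX.2.1 (by
      rw [← nil_uni hX.1.1, e]; simp [nil])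
    rw [← closure_eq_left h2 h3 hG hX hY h hne hA (uni_mem_grp hX.mem_cls) hx, Subgroup.closure_le]
    rintro _ ⟨f, hf, rfl⟩
    exact Subgroup.commutator_mem_commutator (uni_mem_grp hX.mem_cls) hf

theorem closure_eq_right (hA : (Y * X - X * Y) * (Y * X - X * Y) = 0) {f : LinearMap.GeneralLinearGroup k M}
    (hf : f ∈ grp G Y hY.1.1) (hf1 : f ≠ 1) :
    Subgroup.closure ((fun e : LinearMap.GeneralLinearGroup k M => e * f * e⁻¹ * f⁻¹) ''
      (grp G X hX.1.1 : Set (LinearMap.GeneralLinearGroup k M))) = grp G (Y * X - X * Y) hA := by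
  have h2' : (2 : k) ≠ 0 := Ring.two_ne_zero h2
  have hB : (X * Y - Y * X) * (X * Y - Y * X) = 0 := by rw [← neg_sub, neg_mul_neg, hA]
  have hs := closure_eq_left h2 h3 hG hY hX (sandwich_symm h2' hY hX.1 h) (Ne.symm hne) hB hf hf1
  rw [show grp G (Y * X - X * Y) hA = grp G (X * Y - Y * X) hB from
    grp_congr (by rw [← neg_sub (X * Y) (Y * X)]; exact same_neg _), ← hs]
  refine le_antisymm ((Subgroup.closure_le _).mpr ?_) ((Subgroup.closure_le _).mpr ?_)
  · rintro _ ⟨e, he, rfl⟩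
    have : (f * e * f⁻¹ * e⁻¹)⁻¹ = e * f * e⁻¹ * f⁻¹ := by group
    show e * f * e⁻¹ * f⁻¹ ∈ Subgroup.closure _
    rw [← this]
    exact inv_mem (Subgroup.subset_closure ⟨e, he, rfl⟩)
  · rintro _ ⟨e, he, rfl⟩
    have : (e * f * e⁻¹ * f⁻¹)⁻¹ = f * e * f⁻¹ * e⁻¹ := by group
    show f * e * f⁻¹ * e⁻¹ ∈ Subgroup.closure _
    rw [← this]
    exact inv_mem (Subgroup.subset_closure ⟨e, he, rfl⟩)

theorem comm_central (hA : (Y * X - X * Y) * (Y * X - X * Y) = 0) {c r : LinearMap.GeneralLinearGroup k M}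
    (hc : c ∈ grp G (Y * X - X * Y) hA) (hr : r ∈ grp G X hX.1.1 ⊔ grp G Y hY.1.1) : c * r = r * c := by
  have h2' : (2 : k) ≠ 0 := Ring.two_ne_zero h2
  obtain ⟨-, a1, a2, -, r1, k1⟩ := class2 h2' hX hY h hne
  have hc' := mem_grp.mp hc
  have hle : grp G X hX.1.1 ⊔ grp G Y hY.1.1 ≤ Subgroup.centralizer {c} := by
    have base : ∀ (P : Module.End k M) (g : LinearMap.GeneralLinearGroup k M),
        LinearMap.range (Y * X - X * Y) ≤ LinearMap.ker P →
        LinearMap.range P ≤ LinearMap.ker (Y * X - X * Y) →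
        LinearMap.range (nil g) ≤ LinearMap.range P → LinearMap.ker P ≤ LinearMap.ker (nil g) →
        g ∈ Subgroup.centralizer {c} := by
      intro P g p1 p2 g1 g2
      rw [Subgroup.mem_centralizer_singleton_iff]
      refine Units.ext ?_
      have e1 : nil c * nil g = 0 := mul_eq_zero_iff_range_le_ker.mpr ((g1.trans p2).trans hc'.2.2)
      have e2 : nil g * nil c = 0 := mul_eq_zero_iff_range_le_ker.mpr ((hc'.2.1.trans p1).trans g2)
      rw [Units.val_mul, Units.val_mul, coe_eq_nil c, coe_eq_nil g]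
      simp only [mul_add, add_mul, mul_one, one_mul, e1, e2]; abel
    refine sup_le (fun g hg => base X g ?_ ?_ hg.2.1 hg.2.2) (fun g hg => base Y g ?_ ?_ hg.2.1 hg.2.2)
    · rw [r1]; exact sup_le (inf_le_left.trans (range_le_ker hX.1.1)) inf_le_right
    · rw [k1]; exact le_inf le_sup_left ((range_le_ker hX.1.1).trans le_sup_right)
    · rw [r1]; exact sup_le inf_le_right (inf_le_left.trans (range_le_ker hY.1.1))
    · rw [k1]; exact le_inf ((range_le_ker hY.1.1).trans le_sup_right) le_sup_left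
  exact (Subgroup.mem_centralizer_singleton_iff.mp (hle hr)).symm

theorem class_two (hA : (Y * X - X * Y) * (Y * X - X * Y) = 0) :
    ⁅grp G X hX.1.1 ⊔ grp G Y hY.1.1, grp G X hX.1.1 ⊔ grp G Y hY.1.1⁆ ≠ ⊥ ∧
    ⁅⁅grp G X hX.1.1 ⊔ grp G Y hY.1.1, grp G X hX.1.1 ⊔ grp G Y hY.1.1⁆,
      grp G X hX.1.1 ⊔ grp G Y hY.1.1⁆ = ⊥ := by
  set R := grp G X hX.1.1 ⊔ grp G Y hY.1.1 with hR
  set L := grp G (Y * X - X * Y) hA with hL
  have hLR : L ≤ R := by
    rw [hL, ← commutator_eq h2 h3 hG hX hY h hne hA]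
    exact (Subgroup.commutator_mono le_sup_left le_sup_right).trans (Subgroup.commutator_le_self R)
  constructor
  · intro hbot
    have hx := uni_mem_grp hX.mem_cls
    have hy := uni_mem_grp hY.mem_cls
    have hc := Subgroup.commutator_mem_commutator (Subgroup.mem_sup_left (T := grp G Y hY.1.1) hx)
      (Subgroup.mem_sup_right (S := grp G X hX.1.1) hy)
    rw [hbot, Subgroup.mem_bot, commutatorElement_eq_one_iff_mul_comm] at hc
    have e := congrArg (fun g : LinearMap.GeneralLinearGroup k M => (g : Module.End k M)) hc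
    simp only [Units.val_mul, coe_uni, mul_add, add_mul, mul_one, one_mul] at e
    refine hne ?_
    have : X * Y - Y * X = 0 := by linear_combination (norm := abel) e
    exact sub_eq_zero.mp this
  · have key : ⁅R, R⁆ ≤ L := by
      have hnorm : ∀ r ∈ R, ∀ l ∈ L, r * l * r⁻¹ = l := fun r hr l hl => by
        rw [← comm_central h2 h3 hG hX hY h hne hA hl hr, mul_inv_cancel_right]
      have comm2 : ∀ a ∈ R, ∀ b ∈ R, ∀ c ∈ R, ⁅a, b⁆ ∈ L → ⁅a, c⁆ ∈ L → ⁅a, b * c⁆ ∈ L := by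
        intro a ha b hb c hc h1 h2'
        rw [show ⁅a, b * c⁆ = ⁅a, b⁆ * (b * ⁅a, c⁆ * b⁻¹) by simp only [commutatorElement_def]; group,
          hnorm b hb _ h2']
        exact mul_mem h1 h2'
      have commi : ∀ a ∈ R, ∀ b ∈ R, ⁅a, b⁆ ∈ L → ⁅a, b⁻¹⁆ ∈ L := by
        intro a ha b hb h1
        rw [show ⁅a, b⁻¹⁆ = b⁻¹ * ⁅a, b⁆⁻¹ * b⁻¹⁻¹ by simp only [commutatorElement_def]; group,
          hnorm _ (inv_mem hb) _ (inv_mem h1)]
        exact inv_mem h1
      have step1 : ∀ S : Set (LinearMap.GeneralLinearGroup k M), (S ⊆ grp G X hX.1.1 ∨ S ⊆ grp G Y hY.1.1) →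
          ∀ a ∈ S, ∀ b ∈ R, ⁅a, b⁆ ∈ L := by
        intro S hS a ha b hb
        have haR : a ∈ R := hS.elim (fun h' => Subgroup.mem_sup_left (h' ha)) (fun h' => Subgroup.mem_sup_right (h' ha))
        have hb' := hb
        rw [hR, Subgroup.sup_eq_closure] at hb'
        induction hb' using Subgroup.closure_induction with
        | mem x hx =>
          have abel' : ∀ {P : Module.End k M} (hP : P * P = 0), ∀ s ∈ grp G P hP, ∀ t ∈ grp G P hP,
              ⁅s, t⁆ = 1 := by
            intro P hP s hs t ht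
            rw [commutatorElement_eq_one_iff_mul_comm]
            refine Units.ext ?_
            have e1 : nil s * nil t = 0 := mul_eq_zero_iff_range_le_ker.mpr
              (((mem_grp.mp ht).2.1.trans (range_le_ker hP)).trans (mem_grp.mp hs).2.2)
            have e2 : nil t * nil s = 0 := mul_eq_zero_iff_range_le_ker.mpr
              (((mem_grp.mp hs).2.1.trans (range_le_ker hP)).trans (mem_grp.mp ht).2.2)
            rw [Units.val_mul, Units.val_mul, coe_eq_nil s, coe_eq_nil t]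
            simp only [mul_add, add_mul, mul_one, one_mul, e1, e2]; abel
          rcases hS with h' | h' <;> rcases hx with hx | hx
          · rw [abel' hX.1.1 a (h' ha) x hx]; exact one_mem _
          · exact comm_grp_le h2 h3 hG hX hY h hne hA (h' ha) hx
          · rw [← commutatorElement_inv]
            exact inv_mem (comm_grp_le h2 h3 hG hX hY h hne hA hx (h' ha))
          · rw [abel' hY.1.1 a (h' ha) x hx]; exact one_mem _
        | one => simp
        | mul x y hx hy ihx ihy =>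
          rw [← Subgroup.sup_eq_closure] at hx hy
          exact comm2 a haR x hx y hy (ihx hx) (ihy hy)
        | inv x hx ihx =>
          rw [← Subgroup.sup_eq_closure] at hx
          exact commi a haR x hx (ihx hx)
      rw [Subgroup.commutator_le]
      intro a ha b hb
      have ha' := ha
      rw [hR, Subgroup.sup_eq_closure] at ha'
      induction ha' using Subgroup.closure_induction with
      | mem x hx =>
        rcases hx with hx | hx
        · exact step1 _ (Or.inl le_rfl) x hx b hb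
        · exact step1 _ (Or.inr le_rfl) x hx b hb
      | one => simp
      | mul x y hx hy ihx ihy =>
        rw [← Subgroup.sup_eq_closure] at hx hy
        rw [show ⁅x * y, b⁆ = x * ⁅y, b⁆ * x⁻¹ * ⁅x, b⁆ by simp only [commutatorElement_def]; group,
          hnorm x hx _ (ihy hy)]
        exact mul_mem (ihy hy) (ihx hx)
      | inv x hx ihx =>
        rw [← Subgroup.sup_eq_closure] at hx
        rw [show ⁅x⁻¹, b⁆ = x⁻¹ * ⁅x, b⁆⁻¹ * x⁻¹⁻¹ by simp only [commutatorElement_def]; group,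
          hnorm _ (inv_mem hx) _ (inv_mem (ihx hx))]
        exact inv_mem (ihx hx)
    rw [eq_bot_iff, Subgroup.commutator_le]
    intro c hc r hr
    rw [Subgroup.mem_bot, commutatorElement_eq_one_iff_mul_comm]
    exact comm_central h2 h3 hG hX hY h hne hA (key hc) hr

theorem core (hA : (Y * X - X * Y) * (Y * X - X * Y) = 0) :
    ((grp G X hX.1.1 ⊔ grp G Y hY.1.1 : Subgroup (LinearMap.GeneralLinearGroup k M)) :
      Set (LinearMap.GeneralLinearGroup k M)) ⊆
      Cfsg.quadraticUnipotentCore G (grp G (Y * X - X * Y) hA) := by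
  have h2' : (2 : k) ≠ 0 := Ring.two_ne_zero h2
  obtain ⟨hAr, a1, a2, -, r1, k1⟩ := class2 h2' hX hY h hne
  set N := LinearMap.range (Y * X - X * Y) with hN
  set C := LinearMap.ker (Y * X - X * Y) with hC
  have hNC : N ≤ C := range_le_ker hA
  intro g hg
  have hP : (∀ m : M, nil g m ∈ C) ∧ (∀ m ∈ C, nil g m ∈ N) ∧ (∀ m ∈ N, nil g m = 0) := by
    have hg' : g ∈ Subgroup.closure ((grp G X hX.1.1 : Set (LinearMap.GeneralLinearGroup k M)) ∪ grp G Y hY.1.1) := by
      rw [← Subgroup.sup_eq_closure]; exact hg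
    have base : ∀ x ∈ (grp G X hX.1.1 : Set (LinearMap.GeneralLinearGroup k M)) ∪ grp G Y hY.1.1,
        (∀ m : M, nil x m ∈ C) ∧ (∀ m ∈ C, nil x m ∈ N) ∧ (∀ m ∈ N, nil x m = 0) := by
      rintro x (hx | hx)
      · obtain ⟨-, x1, x2⟩ := mem_grp.mp hx
        refine ⟨fun m => ?_, fun m hm => ?_, fun m hm => ?_⟩
        · have := x1 ⟨m, rfl⟩
          rw [k1]; exact ⟨Submodule.mem_sup_left this, Submodule.mem_sup_right (range_le_ker hX.1.1 this)⟩
        · rw [k1] at hm
          obtain ⟨j, hj, q, hq, rfl⟩ := Submodule.mem_sup.mp hm.2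
          rw [map_add, LinearMap.mem_ker.mp (x2 hq), add_zero]
          by_cases h0 : nil x = 0
          · simp [h0]
          have hs := (hX.same_of_mem_cls (mem_grp.mp hx) h0).2
          obtain ⟨n, hn⟩ := x1 ⟨j, rfl⟩
          rw [r1]
          refine Submodule.mem_sup_left ⟨⟨n, hn⟩, ?_⟩
          obtain ⟨i, rfl⟩ := hj
          exact LinearMap.congr_fun (sandwich_cls h2' hX hY h (mem_grp.mp hx) hY.mem_cls).2 i
        · rw [r1] at hm
          obtain ⟨a, ha, b, hb, rfl⟩ := Submodule.mem_sup.mp hm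
          rw [map_add, LinearMap.mem_ker.mp (x2 (range_le_ker hX.1.1 ha.1)),
            LinearMap.mem_ker.mp (x2 hb.2), add_zero]
      · obtain ⟨-, x1, x2⟩ := mem_grp.mp hx
        refine ⟨fun m => ?_, fun m hm => ?_, fun m hm => ?_⟩
        · have := x1 ⟨m, rfl⟩
          rw [k1]; exact ⟨Submodule.mem_sup_right (range_le_ker hY.1.1 this), Submodule.mem_sup_left this⟩
        · rw [k1] at hm
          obtain ⟨j, hj, q, hq, rfl⟩ := Submodule.mem_sup.mp hm.1
          rw [map_add, LinearMap.mem_ker.mp (x2 hq), add_zero]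
          obtain ⟨n, hn⟩ := x1 ⟨j, rfl⟩
          rw [r1]
          refine Submodule.mem_sup_right ⟨⟨n, hn⟩, ?_⟩
          obtain ⟨i, rfl⟩ := hj
          exact LinearMap.congr_fun (sandwich_cls h2' hX hY h hX.mem_cls (mem_grp.mp hx)).1 i
        · rw [r1] at hm
          obtain ⟨a, ha, b, hb, rfl⟩ := Submodule.mem_sup.mp hm
          rw [map_add, LinearMap.mem_ker.mp (x2 (range_le_ker hY.1.1 hb.1)),
            LinearMap.mem_ker.mp (x2 ha.2), add_zero]
    induction hg' using Subgroup.closure_induction'' with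
    | one => simp [nil]
    | mem x hx => exact base x hx
    | inv_mem x hx => exact base x⁻¹ (hx.imp (fun h => inv_mem h) (fun h => inv_mem h))
    | mul x y hx hy ihx ihy =>
      rw [← Subgroup.sup_eq_closure] at hx hy
      obtain ⟨p1, p2, p3⟩ := ihx hx
      obtain ⟨q1, q2, q3⟩ := ihy hy
      have e : ∀ m, nil (x * y) m = nil x m + nil y m + nil x (nil y m) := fun m => by
        simp only [nil, Units.val_mul, LinearMap.sub_apply, Module.End.mul_apply, Module.End.one_apply, map_sub]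
        abel
      refine ⟨fun m => ?_, fun m hm => ?_, fun m hm => ?_⟩
      · rw [e]; exact C.add_mem (C.add_mem (p1 m) (q1 m)) (p1 _)
      · rw [e]; exact N.add_mem (N.add_mem (p2 m hm) (q2 m hm)) (p2 _ (hNC (q2 m hm)))
      · rw [e, p3 m hm, q3 m hm, map_zero]; simp
  obtain ⟨P1, P2, P3⟩ := hP
  have hgG : g ∈ G := sup_le (grp_le _) (grp_le _) hg
  have hf := grp_fixed hAr
  have hcm := grp_commutator hAr
  refine ⟨hgG, ?_, fun m => ?_, fun m hm => ?_, fun m hm => ?_⟩
  · rw [Subgroup.mem_normalizer_iff]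
    intro c
    constructor
    · intro hc
      rw [← comm_central h2 h3 hG hX hY h hne hA hc hg, mul_inv_cancel_right]; exact hc
    · intro hc
      have e := comm_central h2 h3 hG hX hY h hne hA hc (inv_mem hg)
      have : c = g * c * g⁻¹ := by
        calc c = g⁻¹ * (g * c * g⁻¹) * g := by group
          _ = g * c * g⁻¹ := by rw [← e, inv_mul_cancel_right]
      exact this ▸ hc
  · rw [hf]; exact P1 m
  · rw [hf] at hm; rw [hcm]; exact P2 m hm
  · rw [hcm] at hm; exact sub_eq_zero.mp (P3 m hm)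

end Class2

end Cfsg.Agent.Lib.QuadRoot

namespace Cfsg.Agent.Lib.QuadRoot

open scoped commutatorElement

universe u' v'

variable {k : Type u'} [Field k] {M : Type v'} [AddCommGroup M] [Module k M] [FiniteDimensional k M]
  {G : Subgroup (LinearMap.GeneralLinearGroup k M)} {X Y : Module.End k M}

theorem grp_mul_comm (h2 : (2 : k) ≠ 0) (hX : Root G X) (hY : Root G Y) (hc : X * Y = Y * X)
    {e f : LinearMap.GeneralLinearGroup k M} (he : e ∈ grp G X hX.1.1) (hf : f ∈ grp G Y hY.1.1) :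
    e * f = f * e := by
  have key : nil e * nil f = nil f * nil e := by
    by_cases h0 : nil e = 0
    · simp [h0]
    by_cases h1 : nil f = 0
    · simp [h1]
    obtain ⟨hXr, hXs⟩ := hX.same_of_mem_cls (mem_grp.mp he) h0
    obtain ⟨hYr, hYs⟩ := hY.same_of_mem_cls (mem_grp.mp hf) h1
    exact (comm_of_same h2 hY hXr hYr hYs (comm_of_same h2 hX hY hXr hXs hc).symm).symm
  refine Units.ext ?_
  rw [Units.val_mul, Units.val_mul, coe_eq_nil e, coe_eq_nil f]
  simp only [mul_add, add_mul, mul_one, one_mul, key]; abel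

theorem commute_grp (h2 : (2 : k) ≠ 0) (hX : Root G X) (hY : Root G Y) (hc : X * Y = Y * X) :
    ⁅grp G X hX.1.1, grp G Y hY.1.1⁆ = ⊥ := by
  rw [eq_bot_iff, Subgroup.commutator_le]
  intro e he f hf
  rw [Subgroup.mem_bot, commutatorElement_eq_one_iff_mul_comm]
  exact grp_mul_comm h2 hX hY hc he hf

theorem commute_sup (h2 : (2 : k) ≠ 0) (hX : Root G X) (hY : Root G Y) (hc : X * Y = Y * X) :
    ⁅grp G X hX.1.1 ⊔ grp G Y hY.1.1, grp G X hX.1.1 ⊔ grp G Y hY.1.1⁆ = ⊥ := by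
  rw [Subgroup.commutator_eq_bot_iff_le_centralizer]
  have h' : ∀ (P : Module.End k M) (hP : Root G P), grp G P hP.1.1 ≤ Subgroup.centralizer (grp G P hP.1.1 : Set _) :=
    fun P hP a ha b hb => grp_mul_comm h2 hP hP rfl hb ha
  have hcx : grp G X hX.1.1 ≤ Subgroup.centralizer
      ((grp G X hX.1.1 ⊔ grp G Y hY.1.1 : Subgroup _) : Set (LinearMap.GeneralLinearGroup k M)) := by
    rw [Subgroup.le_centralizer_iff]
    exact sup_le (h' X hX) fun a ha b hb => grp_mul_comm h2 hX hY hc hb ha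
  refine sup_le hcx ?_
  rw [Subgroup.le_centralizer_iff]
  exact sup_le (fun a ha b hb => (grp_mul_comm h2 hX hY hc ha hb).symm) (h' Y hY)

end Cfsg.Agent.Lib.QuadRoot
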