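import Cfsg.Agent.Lib.QuadRoot.Parts
import Cfsg.Agent.Lib.QuadRoot.Normal

/-! The groups of the parts are quasisimple. -/

set_option autoImplicit false

namespace Cfsg.Agent.Lib.QuadRoot

open scoped commutatorElement

universe u v

variable {k : Type u} [Field k] {M : Type v} [AddCommGroup M] [Module k M] [FiniteDimensional k M]
  {G : Subgroup (LinearMap.GeneralLinearGroup k M)} {X Y Z E : Module.End k M}

/-- Root elements are commutators in their rank one groups. -/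
theorem torus (hk2 : ringChar k ≠ 2) (hk3 : Nat.card k ≠ 3) (hZ : Root G Z) (hY : Root G Y) (h : Z * Y * Z ≠ 0) :
    ∃ d ∈ grp G Z hZ.1.1 ⊔ grp G Y hY.1.1, ∃ e ∈ grp G Z hZ.1.1, uni Z hZ.1.1 = d * e * d⁻¹ * e⁻¹ := by
  obtain ⟨t, ht0, ht1⟩ := exists_ne_pm (Ring.two_ne_zero hk2) hk3
  obtain ⟨F, hF, e1, e2, hr, hk⟩ := exists_inverse hk2 hk3 hZ hY h
  have hFY : F ∈ cls G Y hY.1.1 := mem_cls_of_same hF.1 ⟨hr, hk⟩
  have hw : ∀ c : k, c ≠ 0 → ∃ w ∈ grp G Z hZ.1.1 ⊔ grp G Y hY.1.1, cj w Z = -((c⁻¹ * c⁻¹) • F) := by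
    intro c hc
    have m1 := Subgroup.mem_sup_left (T := grp G Y hY.1.1) (uni_mem_grp (Submodule.smul_mem _ c hZ.mem_cls))
    have m2 := Subgroup.mem_sup_right (S := grp G Z hZ.1.1) (uni_mem_grp (Submodule.smul_mem _ c⁻¹ hFY))
    refine ⟨_, mul_mem (mul_mem m1 (inv_mem m2)) m1, ?_⟩
    have f1 : (c • Z) * (c⁻¹ • F) * (c • Z) = c • Z := by
      rw [smul_mul_smul_comm, smul_mul_smul_comm, e1, mul_inv_cancel₀ hc, one_mul]
    have f2 : (c⁻¹ • F) * (c • Z) * (c⁻¹ • F) = c⁻¹ • F := by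
      rw [smul_mul_smul_comm, smul_mul_smul_comm, e2, inv_mul_cancel₀ hc, one_mul]
    have := conj_neg_inverse (smul_sq hZ.1.1 c) (smul_sq hF.1.1 c⁻¹) f1 f2
    rw [cj_smul] at this
    have := congrArg (c⁻¹ • ·) this
    simp only [smul_smul, inv_mul_cancel₀ hc, one_smul, smul_neg] at this
    exact this
  obtain ⟨w, hwm, hw1⟩ := hw 1 one_ne_zero
  obtain ⟨w', hwm', hwt⟩ := hw t ht0
  rw [inv_one, one_mul, one_smul] at hw1
  have hwinv : cj w⁻¹ F = -Z := by
    have h' := congrArg (cj w⁻¹) hw1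
    rw [cj_inv_cj] at h'
    conv_rhs => rw [h']
    rw [show -F = (-1 : k) • F by simp, cj_smul]
    simp
  have hd : cj (w⁻¹ * w') Z = (t⁻¹ * t⁻¹) • Z := by
    rw [← cj_cj, hwt, show -((t⁻¹ * t⁻¹) • F) = (-(t⁻¹ * t⁻¹)) • F by simp, cj_smul, hwinv]
    simp
  have hne : t⁻¹ * t⁻¹ - 1 ≠ 0 := by
    rw [sub_ne_zero, ← mul_inv, ne_eq, inv_eq_one]
    exact ht1
  set s := (t⁻¹ * t⁻¹ - 1)⁻¹
  refine ⟨w⁻¹ * w', mul_mem (inv_mem hwm) hwm', _, uni_mem_grp (Submodule.smul_mem _ s hZ.mem_cls), ?_⟩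
  refine Units.ext ?_
  rw [Units.val_mul, cj_coe, coe_uni, coe_uni, coe_uni_inv, cj_add, cj_one, cj_smul, hd, smul_smul]
  have hs : s * (t⁻¹ * t⁻¹) - s = 1 := by
    rw [show s * (t⁻¹ * t⁻¹) - s = s * (t⁻¹ * t⁻¹ - 1) by ring]
    exact inv_mul_cancel₀ hne
  rw [mul_sub, mul_one, add_mul, one_mul, smul_mul_smul_comm, hZ.1.1, smul_zero, add_zero, add_sub_assoc,
    ← sub_smul, hs, one_smul]

variable {N : Subgroup (LinearMap.GeneralLinearGroup k M)}

/-- A normal subgroup moving a root to a non-commuting one contains a root group. -/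
theorem grp_le_of_moving (hk2 : ringChar k ≠ 2) (hk3 : Nat.card k ≠ 3) (hG : NoUnip G) (hE : Root G E)
    (hc : Conn G X E) (hNK : N ≤ partGrp G X) (hN : ∀ g ∈ partGrp G X, ∀ n ∈ N, g * n * g⁻¹ ∈ N)
    {n : LinearMap.GeneralLinearGroup k M} (hn : n ∈ N) (hne : E * cj n E ≠ cj n E * E) :
    ∃ (L : Module.End k M) (hL : Root G L), Conn G X L ∧ grp G L hL.1.1 ≤ N := by
  have h2 : (2 : k) ≠ 0 := Ring.two_ne_zero hk2
  have hnG : n ∈ G := partGrp_le (hNK hn)
  have hE' := hE.cj hnG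
  have hc' : Conn G X (cj n E) := hc.tail ⟨hE, hE', hne⟩
  have hEK := grp_le_partGrp hE hc
  have hE'K := grp_le_partGrp hE' hc'
  let S : Subgroup (LinearMap.GeneralLinearGroup k M) :=
    { carrier := {x | x ∈ partGrp G X ∧ ∀ e ∈ grp G E hE.1.1, x * e * x⁻¹ * e⁻¹ ∈ N}
      one_mem' := ⟨one_mem _, fun e _ => by simp⟩
      mul_mem' := fun {a b} ha hb => ⟨mul_mem ha.1 hb.1, fun e he => by
        have := mul_mem (hN a ha.1 _ (hb.2 e he)) (ha.2 e he)
        convert this using 1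
        group⟩
      inv_mem' := fun {a} ha => ⟨inv_mem ha.1, fun e he => by
        have := hN a⁻¹ (inv_mem ha.1) _ (inv_mem (ha.2 e he))
        convert this using 1
        group⟩ }
  have hcomm : ∀ a ∈ grp G E hE.1.1, ∀ b ∈ grp G E hE.1.1, a * b = b * a := fun a ha b hb =>
    grp_mul_comm h2 hE hE rfl ha hb
  have hS1 : grp G E hE.1.1 ≤ S := fun a ha => ⟨hEK ha, fun e he => by rw [hcomm a ha e he]; simp⟩
  have hS2 : grp G (cj n E) hE'.1.1 ≤ S := by
    intro f hf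
    refine ⟨hE'K hf, fun e he => ?_⟩
    rw [← conjBy_grp hE.1.1 hnG hE'.1.1] at hf
    obtain ⟨a, ha, rfl⟩ := hf
    show n * a * n⁻¹ * e * (n * a * n⁻¹)⁻¹ * e⁻¹ ∈ N
    have m : n * a * n⁻¹ * a⁻¹ ∈ N := by
      have := mul_mem hn (hN a (hEK ha) _ (inv_mem hn))
      convert this using 1
      group
    have := mul_mem m (hN e (hEK he) _ (inv_mem m))
    convert this using 1
    have e' : a * e * a⁻¹ = e := by rw [hcomm a ha e he, mul_inv_cancel_right]
    calc n * a * n⁻¹ * e * (n * a * n⁻¹)⁻¹ * e⁻¹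
        = n * a * n⁻¹ * a⁻¹ * (a * e * a⁻¹) * (n * a * n⁻¹ * a⁻¹)⁻¹ * e⁻¹ := by group
      _ = _ := by rw [e']; group
  by_cases h : E * cj n E * E = 0
  · obtain ⟨hA, -⟩ := class2 h2 hE hE' h hne
    refine ⟨_, hA, hc.trans (conn_comm h2 hG hE hE' h hne), ?_⟩
    rw [← commutator_eq hk2 hk3 hG hE hE' h hne hA.1.1, Subgroup.commutator_le]
    intro a ha b hb
    have := inv_mem ((hS2 hb).2 a ha)
    rw [commutatorElement_def]
    convert this using 1
    group
  · refine ⟨E, hE, hc, fun g hg => ?_⟩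
    by_cases h0 : nil g = 0
    · rw [show g = 1 from Units.ext (sub_eq_zero.mp h0)]; exact one_mem _
    obtain ⟨hr, hs⟩ := hE.same_of_mem_cls (mem_grp.mp hg) h0
    obtain ⟨d, hd, e, he, heq⟩ := torus hk2 hk3 hr hE'
      (sandwich_ne_cls h2 hE hE' h (mem_grp.mp hg) hE'.mem_cls h0 hE'.2.1)
    rw [eq_uni hr.1.1, heq]
    have hEeq : grp G (nil g) hr.1.1 = grp G E hE.1.1 := grp_congr hs
    rw [hEeq] at hd he
    exact ((sup_le hS1 hS2) hd).2 e he

/-- A normal subgroup of a part is central or everything. -/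
theorem normal_dichotomy (hk2 : ringChar k ≠ 2) (hk3 : Nat.card k ≠ 3) (hG : NoUnip G)
    (hgen : Subgroup.closure (Cfsg.quadraticElements G) = G) (hNK : N ≤ partGrp G X)
    (hN : ∀ g ∈ partGrp G X, ∀ n ∈ N, g * n * g⁻¹ ∈ N) :
    N = partGrp G X ∨ ∀ n ∈ N, ∀ g ∈ partGrp G X, n * g = g * n := by
  have h2 : (2 : k) ≠ 0 := Ring.two_ne_zero hk2
  by_cases hmov : ∀ E, Root G E → Conn G X E → ∀ n ∈ N, E * cj n E = cj n E * E
  swap
  · push Not at hmov
    obtain ⟨E, hE, hc, n, hn, hne⟩ := hmov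
    obtain ⟨L, hL, hcL, hLN⟩ := grp_le_of_moving hk2 hk3 hG hE hc hNK hN hn hne
    refine Or.inl (le_antisymm hNK (iSup₂_le fun A ⟨W, hW, hcW, eA⟩ => ?_))
    subst eA
    obtain ⟨g, hg, hs⟩ := rel_of_conn hk2 hk3 hG (hcL.symm.trans hcW)
    rw [← partGrp_eq_of_conn hcL] at hg
    have hgG : g ∈ G := partGrp_le hg
    rw [← grp_congr (hX := (hL.cj hgG).1.1) hs, ← conjBy_grp hL.1.1 hgG (hL.cj hgG).1.1]
    rintro _ ⟨x, hx, rfl⟩
    exact hN g hg x (hLN hx)
  right
  have hKno : NoUnip (partGrp G X) :=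
    noUnip_normal hG partGrp_le fun g hg => partGrp_conj hk2 hk3 hG hgen hg
  have hNno : NoUnip N := noUnip_normal hKno hNK (conjBy_eq_of_forall hN)
  suffices hall : ∀ E (hE : Root G E), Conn G X E → ∀ n ∈ N, ∀ e ∈ grp G E hE.1.1, n * e = e * n by
    intro n hn
    have hle : partGrp G X ≤ Subgroup.centralizer {n} := iSup₂_le fun A ⟨E, hE, hc, eA⟩ => by
      subst eA
      intro e he
      rw [Subgroup.mem_centralizer_singleton_iff]
      exact (hall E hE hc n hn e he).symm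
    exact fun g hg => (Subgroup.mem_centralizer_singleton_iff.mp (hle hg)).symm
  intro E hE hc
  have hEK := grp_le_partGrp hE hc
  set G' := N ⊔ grp G E hE.1.1 with hG'
  have hG'G : G' ≤ G := sup_le (hNK.trans partGrp_le) (grp_le _)
  have hnorm : grp G E hE.1.1 ≤ Subgroup.normalizer (N : Set (LinearMap.GeneralLinearGroup k M)) := by
    intro e he
    rw [Subgroup.mem_normalizer_iff]
    refine fun x => ⟨hN e (hEK he) x, fun hx => ?_⟩
    simpa [mul_assoc] using hN e⁻¹ (inv_mem (hEK he)) _ hx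
  have hdec : ∀ g ∈ G', ∃ n ∈ N, Same (cj g E) (cj n E) := by
    intro g hg
    rw [hG', ← SetLike.mem_coe, Subgroup.coe_mul_of_right_le_normalizer_left _ _ hnorm] at hg
    obtain ⟨n, hn, e, he, rfl⟩ := hg
    refine ⟨n, hn, ?_⟩
    show Same (cj (n * e) E) _
    rw [← cj_cj]
    refine Same.cj ?_ n
    have : cj e E = E := by
      rw [eq_uni (mem_grp.mp he).1.1]
      refine cj_uni_of_comm _ ?_
      by_cases h0 : nil e = 0
      · simp [h0]
      obtain ⟨hr, hs⟩ := hE.same_of_mem_cls (mem_grp.mp he) h0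
      exact comm_of_same h2 hE hE hr hs rfl
    rw [this]; exact Same.refl E
  let W : Set (Subgroup (LinearMap.GeneralLinearGroup k M)) :=
    {A | ∃ g ∈ G', A = Cfsg.conjBy (grp G E hE.1.1) g}
  have hW := Cfsg.Agent.S5061.result (G := G') (W := W)
    (by rintro A ⟨g, hg, rfl⟩; exact (Subgroup.map_mono le_sup_right).trans (by
          rintro _ ⟨x, hx, rfl⟩; exact mul_mem (mul_mem hg hx) (inv_mem hg)))
    (by
      rintro A ⟨g, hg, rfl⟩ B ⟨g', hg', rfl⟩
      have hP := hE.cj (hG'G hg)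
      have hQ := hE.cj (hG'G hg')
      rw [conjBy_grp hE.1.1 (hG'G hg) hP.1.1, conjBy_grp hE.1.1 (hG'G hg') hQ.1.1]
      refine (unipotent_iff hk2 hk3 hP hQ).mpr ?_
      obtain ⟨n, hn, hs⟩ := hdec g hg
      obtain ⟨n', hn', hs'⟩ := hdec g' hg'
      have hnG := partGrp_le (hNK hn)
      have hn'G := partGrp_le (hNK hn')
      have h0 := hmov E hE hc _ (mul_mem (inv_mem hn) hn')
      have h1 : cj n E * cj n' E = cj n' E * cj n E := by
        have := congrArg (cj n) h0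
        rwa [cj_mul, cj_mul, cj_cj, ← mul_assoc n, mul_inv_cancel, one_mul] at this
      have h2' := comm_of_same h2 (hE.cj hn'G) (hE.cj hnG) hQ hs' h1.symm
      have h3' := comm_of_same h2 (hE.cj hnG) hQ hP hs h2'.symm
      rw [h3', mul_assoc, hP.1.1, mul_zero])
    (by rintro A ⟨g, hg, rfl⟩ g' hg'; exact ⟨g' * g, mul_mem hg' hg, conjBy_conjBy _ g g'⟩)
  set T := ⨆ A ∈ W, A with hT
  have hbot := hNno (T ⊓ N) inf_le_right (conjBy_eq_of_forall fun g hg x hx =>
      Subgroup.mem_inf.mpr ⟨(hW.2 g (Subgroup.mem_sup_left hg)).le ⟨x, hx.1, rfl⟩, mul_mem (mul_mem hg hx.2) (inv_mem hg)⟩)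
    (unipotent_mono inf_le_left hW.1)
  intro n hn e he
  have heT : e ∈ T := by
    refine Subgroup.mem_iSup_of_mem (grp G E hE.1.1) (Subgroup.mem_iSup_of_mem ⟨1, one_mem _, ?_⟩ he)
    exact (conjBy_eq_of_forall (K := grp G E hE.1.1) (A := grp G E hE.1.1)
      (fun g hg x hx => mul_mem (mul_mem hg hx) (inv_mem hg)) 1 (one_mem _)).symm
  have hcm : n * e * n⁻¹ * e⁻¹ ∈ T ⊓ N := by
    refine Subgroup.mem_inf.mpr ⟨mul_mem ((hW.2 n (Subgroup.mem_sup_left hn)).le ⟨e, heT, rfl⟩) (inv_mem heT), ?_⟩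
    have := mul_mem hn (hN e (hEK he) _ (inv_mem hn))
    convert this using 1
    group
  rw [hbot, Subgroup.mem_bot, ← commutatorElement_def, commutatorElement_eq_one_iff_mul_comm] at hcm
  exact hcm

theorem partGrp_perfect (hk2 : ringChar k ≠ 2) (hk3 : Nat.card k ≠ 3) (hG : NoUnip G) :
    ⁅partGrp G X, partGrp G X⁆ = partGrp G X := by
  have h2 : (2 : k) ≠ 0 := Ring.two_ne_zero hk2
  refine le_antisymm (Subgroup.commutator_le_self _) (iSup₂_le fun A ⟨Y, hY, hc, eA⟩ => ?_)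
  subst eA
  intro g hg
  by_cases h0 : nil g = 0
  · rw [show g = 1 from Units.ext (sub_eq_zero.mp h0)]; exact one_mem _
  obtain ⟨hr, hs⟩ := hY.same_of_mem_cls (mem_grp.mp hg) h0
  obtain ⟨W, hW, h⟩ := exists_partner hG hr
  obtain ⟨d, hd, e, he, heq⟩ := torus hk2 hk3 hr hW h
  have hcr : Conn G X (nil g) := hc.trans (conn_of_same hG h2 hY hr hs.symm)
  have hcW : Conn G X W := hcr.tail ⟨hr, hW, noncomm_of_sandwich hr.1.1 h⟩
  rw [eq_uni hr.1.1, heq, ← commutatorElement_def]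
  exact Subgroup.commutator_mem_commutator (sup_le (grp_le_partGrp hr hcr) (grp_le_partGrp hW hcW) hd)
    (grp_le_partGrp hr hcr he)

theorem partGrp_quasisimple (hk2 : ringChar k ≠ 2) (hk3 : Nat.card k ≠ 3) (hG : NoUnip G)
    (hgen : Subgroup.closure (Cfsg.quadraticElements G) = G) (hX : Root G X) :
    Cfsg.IsQuasisimple (partGrp G X) := by
  obtain ⟨K, hK⟩ : ∃ K, K = partGrp G X := ⟨_, rfl⟩
  have hdich := fun N => normal_dichotomy (N := N) hk2 hk3 hG hgen (X := X)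
  have hperf := partGrp_perfect (X := X) hk2 hk3 hG
  have hx := uni_mem_partGrp hX (Relation.ReflTransGen.refl : Conn G X X)
  obtain ⟨Y, hY, h⟩ := exists_partner hG hX
  have hne := noncomm_of_sandwich hX.1.1 h
  have hy := uni_mem_partGrp hY (Relation.ReflTransGen.single ⟨hX, hY, hne⟩ : Conn G X Y)
  rw [← hK] at hdich hperf hx hy ⊢
  constructor
  · refine ⟨Subgroup.map_injective K.subtype_injective ?_⟩
    rw [← MonoidHom.range_eq_map, Subgroup.range_subtype, commutator_def, Subgroup.map_commutator,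
      ← MonoidHom.range_eq_map, Subgroup.range_subtype, hperf]
  · have hnt : Nontrivial (K ⧸ Subgroup.center K) := by
      refine ⟨⟨((⟨_, hx⟩ : K) : K ⧸ Subgroup.center K), 1, fun e => hne ?_⟩⟩
      rw [QuotientGroup.eq_one_iff, Subgroup.mem_center_iff] at e
      have := congrArg (fun g : K => ((g : LinearMap.GeneralLinearGroup k M) : Module.End k M)) (e ⟨_, hy⟩)
      simp only [Subgroup.coe_mul, Units.val_mul, coe_uni, mul_add, add_mul, mul_one, one_mul] at this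
      linear_combination (norm := abel) -this
    refine { exists_pair_ne := hnt.exists_pair_ne, eq_bot_or_eq_top_of_normal := fun Q hQ => ?_ }
    have hN' : (Q.comap (QuotientGroup.mk' (Subgroup.center K))).Normal := hQ.comap _
    rcases hdich ((Q.comap (QuotientGroup.mk' (Subgroup.center K))).map K.subtype)
      (by rintro _ ⟨x, -, rfl⟩; exact x.2)
      (by rintro g hg _ ⟨x, hx, rfl⟩; exact ⟨_, hN'.conj_mem x hx ⟨g, hg⟩, rfl⟩) with e | e
    · right
      rw [← Subgroup.map_comap_eq_self_of_surjective (QuotientGroup.mk'_surjective (Subgroup.center K)) Q]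
      have : Q.comap (QuotientGroup.mk' (Subgroup.center K)) = ⊤ := Subgroup.map_injective K.subtype_injective (by
        rw [e, ← MonoidHom.range_eq_map, Subgroup.range_subtype])
      rw [this, ← MonoidHom.range_eq_map, MonoidHom.range_eq_top.mpr (QuotientGroup.mk'_surjective _)]
    · left
      rw [← Subgroup.map_comap_eq_self_of_surjective (QuotientGroup.mk'_surjective (Subgroup.center K)) Q,
        Subgroup.map_eq_bot_iff, QuotientGroup.ker_mk']
      intro x hx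
      rw [Subgroup.mem_center_iff]
      exact fun g => Subtype.ext (e _ ⟨x, hx, rfl⟩ g g.2).symm

end Cfsg.Agent.Lib.QuadRoot
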